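import Cfsg.Agent.H2.Action
import Cfsg.Agent.H1.Fitting

set_option autoImplicit false

namespace H23
open Subgroup Cfsg
open scoped Pointwise commutatorElement IsMulCommutative

variable {G : Type*} [Group G]

theorem map_autComm_conjAut {A K : Subgroup G} (hAK : A ≤ normalizer (K : Set G)) :
    (H2.autComm (H2.conjAut hAK) ⊤).map K.subtype = ⁅K, A⁆ := by
  apply le_antisymm
  · rw [map_le_iff_le_comap, H2.autComm_le_iff]
    intro a g _
    have := commutator_mem_commutator (inv_mem g.2) a.2
    rw [commutatorElement_def] at this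
    rw [mem_comap]
    simpa [H2.coe_conjAut_apply, mul_assoc] using this
  · rw [commutator_le]
    intro k hk a ha
    refine ⟨_, H2.inv_mul_mem_autComm ⟨a, ha⟩ (mem_top (⟨k, hk⟩ : K)⁻¹), ?_⟩
    simp [H2.coe_conjAut_apply, mul_assoc, commutatorElement_def]

/-- Coprime action with `[K, A] = K`: the fixed points lie in `K'`. -/
theorem inf_centralizer_le_commutator [Finite G] {A K : Subgroup G}
    (hAK : A ≤ normalizer (K : Set G)) (hcop : (Nat.card A).Coprime (Nat.card K))
    (h : ⁅K, A⁆ = K) : K ⊓ centralizer (A : Set G) ≤ ⁅K, K⁆ := by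
  set φ := H2.conjAut hAK
  have hN : H2.AInv φ (commutator K) := H2.aInv_of_characteristic _
  have h1 : H2.autComm φ ⊤ = ⊤ := by
    rw [← H1.map_subtype_eq_self_iff, map_autComm_conjAut, h]
  have h2 := H2.autComm_quotAut (φ := φ) (commutator K) hN ⊤
  rw [h1, map_top_of_surjective _ (QuotientGroup.mk'_surjective _)] at h2
  haveI : IsMulCommutative (K ⧸ commutator K) :=
    Subgroup.Normal.quotient_commutative_iff_commutator_le.2 le_rfl
  have h3 := H2.autFixed_inf_autComm_eq_bot (φ := H2.quotAut φ (commutator K) hN) (V := ⊤)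
    H2.aInv_top (hcop.coprime_dvd_right (by rw [card_top]; exact card_quotient_dvd_card _))
  rw [h2, inf_top_eq] at h3
  rintro x ⟨hx, hc⟩
  have h4 : ((⟨x, hx⟩ : K) : K ⧸ commutator K) ∈ H2.autFixed (H2.quotAut φ (commutator K) hN) := by
    intro a
    refine (H2.quotAut_mk φ _ hN a _).trans ?_
    congr 1
    apply Subtype.ext
    rw [H2.coe_conjAut_apply, mul_inv_eq_iff_eq_mul]
    exact hc a a.2
  rw [h3, mem_bot, QuotientGroup.eq_one_iff] at h4
  rw [← map_subtype_commutator]
  exact ⟨_, h4, rfl⟩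

end H23
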