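import Cfsg.Agent.H23.D5A

/-! Identification of `U₅(2)` and of `U₄(2)` in dimension five. -/

set_option autoImplicit false

namespace H23.D5
open Matrix H12.D5 Cfsg.Geo H27.Asch H12

local notation "vv" => vecMulVec

universe u

theorem exT {k : Type*} [Field k] {y ξ : Fin 5 → Fin 5 → k} (h : ∀ i j, ξ i ⬝ᵥ y j = if i = j then 1 else 0) :
    ∃ T : G5 k, (∀ a, T.val *ᵥ a = ∑ i, a i • y i) ∧ ∀ a, a ᵥ* (T⁻¹).val = ∑ i, a i • ξ i := by
  have XY : (of ξ) * (of y)ᵀ = 1 := by ext i j; exact (h i j).trans (one_apply).symm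
  refine ⟨⟨(of y)ᵀ, of ξ, mul_eq_one_comm.1 XY, XY⟩, fun a => ?_, fun a => ?_⟩ <;> ext i <;>
    simp [mulVec, vecMul, dotProduct, mul_comm]

theorem cj_val {k : Type*} [Field k] {T g : G5 k} {a b : Fin 5 → k}
    (e : g.val = 1 - vv (T.val *ᵥ a) (b ᵥ* (T⁻¹).val)) : (T⁻¹ * g * T).val = 1 - vv a b := by
  simpa [inv_mulVec_mulVec, vecMul_inv_vecMul] using conj_ro e T⁻¹

theorem vv_map {k ι : Type*} [Field k] (σ : k →+* k) (a b : ι → k) : (vv a b).map σ = vv (σ ∘ a) (σ ∘ b) := by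
  ext i j; simp [vecMulVec_apply]

theorem card4 {F : Type*} [Field F] [Fintype F] (p4 : ∀ a : F, a ^ 4 = a) {q : ℕ} (hq : Fintype.card F = q ^ 2) :
    q = 2 := by
  classical
  have c1 := Fintype.one_lt_card (α := F)
  have c2 := (Polynomial.card_le_degree_of_subset_roots (p := (Polynomial.X ^ 4 - Polynomial.X : Polynomial F))
    (Z := Finset.univ) fun a _ => by
      rw [Polynomial.mem_roots (FiniteField.X_pow_card_sub_X_ne_zero F (by norm_num))]; simp [p4])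
  rw [FiniteField.X_pow_card_sub_X_natDegree_eq F (by norm_num), Finset.card_univ, hq] at c2
  rw [hq] at c1
  have : q ≤ 2 := by nlinarith
  interval_cases q <;> simp_all

theorem full {F : Type*} [Field F] [Fintype F] {P : Subgroup (G5 F)} (hP : Hy P) [CharP F 2] (p4 : ∀ a : F, a ^ 4 = a)
    (hq : Fintype.card F = 2 ^ 2) (T : G5 F) (R : ∀ a : Fin 5 → F, ∑ i, a i ^ 3 = 0 →
      Rk 1 (GZ P) (T.val *ᵥ a) ((fun i => a i ^ 2) ᵥ* (T⁻¹).val)) (a : Cfsg.SU 5 F 2) :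
    T * SpecialLinearGroup.toGL a.1 * T⁻¹ ∈ P := by
  let j : Cfsg.SU 5 F 2 →* G5 F := (MulAut.conj T).toMonoidHom.comp (SpecialLinearGroup.toGL.comp (Subgroup.subtype _))
  refine (su_gen hq (by norm_num) (S := P.comap j) fun a v h1 h3 => ?_).ge (Subgroup.mem_top a)
  obtain ⟨-, g, hg, k⟩ := R v h1
  have k' : g = j a := by
    have := cj_val k
    rw [CharTwo.sub_eq_add, ← h3] at this
    rw [show j a = T * SpecialLinearGroup.toGL a.1 * T⁻¹ from rfl,
      ← show T⁻¹ * g * T = SpecialLinearGroup.toGL a.1 from Units.ext this]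
    group
  haveI := scalars_normal (ι := Fin 5) (F := F)
  obtain ⟨x, hx, z, hz, rfl⟩ := Subgroup.mem_sup_of_normal_right.1 hg
  obtain ⟨c, rfl⟩ := exists_sc hz
  have d : (j a).val.det = 1 := (det_units_conj T a.1.1).trans a.1.2
  rw [← k', Units.val_mul, det_mul, mem_SL.1 (hP.sl hx), sc_val, det_smul, det_one, Fintype.card_fin] at d
  obtain rfl : c = 1 := Units.ext (by
    have := p4 c
    have a : (c : F) ^ 2 = 1 := by linear_combination d - c * this
    linear_combination -this + (c ^ 2 + 1) * a : (c : F) = 1)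
  rwa [Subgroup.mem_comap, ← k', map_one, mul_one]

theorem uu2 : UU2.{u} := fun F _ _ P hP hT h2 ⟨ω, hω⟩ κ _ _ hκ y ξ hd hR => by
  obtain ⟨e⟩ : Nonempty (Fin 5 ≃ κ) := ⟨(Fintype.equivFinOfCardEq hκ).symm⟩
  obtain ⟨T, t1, t2⟩ := exT (y := y ∘ e) (ξ := ξ ∘ e) fun i j => by simp [hd]
  haveI : CharP F 2 := CharTwo.of_one_ne_zero_of_two_eq_zero one_ne_zero h2
  have R : ∀ v φ, Rk 1 (GZ P) v φ ↔ ∃ a : Fin 5 → F, (∀ i, a i ^ 4 = a i) ∧ ∑ i, a i ^ 3 = 0 ∧
      vv v φ = vv (T.val *ᵥ a) ((fun i => a i ^ 2) ᵥ* (T⁻¹).val) := fun v φ => by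
    rw [hR, ← (e.arrowCongr (Equiv.refl F)).exists_congr_right]
    refine exists_congr fun a => ?_
    simp only [t1, t2, ← e.sum_comp, e.surjective.forall, Equiv.arrowCongr_apply, Equiv.coe_refl, Function.comp,
      Equiv.symm_apply_apply, id]
  have n0 : (![1, 1, 0, 0, 0] : Fin 5 → F) ≠ 0 := fun k => one_ne_zero (congrFun k 0)
  have G := hP.le_gen (D := Rk 1 (GZ P)) (fun _ _ a => a) (fun _ _ a g hg => a.conj hg)
    ((R _ _).2 ⟨![1, 1, 0, 0, 0], fun i => by fin_cases i <;> simp, by simp [Fin.sum_univ_five, one_add_one_eq_two, h2], rfl⟩)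
    (mt (mulVec_eq_zero_iff T).1 n0) fun k => by
      have := congrFun ((vecMul_inv_vecMul T _).symm.trans (congrArg (· ᵥ* T.val) k)) 0
      simp at this
  have gn : ∀ g ∈ {g : G5 F | ∃ v φ, Rk 1 (GZ P) v φ ∧ g.val = 1 - vv v φ}, ∃ a : Fin 5 → F, (∀ i, a i ^ 4 = a i) ∧
      (T⁻¹ * g * T).val = 1 - vv a (fun i => a i ^ 2) ∧ g⁻¹ = g := fun g ⟨v, φ, a, b⟩ =>
    let ⟨c, c1, _, c3⟩ := (R v φ).1 a
    ⟨c, c1, cj_val (c3 ▸ b), Units.ext (by rw [ro_inv (one_mul 1) a.1 b, one_smul, b])⟩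
  let σ := frobenius F 2
  have s : ∀ a, σ a = a ^ 2 := fun _ => rfl
  have p4 : ∀ a : F, a ^ 4 = a := fun a => by
    have := hT (RingHom.eqLocusField (σ.comp σ) (RingHom.id F)) fun x hx => tr1 T (σ.comp σ) (fun g hg => by
      obtain ⟨a, a1, a2, -⟩ := gn g hg
      rw [a2, Matrix.map_sub _ (map_sub _), vv_map, Matrix.map_one _ (map_zero _) (map_one _)]
      congr 2 <;> ext i <;> simp only [Function.comp, RingHom.comp_apply, s]
      exacts [by rw [← pow_mul, a1], by rw [← pow_mul, ← pow_mul, show 2 * (2 * 2) = 4 * 2 from rfl, pow_mul, a1]]) x (G hx)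
    simpa [s, ← pow_mul] using (show σ (σ a) = a from this.ge (Subfield.mem_top a))
  refine ⟨⟨σ, fun a => by rw [s, s, ← pow_mul, p4], fun k => ?_, fun x hx => ?_⟩, fun q hq hU => ?_⟩
  · have : ω ^ 2 = ω := RingHom.congr_fun k ω
    exact one_ne_zero (by linear_combination hω - this - ω * h2 : (1 : F) = 0)
  · refine (tr2 T σ 1 (fun g hg => ?_) x⁻¹ (inv_mem (G hx))).symm
    obtain ⟨a, a1, a2, a3⟩ := gn g hg
    rw [a3, a2, Matrix.map_sub _ (map_sub _), vv_map, Matrix.map_one _ (map_zero _) (map_one _), inv_one, Units.val_one,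
      one_mul, mul_one, transpose_sub, transpose_one, transpose_vecMulVec]
    congr 2; ext i; simp only [Function.comp, s]; rw [← pow_mul, a1]
  obtain rfl := card4 p4 hq
  refine (Subgroup.eq_of_le_of_card_ge (le_inf hU hP.sl) ?_).ge
  exact Nat.card_le_card_of_injective (fun g : ↥(Cfsg.GU 5 F 2 ⊓ specialLinear (Fin 5) F) => (⟨T * g * T⁻¹, by
    convert full hP p4 hq T (fun a h => (R _ _).2 ⟨a, fun _ => p4 _, h, rfl⟩) ⟨⟨g.1.val, mem_SL.1 g.2.2⟩, g.2.1⟩
    exact Units.ext rfl⟩ : P)) fun a b k => by simpa using k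

/-! ### the group `U₄(2)` -/

theorem hw4 : (⟨0, 1⟩ : F4) ^ 2 + ⟨0, 1⟩ + 1 = 0 := by decide
def U (r : I) (i : Fin 4) : F4 := ev hw4 (V r i.castSucc)
def Y4 : Matrix (Fin 4) (Fin 5) F4 := of fun i j => if j = i.castSucc then 1 else 0

theorem vb4 (r : I) : vb (ev hw4) r = fun i => ev hw4 (W r i) := funext fun i => by
  rw [vb, inv_eq_of_mul_eq_one_right (show (3 : F4) * 1 = 1 by decide), one_mul]

theorem f1 : ∀ r, (fun i => ev hw4 (W r i)) ᵥ* (Y4ᵀ * Y4) = (fun i => ev hw4 (W r i)) ∧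
    Y4 *ᵥ (fun i => ev hw4 (V r i)) = U r ∧ (fun i => ev hw4 (W r i)) ᵥ* Y4ᵀ = (fun i => U r i ^ 2) ∧
    ∑ i, U r i ^ 3 = 0 := by decide +kernel

theorem f2 : ∀ v : Fin 4 → F4, ∑ i, v i ^ 3 = 0 → v = 0 ∨ ∃ r, ∃ m : F4, m ^ 3 = 1 ∧ ∀ i, v i = m * U r i := by
  decide +kernel

theorem psu0 : ∃ e : I → Cfsg.SU 4 F4 2, Function.Injective e ∧ (∀ r s, e r * e s * (e r)⁻¹ = e (tb r s)) ∧
    ∀ S : Subgroup (Cfsg.SU 4 F4 2), (∀ r, e r ∈ S) → S = ⊤ := by
  have hF : Fintype.card F4 = 2 ^ 2 := rfl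
  haveI : CharP F4 2 := CharTwo.of_one_ne_zero_of_two_eq_zero one_ne_zero (by decide)
  choose e he using fun r => exists_su hF (by decide) (f1 r).2.2.2
  let j : Cfsg.SU 4 F4 2 →* GL (Fin 4) F4 := SpecialLinearGroup.toGL.comp (Subgroup.subtype _)
  have ji : Function.Injective j := SpecialLinearGroup.toGL_injective.comp Subtype.val_injective
  have H : ∀ r, vb (ev hw4) r ᵥ* (Y4ᵀ * Y4) = vb (ev hw4) r := fun r => by rw [vb4]; exact (f1 r).1
  have he' : ∀ r, (j (e r)).val = 1 - vv (vR (ev hw4) Y4 r) (fR (ev hw4) Y4ᵀ r) := fun r => by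
    rw [fR, vb4, (f1 r).2.2.1, show vR _ Y4 r = _ from (f1 r).2.1, CharTwo.sub_eq_add]; exact he r
  have h3 : (3 : F4) ≠ 0 := by decide
  refine ⟨e, Function.Injective.of_comp (f := j) (injR h3 H he'), fun r s => ji (by
    rw [map_mul, map_mul, map_inv]; exact conjR (e := fun r => j (e r)) h3 H he' r s),
    fun S h => su_gen hF le_rfl fun a v h1 h2 => ?_⟩
  rcases f2 v h1 with rfl | ⟨r, m, m3, k⟩
  · exact (show 1 = a from Subtype.ext (Subtype.ext (by simp [h2]))) ▸ one_mem S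
  refine (show e r = a from Subtype.ext (Subtype.ext ?_)) ▸ h r
  rw [he, h2]
  refine congrArg _ (Matrix.ext fun a b => ?_)
  simp only [vecMulVec_apply, k]; linear_combination -(U r a * U r b ^ 2) * m3

theorem psu {G : Type*} [Group G] {e : I → G} (i : Function.Injective e) (cj : ∀ r s, e r * e s * (e r)⁻¹ = e (tb r s))
    (gen : ∀ S : Subgroup G, (∀ r, e r ∈ S) → S = ⊤) :
    ∃ ρ : G →* Equiv.Perm I, ρ.ker = Subgroup.center _ ∧ ∀ r s, ρ (e r) s = tb r s := by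
  have hN := gen (Subgroup.normalizer (Set.range e)) fun r =>
    Subgroup.mem_normalizer_fintype (by rintro _ ⟨s, rfl⟩; exact ⟨_, (cj r s).symm⟩)
  obtain ⟨ρ, hρ⟩ := exists_perm i ⊤ fun g _ s => ((hN.ge (Subgroup.mem_top g) (e s)).1 ⟨s, rfl⟩).imp fun _ a => a.symm
  refine ⟨ρ.comp ((MonoidHom.id G).codRestrict ⊤ fun _ => trivial), Subgroup.ext fun a => ⟨fun h => ?_, fun h => ?_⟩,
    fun r s => i ((hρ ⟨e r, trivial⟩ s).trans (cj r s))⟩
  · refine Subgroup.mem_center_iff.2 fun g => ?_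
    refine Subgroup.mem_centralizer_singleton_iff.1 ((gen (Subgroup.centralizer {a}) fun r => ?_).ge (Subgroup.mem_top g))
    have := hρ ⟨a, trivial⟩ r
    rw [show ρ ⟨a, trivial⟩ = 1 from h] at this
    exact Subgroup.mem_centralizer_singleton_iff.2 (eq_mul_inv_iff_mul_eq.1 this)
  · exact Equiv.ext fun r => i ((hρ _ r).trans (mul_inv_eq_iff_eq_mul.2 (Subgroup.mem_center_iff.1 h _).symm))

theorem cube {F : Type*} [Field F] {ω ζ : F} (hω : ω ^ 2 + ω + 1 = 0) (h : ζ ^ 3 = 1) : ∃ k : Fin 3, ζ = ω ^ k.1 := by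
  have : (ζ - 1) * (ζ - ω) * (ζ - ω ^ 2) = 0 := by linear_combination h + (-ζ ^ 2 + ζ * ω + 1 - ω) * hω
  simp only [mul_eq_zero, sub_eq_zero] at this
  rcases this with (e | e) | e
  exacts [⟨0, by simpa⟩, ⟨1, by simpa⟩, ⟨2, e⟩]

section
variable {F : Type*} [Field F] {ω : F} (hω : ω ^ 2 + ω + 1 = 0) (h3 : (3 : F) ≠ 0) {κ : Type} [Fintype κ]
  (e : Fin 4 ≃ κ) {y ξ : κ → Fin 5 → F} {y' ξ' : Fin 5 → F} {T : G5 F}
  (t1 : ∀ a, T.val *ᵥ a = ∑ i, a i • Fin.snoc (α := fun _ => Fin 5 → F) (y ∘ e) y' i)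
  (t2 : ∀ a, a ᵥ* (T⁻¹).val = ∑ i, a i • Fin.snoc (α := fun _ => Fin 5 → F) (ξ ∘ e) ξ' i)

theorem ev_star {x : E} (h : x * star x = 1) : ev hω (star x) = (ev hω x)⁻¹ :=
  eq_inv_of_mul_eq_one_right (by rw [← map_mul, h, map_one])

include t1 t2 h3

theorem ty1 {r : I} {i j : Fin 4} {k : Fin 3} {m : Fin 6} (h : ∀ l, V r l = al (m + 1) * th *
    ((if l = i.castSucc then 1 else 0) - if l = j.castSucc then om ^ k.1 else 0)) :
    vv (vR (ev hω) T.val r) (fR (ev hω) (T⁻¹).val r) =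
      vv (y (e i) - ω ^ k.1 • y (e j)) (ξ (e i) - (ω ^ k.1)⁻¹ • ξ (e j)) := by
  have c : ∀ i : Fin 4, cc i.castSucc = 1 := by decide
  have a : vR (ev hω) T.val r = ev hω (al (m + 1) * th) • (y (e i) - ω ^ k.1 • y (e j)) := by
    simp only [vR, t1, va, h, map_mul, map_sub, apply_ite (ev hω), map_one, map_zero, map_pow, ev_om, mul_sub, sub_smul,
      mul_ite, ite_smul, mul_zero, zero_smul, Finset.sum_sub_distrib, Finset.sum_ite_eq', Finset.mem_univ, if_true,
      Fin.snoc_castSucc, Function.comp, smul_sub, smul_smul, mul_one]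
  have b : fR (ev hω) (T⁻¹).val r = (3⁻¹ * ev hω (star (al (m + 1) * th))) • (ξ (e i) - (ω ^ k.1)⁻¹ • ξ (e j)) := by
    have := ev_star hω (k8 k)
    rw [map_pow, ev_om] at this
    generalize al (m + 1) * th = x at h
    simp only [fR, t2, vb, W, h, star_mul', star_sub, apply_ite star, star_one, star_zero, map_mul, map_sub,
      apply_ite (ev hω), map_one, map_zero, this, mul_sub, sub_smul,
      mul_ite, ite_smul, mul_zero, zero_smul, Finset.sum_sub_distrib, Finset.sum_ite_eq', Finset.mem_univ, if_true,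
      Fin.snoc_castSucc, Function.comp, smul_sub, smul_smul, mul_one, c, one_mul, mul_assoc]
  rw [a, b, smul_vecMulVec, vecMulVec_smul, smul_smul, mul_left_comm, ← map_mul, k7, map_ofNat, inv_mul_cancel₀ h3,
    one_smul]

omit h3 in
theorem ty2 {r : I} (h : V r 4 = 1) (k : ∀ i : Fin 4, V r i.castSucc * star (V r i.castSucc) = 1) {d : κ → F}
    (hd : ∀ i, d (e i) = ev hω (V r i.castSucc)) : vv (vR (ev hω) T.val r) (fR (ev hω) (T⁻¹).val r) =
      vv (∑ i, d i • y i + y') ((3 : F)⁻¹ • (∑ i, (d i)⁻¹ • ξ i + (2 : F) • ξ')) := by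
  have c : ∀ i : Fin 4, cc i.castSucc = 1 := by decide
  have h' : V r (Fin.last 4) = 1 := h
  congr 1
  · simp only [vR, t1, va, Fin.sum_univ_castSucc (n := 4), Fin.snoc_castSucc, Fin.snoc_last, h', map_one, one_smul,
      ← e.sum_comp, hd, Function.comp]
  · simp only [fR, t2, vb, W, Fin.sum_univ_castSucc (n := 4), Fin.snoc_castSucc, Fin.snoc_last, h', c, one_mul,
      ← e.sum_comp, hd, Function.comp, ev_star hω (k _), star_one, mul_one, show cc (Fin.last 4) = 2 from rfl, map_ofNat,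
      smul_add, Finset.smul_sum, smul_smul]
end

theorem uu3 : UU3.{u} := fun F _ _ P hP h2 h3 ⟨ω, hω⟩ κ _ _ hκ y ξ y' ξ' d1 d2 d3 d4 hR => by
  obtain ⟨e⟩ : Nonempty (Fin 4 ≃ κ) := ⟨(Fintype.equivFinOfCardEq hκ).symm⟩
  obtain ⟨T, t1, t2⟩ := exT (y := Fin.snoc (α := fun _ => Fin 5 → F) (y ∘ e) y')
    (ξ := Fin.snoc (α := fun _ => Fin 5 → F) (ξ ∘ e) ξ') fun i j => by
      induction i using Fin.lastCases <;> induction j using Fin.lastCases <;>
        simp only [Fin.snoc_castSucc, Fin.snoc_last, Function.comp, d1, d2, d3, d4, Fin.castSucc_ne_last,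
          (Fin.castSucc_ne_last _).symm, if_true, if_false, e.injective.eq_iff, Fin.castSucc_inj]
  have ω3 : ω ^ 3 = 1 := by linear_combination (ω - 1) * hω
  have R : ∀ v φ, Rk 1 (GZ P) v φ ↔ ∃ r, vv v φ = vv (vR (ev hω) T.val r) (fR (ev hω) (T⁻¹).val r) := fun v φ => by
    rw [hR]
    refine ⟨?_, fun ⟨r, q⟩ => ?_⟩
    · rintro (⟨i, j, ζ, n, z, q⟩ | ⟨d, a, b, q⟩)
      · obtain ⟨k, rfl⟩ := cube hω z
        obtain ⟨i, rfl⟩ := e.surjective i
        obtain ⟨j, rfl⟩ := e.surjective j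
        obtain ⟨r, m, h⟩ := k4 i j (fun c => n (c ▸ rfl)) k
        exact ⟨r, q.trans (ty1 hω h3 e t1 t2 h).symm⟩
      choose k hk using fun i => cube hω (a (e i))
      rw [← e.prod_comp, Finset.prod_congr rfl fun i _ => hk i] at b
      rcases k5 k with ⟨r, p1, p2⟩ | p | p
      · exact ⟨r, q.trans (ty2 hω e t1 t2 p1 (fun i => p2 i ▸ k8 _) fun i => by rw [hk, p2, map_pow, ev_om]).symm⟩
      all_goals
        have := congrArg (ev hω) p
        simp only [map_prod, map_pow, ev_om, b] at this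
      · exact absurd (by linear_combination hω + (ω + 2) * this) h3
      · exact absurd (by linear_combination (2 - ω) * hω + (1 - ω) * this) h3
    rcases k6 r with ⟨i, j, n, k, h⟩ | ⟨p1, p2, p3⟩
    · exact .inl ⟨e i, e j, ω ^ k.1, e.injective.ne n, by rw [← pow_mul, mul_comm, pow_mul, ω3, one_pow],
        q.trans (ty1 (m := 0) hω h3 e t1 t2 h)⟩
    · exact .inr ⟨fun i => ev hω (V r (e.symm i).castSucc), fun i => by rw [← map_pow, (p2 _).1, map_one], by
        rw [← e.prod_comp]; simp only [e.symm_apply_apply]; rw [← map_prod, p3, map_one],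
        q.trans (ty2 hω e t1 t2 p1 (fun i => (p2 i).2) fun i => by rw [e.symm_apply_apply])⟩
  have H : ∀ r, vb (ev hω) r ᵥ* ((T⁻¹).val * T.val) = vb (ev hω) r := fun r => by rw [Units.inv_mul, vecMul_one]
  choose s hs using fun r => exists_ro (one_mul 1) (dot2 h3 H r)
  have rk := fun r => (R _ _).2 ⟨r, rfl⟩
  have sG : ∀ r, s r ∈ GZ P := fun r => let ⟨g, a, b⟩ := (rk r).2; (Units.ext (b.trans (hs r).symm) : g = s r) ▸ a
  have G : P ≤ Subgroup.closure (Set.range s) := (hP.le_gen (D := Rk 1 (GZ P)) (fun _ _ a => a)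
    (fun _ _ a g hg => a.conj hg) (rk 0) ((rk 0).ne h2).1 ((rk 0).ne h2).2).trans (Subgroup.closure_mono
      fun g ⟨v, φ, a, b⟩ => let ⟨r, q⟩ := (R v φ).1 a; ⟨r, Units.ext (by rw [hs, b, q])⟩)
  refine ⟨⟨F4, inferInstance, inferInstance, rfl, ?_⟩, fun p hp _ => ?_⟩
  · have i := injR h3 H hs
    obtain ⟨ρ, hρ⟩ := exists_perm i (GZ P) fun g hg r => let ⟨r', q⟩ := (R _ _).1 ((rk r).conj hg)
      ⟨r', Units.ext (by rw [conj_ro (hs r), q, hs])⟩
    obtain ⟨e', i', c', k3⟩ := psu0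
    obtain ⟨ρ', k1, k2⟩ := psu i' c' k3
    have q : ∀ r, ρ ⟨s r, sG r⟩ = ρ' (e' r) := fun r => Equiv.ext fun t =>
      i ((hρ _ t).trans ((conjR h3 H hs r t).trans (congrArg s (k2 r t).symm)))
    have z : ∀ x : GZ P, x.1 ∈ scalars (Fin 5) F → ρ x = 1 := fun x hx => Equiv.ext fun t =>
      i ((hρ x t).trans (mul_inv_eq_iff_eq_mul.2 (scalars_comm hx _)))
    let τ := ρ.comp (Subgroup.inclusion (le_sup_left : P ≤ GZ P))
    have a : τ.ker = (scalars (Fin 5) F).subgroupOf P := Subgroup.ext fun x => ⟨fun h => mem_scalars_of_comm hP.top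
      fun g hg => (Subgroup.mem_centralizer_singleton_iff.1 ((Subgroup.closure_le (Subgroup.centralizer {x.1})).2 (by
        rintro _ ⟨r, rfl⟩
        have := hρ (Subgroup.inclusion le_sup_left x) r
        rw [show ρ _ = 1 from h] at this
        exact Subgroup.mem_centralizer_singleton_iff.2 (eq_mul_inv_iff_mul_eq.1 this)) (G hg))).symm, fun h => z _ h⟩
    have b : τ.range = ρ'.range := by
      refine le_antisymm ?_ ?_
      · rintro _ ⟨x, rfl⟩
        obtain ⟨w, a, b⟩ := (Subgroup.closure_le ((ρ'.range.comap ρ).map (GZ P).subtype)).2 (by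
          rintro _ ⟨r, rfl⟩; exact ⟨⟨_, sG r⟩, ⟨_, (q r).symm⟩, rfl⟩) (G x.2)
        exact (show ρ w = τ x from congrArg ρ (Subtype.ext b)) ▸ a
      rintro _ ⟨x, rfl⟩
      refine (k3 (τ.range.comap ρ') fun r => ?_).ge (Subgroup.mem_top x)
      haveI := scalars_normal (ι := Fin 5) (F := F)
      obtain ⟨x, hx, c, hc, k⟩ := Subgroup.mem_sup_of_normal_right.1 (sG r)
      refine ⟨⟨x, hx⟩, ?_⟩
      rw [← q, show (⟨s r, sG r⟩ : GZ P) = ⟨x, Subgroup.mem_sup_left hx⟩ * ⟨c, Subgroup.mem_sup_right hc⟩ from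
        Subtype.ext k.symm, map_mul, z ⟨c, _⟩ hc, mul_one]; rfl
    exact ⟨(((QuotientGroup.quotientMulEquivOfEq a.symm).trans (QuotientGroup.quotientKerEquivRange τ)).trans
      (MulEquiv.subgroupCongr b)).trans ((QuotientGroup.quotientKerEquivRange ρ').symm.trans
        (QuotientGroup.quotientMulEquivOfEq k1))⟩
  haveI := Fact.mk hp
  let σ := frobenius F p
  have c : ∀ r, (T⁻¹ * s r * T).val = 1 - vv (va (ev hω) r) (vb (ev hω) r) := fun r => cj_val (hs r)
  have ωp : ω ^ p = ω ^ (p % 3) := by conv_lhs => rw [← Nat.div_add_mod p 3, pow_add, pow_mul, ω3, one_pow, one_mul]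
  have n : ∀ i, ev hω (cc i) ≠ 0 ∧ star (cc i) = cc i := fun i => by
    unfold cc; split_ifs
    exacts [⟨by rwa [show (⟨2, 0⟩ : E) = 2 from rfl, map_ofNat], rfl⟩, ⟨by simp [show (⟨1, 0⟩ : E) = 1 from rfl], rfl⟩]
  obtain ⟨J, J1, J2⟩ : ∃ J : G5 F, J.val = diagonal (fun i => ev hω (cc i)) ∧
      (J⁻¹).val = diagonal fun i => (ev hω (cc i))⁻¹ :=
    ⟨⟨diagonal fun i => ev hω (cc i), diagonal fun i => (ev hω (cc i))⁻¹, by simp [diagonal_mul_diagonal, (n _).1],
      by simp [diagonal_mul_diagonal, (n _).1]⟩, rfl, rfl⟩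
  refine ⟨fun k x hx => tr1 T σ ?_ x (G hx), fun k x hx => tr2 T σ J ?_ x⁻¹ (inv_mem (G hx))⟩
  · have f : ∀ x, σ (ev hω x) = ev hω x := RingHom.congr_fun (E_ext (f := σ.comp (ev hω)) (by
      simp [σ, ev_om, frobenius_def, ωp, k]))
    rintro _ ⟨r, rfl⟩
    rw [c, Matrix.map_sub _ (map_sub _), vv_map, Matrix.map_one _ (map_zero _) (map_one _)]
    congr 2 <;> ext i <;> simp [va, vb, f, map_ofNat]
  · have f : ∀ x, σ (ev hω x) = ev hω (star x) := RingHom.congr_fun (E_ext (f := σ.comp (ev hω))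
      (g := (ev hω).comp (starRingEnd E)) (by
        rw [RingHom.comp_apply, RingHom.comp_apply, starRingEnd_apply, show star om = om ^ 2 by decide, map_pow, ev_om,
          frobenius_def, ωp, k]))
    rintro _ ⟨r, rfl⟩
    rw [show (s r)⁻¹ = s r from Units.ext (by rw [ro_inv (one_mul 1) (dot2 h3 H r) (hs r), one_smul, hs]), c,
      Matrix.map_sub _ (map_sub _), vv_map, Matrix.map_one _ (map_zero _) (map_one _)]
    ext i j
    have := (n i).1
    simp only [J1, J2, mul_diagonal, diagonal_mul, transpose_apply, Matrix.sub_apply, vecMulVec_apply, Function.comp, va,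
      vb, map_mul, map_inv₀, map_ofNat, f, W, star_star, (n _).2, one_apply]
    by_cases q : i = j
    · subst q; simp only [if_true]; field_simp
    · simp only [q, Ne.symm q, if_false]; field_simp; ring

end H23.D5
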