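/-
S5815: two commuting `SL₂` with the same centre.
-/
import Cfsg.Agent.H26.O7B
import Cfsg.Agent.H26.O7S
import Cfsg.Agent.H11.SL2
import Cfsg.Agent.H11.Congr

set_option autoImplicit false
set_option linter.unusedSectionVars false

open Cfsg MatrixGroups Subgroup H26.O7
namespace H23.O7
universe u

/-- generators of `SL₂(3)` -/
def S3 {Γ : Type} [Group Γ] (m a y : Γ) : Prop := a * a = m ∧ y * a * y⁻¹ * (y * a * y⁻¹) = m ∧
  a * (y * a * y⁻¹) = m * (y * a * y⁻¹ * a) ∧ y * (y * a * y⁻¹) * y⁻¹ = a * (y * a * y⁻¹) ∧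
  ∀ g, ∃ i < 4, ∃ j < 2, ∃ k < 3, g = a ^ i * (y * a * y⁻¹) ^ j * y ^ k

instance {Γ : Type} [Group Γ] [Fintype Γ] [DecidableEq Γ] (m a y : Γ) : Decidable (S3 m a y) := by
  unfold S3; infer_instance

theorem s3' : ∀ y : SL(2, ZMod 3), y ^ 3 = 1 → y ≠ 1 → S3 (-1) (wy (ZMod 3)) y ∨ S3 (-1) (wy (ZMod 3)) y⁻¹ := by
  decide +kernel

theorem S3.map {Γ Δ : Type} [Group Γ] [Group Δ] {m a y : Γ} (h : S3 m a y) (e : Γ ≃* Δ) : S3 (e m) (e a) (e y) := by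
  obtain ⟨a1, a2, a3, a4, a5⟩ := h
  refine ⟨?_, ?_, ?_, ?_, e.surjective.forall.2 fun g => ?_⟩
  · simpa using congrArg e a1
  · simpa using congrArg e a2
  · simpa using congrArg e a3
  · simpa using congrArg e a4
  · obtain ⟨i, hi, j, hj, k, hk, t⟩ := a5 g
    exact ⟨i, hi, j, hj, k, hk, by simpa using congrArg e t⟩

variable {F : Type} [Field F] [Fintype F]

theorem two_ne (o : Odd (Fintype.card F)) : (2 : F) ≠ 0 := fun e => by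
  have : CharP F 2 := (CharP.charP_iff_prime_eq_zero Nat.prime_two).2 e
  exact Nat.not_odd_iff.2 (FiniteField.even_card_iff_char_two.1 (ringChar.eq F 2)) o

theorem neg_ne (h : (2 : F) ≠ 0) : (-1 : SL(2, F)) ≠ 1 := fun e => h (by
  have := congrArg (fun g : SL(2, F) => g.1 0 0) e
  simp at this; linear_combination -this)

theorem map_neg' {F' : Type} [Field F'] (h : (2 : F) ≠ 0) (h' : (2 : F') ≠ 0) (f : SL(2, F) →* SL(2, F'))
    (i : Function.Injective f) : f (-1) = -1 :=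
  Subtype.ext ((H11.sl2_eq_of_mul_self h' (f (-1)) (by rw [← map_mul]; simp)).resolve_left fun e =>
    neg_ne h (i ((Subtype.ext e).trans (map_one f).symm)))

theorem s3 (h : Fintype.card F = 3) {y : SL(2, F)} (y3 : y ^ 3 = 1) (y1 : y ≠ 1) : ∃ a, S3 (-1) a y ∨ S3 (-1) a y⁻¹ := by
  let e := H11.slCongr (Equiv.refl (Fin 2)) (FiniteField.ringEquivOfCardEq ((ZMod.card 3).trans h.symm))
  obtain ⟨y, rfl⟩ := e.surjective y
  have n := map_neg' (by decide) (two_ne (h ▸ by decide)) e.toMonoidHom e.injective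
  refine ⟨e (wy _), (s3' y (e.injective (by simpa using y3)) fun k => y1 (by simp [k])).imp (fun k => ?_) fun k => ?_⟩
  · exact n ▸ k.map e
  · exact n ▸ map_inv e y ▸ k.map e

variable {K : Type u} [Field K] [IsAlgClosed K] {G : Type} [Group G] {R : Rp K G}

theorem tp_conj {z g : G} (h : G) (hg : g ∈ R.Tp z) : h * g * h⁻¹ ∈ R.Tp (h * z * h⁻¹) := by
  rw [Rp.mem_Tp] at hg ⊢
  refine ⟨by simp only [mul_assoc, inv_mul_cancel_left]; rw [← mul_assoc z, hg.1, mul_assoc], fun x hx => ?_⟩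
  have k : ∀ y, R.ρ h (R.ρ h⁻¹ y) = y := fun y => by rw [← R.ρ_mul, mul_inv_cancel, map_one]; rfl
  rw [R.ρ_mul, R.ρ_mul] at hx ⊢
  rw [hg.2 _ ((R.ρ h).injective (hx.trans (k x).symm)), k]

theorem core (ks : KS.{u, 0}) (k3 : K3.{u, 0}) (I : R.Irr) (o : Odd (Fintype.card F)) (φ : SL(2, F) →* G) (τ : G)
    (c : ∀ a b, Commute (φ a) (τ * φ b * τ⁻¹)) (tt : τ * τ = 1) (z : τ * φ (-1) * τ⁻¹ = φ (-1)) (z1 : φ (-1) ≠ 1)
    (h3 : Fintype.card F = 3 → ∃ y, y ^ 3 = 1 ∧ y ≠ 1 ∧ centralizer {φ y} ⊔ φ.range = ⊤) :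
    R.r (φ (-1)) = 4 ∧ ∀ a, φ a ∈ R.Tp (φ (-1)) ∧ τ * φ a * τ⁻¹ ∈ R.Tp (φ (-1)) := by
  obtain ⟨r4, h⟩ := ks K G R F F φ ((MulAut.conj τ).toMonoidHom.comp φ) _ o o rfl z z1 c
  have u : ∀ {g}, g ∈ R.Tp (φ (-1)) → τ * g * τ⁻¹ ∈ R.Tp (φ (-1)) := fun h => by simpa only [z] using tp_conj τ h
  have d : ∀ {g}, τ * g * τ⁻¹ ∈ R.Tp (φ (-1)) → g ∈ R.Tp (φ (-1)) := fun {g} h => by
    have := u h
    rwa [show τ * (τ * g * τ⁻¹) * τ⁻¹ = τ * τ * g * (τ * τ)⁻¹ by group, tt, one_mul, inv_one, mul_one] at this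
  refine ⟨r4, fun a => suffices φ a ∈ R.Tp (φ (-1)) from ⟨this, u this⟩; ?_⟩
  obtain h | ⟨h, h5⟩ := h
  · exact h ⟨a, rfl⟩
  by_cases q : 5 ≤ Fintype.card F
  · exact d (h5 q ⟨a, rfl⟩)
  have q : Fintype.card F = 3 := by have := Fintype.one_lt_card (α := F); obtain ⟨k, hk⟩ := o; omega
  obtain ⟨y, y3, y1, t⟩ := h3 q
  have key : ∀ {i y : SL(2, F)}, y ^ 3 = 1 → centralizer {φ y} ⊔ φ.range = ⊤ → S3 (-1) i y → φ a ∈ R.Tp (φ (-1)) := by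
    rintro i y y3 t ⟨a1, a2, a3, a4, a5⟩
    have all : ∀ Y : Subgroup G, φ i ∈ Y → φ y ∈ Y → ∀ g, φ g ∈ Y := fun Y b1 b2 g => by
      obtain ⟨i, -, j, -, k, -, rfl⟩ := a5 g
      simp only [map_mul, map_pow, map_inv]
      exact mul_mem (mul_mem (pow_mem b1 _) (pow_mem (mul_mem (mul_mem b2 b1) (inv_mem b2)) _)) (pow_mem b2 _)
    have qu : ∀ f : SL(2, F) →* G, f (-1) = φ (-1) → Qu (φ (-1)) (f i) (f (y * i * y⁻¹)) := fun f e =>
      ⟨by rw [← map_mul, a1, e], by rw [← map_mul, a2, e], by rw [← map_mul, a3, map_mul, map_mul, e],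
        by rw [← map_mul]; simp, z1⟩
    have i1 := d (h i a1)
    refine all _ i1 (k3 K G R _ _ _ _ _ (φ y) (qu φ rfl) (qu ((MulAut.conj τ).toMonoidHom.comp φ) z) (c _ _) (c _ _) (c _ _)
      (c _ _) (by rw [← map_pow, y3, map_one]) (c _ _) (c _ _) (by simp) (by simpa using congrArg φ a4) i1
      (top_le_iff.1 (t.ge.trans (sup_le le_sup_left ?_))) I) a
    rintro _ ⟨g, rfl⟩
    exact all _ (mem_sup_right (mem_zpowers _)) (mem_sup_left (mem_centralizer_singleton_iff.2 rfl)) g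
  obtain ⟨i, k | k⟩ := s3 q y3 y1
  · exact key y3 t k
  · refine key (by rw [inv_pow, y3, inv_one]) (top_le_iff.1 (t.ge.trans (sup_le_sup_right (fun g hg => ?_) _))) k
    rw [mem_centralizer_singleton_iff] at hg ⊢
    exact map_inv φ y ▸ (Commute.inv_right hg).eq

/-- the data in the covering group -/
structure Dt {Γ : Type} [Group Γ] (ψ : SL(2, F) →* Γ) (τ s : Γ) : Prop where
  c : ∀ a b, Commute (ψ a) (τ * ψ b * τ⁻¹)
  tt : τ * τ = 1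
  z : ψ (-1) * (τ * ψ (-1) * τ⁻¹) ∈ center Γ
  z1 : ψ (-1) ∉ center Γ
  h3 : Fintype.card F = 3 → ∃ y, y ^ 3 = 1 ∧ y ≠ 1 ∧
    ∀ Y : Subgroup Γ, (∀ g, Commute g (ψ y) → g ∈ Y) → (∀ a, ψ a ∈ Y) → Y = ⊤
  gen : ∀ Y : Subgroup Γ, (∀ a, ψ a ∈ Y ∧ τ * ψ a * τ⁻¹ ∈ Y ∧ s * ψ a * s⁻¹ ∈ Y ∧ s * (τ * ψ a * τ⁻¹) * s⁻¹ ∈ Y) → Y = ⊤
  x : Commute (ψ (-1)) (s * ψ (-1) * s⁻¹) ∧ IsConj (ψ (-1)) (ψ (-1) * (s * ψ (-1) * s⁻¹)) ∨
    ∃ a n, Odd n ∧ a ^ n = 1 ∧ τ * ψ a * τ⁻¹ ∉ center Γ ∧ Commute s (τ * ψ a * τ⁻¹)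

theorem Dt.kill (ks : KS.{u, 0}) (kd : KD.{u, 0}) (k3 : K3.{u, 0}) {Γ : Type} [Group Γ] [Finite Γ] {ψ : SL(2, F) →* Γ} {τ s : Γ}
    (h : Dt ψ τ s) (o : Odd (Fintype.card F)) : Kill.{u} (Γ ⧸ center Γ) := by
  intro K _ _ p _ _ R I
  let π := QuotientGroup.mk' (center Γ)
  have top : ∀ Y : Subgroup (Γ ⧸ center Γ), Y.comap π = ⊤ → Y = ⊤ := fun Y e =>
    comap_injective (QuotientGroup.mk'_surjective _) (e.trans (comap_top π).symm)
  have one : ∀ {g}, π g = 1 ↔ g ∈ center Γ := QuotientGroup.eq_one_iff _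
  have zz : π (ψ (-1)) * π (ψ (-1)) = 1 := by rw [← map_mul, ← map_mul]; simp
  obtain ⟨r4, t⟩ := core (R := R) ks k3 I o (π.comp ψ) (π τ) (fun a b => by simpa using (h.c a b).map π)
    (by rw [← map_mul, h.tt, map_one]) (mul_left_cancel (a := π (ψ (-1))) (.trans (by simpa using one.2 h.z) zz.symm))
    (mt one.1 h.z1) fun q => by
      obtain ⟨y, a, b, c⟩ := h.h3 q
      exact ⟨y, a, b, top _ (c _ (fun g hg => mem_sup_left (mem_centralizer_singleton_iff.2 (hg.map π).eq))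
        fun a => mem_sup_right ⟨a, rfl⟩)⟩
  simp only [MonoidHom.comp_apply] at r4 t
  have r4' : R.r (π s * π (ψ (-1)) * (π s)⁻¹) = 4 := (R.r_conj _ _).trans r4
  obtain ⟨x, x0, x1, x2⟩ : ∃ x, x ≠ 0 ∧ R.ρ (π (ψ (-1))) x = x ∧ R.ρ (π s * π (ψ (-1)) * (π s)⁻¹) x = x := by
    obtain ⟨a, b⟩ | ⟨a, n, a1, a2, a3, a4⟩ := h.x
    · obtain ⟨x, x0, x1, x2, -⟩ := (e2 K _ R).2.1 _ (π s * π (ψ (-1)) * (π s)⁻¹) zz (by rw [conj_mul, zz]; simp)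
        (by simpa using (a.map π).eq) (r4.trans r4'.symm) (by
          rw [r4', ← r4]; simpa using (R.r_isConj (π.map_isConj b)).symm)
      exact ⟨x, fun e => x0 (by rw [e, map_zero]), x1, x2⟩
    · have := tp_conj (π s) (t a).2
      have e : π s * (π τ * π (ψ a) * (π τ)⁻¹) * (π s)⁻¹ = π τ * π (ψ a) * (π τ)⁻¹ :=
        mul_inv_eq_iff_eq_mul.2 (by simpa using (a4.map π).eq)
      exact (kd K _ R _ _ _).2 n a1 (by rw [conj_pow, ← map_pow, ← map_pow, a2]; simp) (fun e => a3 (one.1 (by simpa using e)))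
        (t a).2 (e ▸ this) r4 r4'
  have := top (R.St x) (h.gen _ fun a => by
    simpa [mem_comap, Rp.mem_St, -map_mul, π.map_mul] using And.intro ((R.mem_Tp.1 (t a).1).2 x x1) (And.intro ((R.mem_Tp.1 (t a).2).2 x x1)
      (And.intro ((R.mem_Tp.1 (tp_conj (π s) (t a).1)).2 x x2) ((R.mem_Tp.1 (tp_conj (π s) (t a).2)).2 x x2))))
  exact x0 (I.fixed fun g => R.mem_St.1 (this.ge (mem_top g)))

theorem kill0 {Γ : Type} [Group Γ] (ψ ψ' : SL(2, F) →* Γ) (c : ∀ a b, Commute (ψ a) (ψ' b)) (z : ψ (-1) ∉ center Γ)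
    (z' : ψ' (-1) ∉ center Γ) (n : ψ (-1) * ψ' (-1) ∉ center Γ) : Kill0.{u} (Γ ⧸ center Γ) := by
  intro K _ _ p _ _ R
  let π := QuotientGroup.mk' (center Γ)
  have one : ∀ {g}, π g = 1 ↔ g ∈ center Γ := QuotientGroup.eq_one_iff _
  obtain ⟨i, j, -, -, q⟩ := ex_qu (π.comp ψ) (mt one.1 z)
  obtain ⟨i', j', -, -, q'⟩ := ex_qu (π.comp ψ') (mt one.1 z')
  have := (qq K _ R _ _ _).2.1 _ _ _ q q' ((c _ _).map π) ((c _ _).map π) ((c _ _).map π) ((c _ _).map π)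
  exact n (one.1 (by rw [map_mul]; exact (congrArg (_ * ·) this).symm.trans q.zz))

end H23.O7
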