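/-
S5815, chunks `L4` and `U4`.
-/
import Cfsg.Agent.H23.O7A
import Cfsg.Agent.H27.PH6
import Cfsg.Agent.H16.MatR2
import Cfsg.Agent.S0281

set_option autoImplicit false
set_option linter.unusedSectionVars false

open Cfsg MatrixGroups Subgroup H26.O7 H27.PH Equiv
open Matrix hiding transvection
open Matrix.SpecialLinearGroup
namespace H23.O7
universe u

variable {F : Type} [Field F] {n : ℕ} {a c a' c' : Fin n}

theorem inj2 (h : a ≠ c) : Function.Injective ![a, c] := fun i j => by fin_cases i <;> fin_cases j <;> simp [h, h.symm]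

theorem jj {m : ℕ} {j : Fin m → Fin n} (h : Function.Injective j) : (Jm F j)ᵀ * Jm F j = 1 := by
  ext a b; simp [mul_apply, Jm_apply, one_apply, h.eq_iff, eq_comm]

/-- the block `SL₂` -/
def bs (h : a ≠ c) : SL(2, F) →* SL(n, F) := MonoidHom.mk' (fun A => ⟨1 + Jm F ![a, c] * ((A.1 - 1) * (Jm F ![a, c])ᵀ), by
    rw [det_one_add_mul_comm, Matrix.mul_assoc, jj (inj2 h)]; simp⟩) fun A B => Subtype.ext (by
  change _ = (1 + _ * (_ * _)) * (1 + _ * (_ * _))
  simp only [Matrix.add_mul, Matrix.mul_add, Matrix.mul_assoc, ← Matrix.mul_assoc (Jm F _)ᵀ, jj (inj2 h)]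
  simp [Matrix.sub_mul, Matrix.mul_sub, Matrix.mul_assoc]; abel)

theorem bs_val (h : a ≠ c) (A : SL(2, F)) : (bs h A).1 = 1 + Jm F ![a, c] * ((A.1 - 1) * (Jm F ![a, c])ᵀ) := rfl

/-- even permutation matrices -/
def pm (π : Perm (Fin n)) (h : Perm.sign π = 1) : SL(n, F) := ⟨Jm F π, by
  rw [show Jm F π = (π.permMatrix F)ᵀ by ext a b; simp [Jm_apply, eq_comm], det_transpose, det_permutation, h]; simp⟩

theorem pm_bs {π : Perm (Fin n)} (s : Perm.sign π = 1) (h : a ≠ c) (h' : a' ≠ c') (A : SL(2, F))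
    (e : π a = a' ∧ π c = c' := by decide) : pm π s * bs h A * (pm π s)⁻¹ = bs h' A := by
  have k : Jm F π * Jm F ![a, c] = Jm F ![a', c'] := by rw [Jm_mul]; congr 1; ext i; fin_cases i <;> simp [e]
  refine mul_inv_eq_iff_eq_mul.2 (Subtype.ext ?_)
  change Jm F π * (1 + _ * (_ * _)) = (1 + _ * (_ * _)) * Jm F π
  simp [← k, Matrix.add_mul, Matrix.mul_add, Matrix.mul_assoc, jj π.injective]

theorem bs_comm (h : a ≠ c) (h' : a' ≠ c') (A B : SL(2, F)) (e : ∀ i j, ![a, c] i ≠ ![a', c'] j := by decide) :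
    Commute (bs h A) (bs h' B) := by
  have h1 : (Jm F ![a, c])ᵀ * Jm F ![a', c'] = 0 := by ext a b; simp [mul_apply, Jm_apply, (e _ _).symm]
  have h2 : (Jm F ![a', c'])ᵀ * Jm F ![a, c] = 0 := by ext a b; simp [mul_apply, Jm_apply, e]
  refine Subtype.ext ?_
  change (1 + _ * (_ * _)) * (1 + _ * (_ * _)) = (1 + _ * (_ * _)) * (1 + _ * (_ * _))
  simp only [Matrix.add_mul, Matrix.mul_add, Matrix.mul_assoc, ← Matrix.mul_assoc (Jm F _)ᵀ, h1, h2]
  simp [add_right_comm]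

theorem bs_neg (h : a ≠ c) : (bs h (-1 : SL(2, F))).1 = diagonal fun i => if i = a ∨ i = c then -1 else 1 := by
  ext i j
  simp [bs_val, mul_apply, Jm_apply, one_apply, diagonal_apply]
  grind

theorem bs_up (h : a ≠ c) (t : F) : bs h (transvection zero_ne_one t) = transvection h t ∧
    bs h (transvection one_ne_zero t) = transvection h.symm t := by
  constructor <;> ext i j <;> simp [bs_val, mul_apply, Jm_apply, transvection_coe, single_apply] <;> grind

/-- the permutations -/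
abbrev pτ : Perm (Fin 4) := swap 0 2 * swap 1 3
abbrev ps : Perm (Fin 4) := swap 1 3 * swap 1 2
abbrev pw : Perm (Fin 4) := swap 0 2 * swap 0 1

/-- a group of matrices containing the blocks and the even permutations -/
structure Bl {Γ F₁ : Type} [Group Γ] [Field F₁] (ι : Γ →* SL(n, F)) (θ : SL(2, F₁) →* SL(2, F))
    (P : ∀ π : Perm (Fin n), Perm.sign π = 1 → Γ) (B : ∀ a c : Fin n, a ≠ c → SL(2, F₁) →* Γ) : Prop where
  two : (2 : F) ≠ 0
  inj : Function.Injective ι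
  neg : θ (-1) = -1
  p : ∀ π h, ι (P π h) = pm π h
  b : ∀ a c h A, ι (B a c h A) = bs h (θ A)

section
variable {Γ F₁ : Type} [Group Γ] [Field F₁] {ι : Γ →* SL(n, F)} {θ : SL(2, F₁) →* SL(2, F)}
  {P : ∀ π : Perm (Fin n), Perm.sign π = 1 → Γ} {B : ∀ a c : Fin n, a ≠ c → SL(2, F₁) →* Γ} (k : Bl ι θ P B)
include k

theorem Bl.cj {π : Perm (Fin n)} (s : Perm.sign π = 1) (h : a ≠ c) (h' : a' ≠ c') (A : SL(2, F₁))
    (e : π a = a' ∧ π c = c' := by decide) : P π s * B a c h A * (P π s)⁻¹ = B a' c' h' A :=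
  k.inj (by rw [map_mul, map_mul, map_inv, k.p, k.b, k.b, pm_bs s h h' _ e])

theorem Bl.comm (h : a ≠ c) (h' : a' ≠ c') (A A' : SL(2, F₁)) (e : ∀ i j, ![a, c] i ≠ ![a', c'] j := by decide) :
    Commute (B a c h A) (B a' c' h' A') :=
  k.inj (by rw [map_mul, map_mul, k.b, k.b, (bs_comm h h' _ _ e).eq])

theorem Bl.val (h : a ≠ c) : (ι (B a c h (-1))).1 = diagonal fun i => if i = a ∨ i = c then -1 else 1 := by
  rw [k.b, k.neg, bs_neg]

theorem Bl.nc {g : Γ} {d : Fin n → F} (e : (ι g).1 = diagonal d) (π : Perm (Fin n)) (s : Perm.sign π = 1) (i : Fin n)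
    (h1 : d i = -1) (h2 : d (π i) = 1) : g ∉ center Γ := fun h => k.two (by
  have := congrArg (fun g => (ι g).1 (π i) i) (mem_center_iff.1 h (P π s))
  simp only [map_mul, Matrix.SpecialLinearGroup.coe_mul, k.p, e] at this
  rw [mul_diagonal, diagonal_mul, h1, h2] at this
  simp [pm, Jm_apply] at this
  linear_combination -this)
end

theorem Bl.five {Γ F₁ : Type} [Group Γ] [Field F₁] [Fintype F₁] {ι : Γ →* SL(5, F)} {θ : SL(2, F₁) →* SL(2, F)} {P B}
    (k : Bl ι θ P B) : Kill0.{u} (Γ ⧸ center Γ) :=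
  kill0 (B 0 1 (by decide)) (B 2 3 (by decide)) (k.comm _ _) (k.nc (k.val _) (swap 0 4 * swap 1 2) (by decide) 0 rfl rfl)
    (k.nc (k.val _) (swap 2 4 * swap 0 1) (by decide) 2 rfl rfl)
    (k.nc (by rw [map_mul, Matrix.SpecialLinearGroup.coe_mul, k.val, k.val, diagonal_mul_diagonal]) (swap 0 4 * swap 1 2) (by decide) 0
      (by simp) (by simp [swap_apply_def]))

theorem Bl.four (ks : KS.{u, 0}) (kd : KD.{u, 0}) (k3 : K3.{u, 0}) {Γ F₁ : Type} [Group Γ] [Finite Γ] [Field F₁] [Fintype F₁]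
    {ι : Γ →* SL(4, F)} {θ : SL(2, F₁) →* SL(2, F)} {P B} (k : Bl ι θ P B) (o : Odd (Fintype.card F₁))
    (h3 : Fintype.card F₁ = 3 → ∃ y, y ^ 3 = 1 ∧ y ≠ 1 ∧
      ∀ Y : Subgroup Γ, (∀ g, Commute g (B 0 1 (by decide) y) → g ∈ Y) → (∀ A, B 0 1 (by decide) A ∈ Y) → Y = ⊤)
    (gen : ∀ Y : Subgroup Γ, (∀ A, B 0 1 (by decide) A ∈ Y ∧ B 2 3 (by decide) A ∈ Y ∧ B 0 2 (by decide) A ∈ Y ∧
      B 3 1 (by decide) A ∈ Y) → Y = ⊤) : Kill.{u} (Γ ⧸ center Γ) := by
  have e1 := fun A => k.cj (π := pτ) (by decide) (by decide : (0 : Fin 4) ≠ 1) (by decide : (2 : Fin 4) ≠ 3) A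
  have e2 := fun A => k.cj (π := ps) (by decide) (by decide : (0 : Fin 4) ≠ 1) (by decide : (0 : Fin 4) ≠ 2) A
  have e3 := fun A => k.cj (π := ps) (by decide) (by decide : (2 : Fin 4) ≠ 3) (by decide : (3 : Fin 4) ≠ 1) A
  have e4 := k.cj (π := pw) (by decide) (by decide : (0 : Fin 4) ≠ 1) (by decide : (1 : Fin 4) ≠ 2) (-1)
  refine Dt.kill ks kd k3 (ψ := B 0 1 (by decide)) (τ := P pτ (by decide)) (s := P ps (by decide)) ⟨fun a b => ?_,
    k.inj (Subtype.ext ?_), ?_, k.nc (k.val _) pτ (by decide) 0 rfl rfl,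
    h3, fun Y h => gen Y fun A => by simpa only [e1, e2, e3] using h A, .inl ⟨k.inj (Subtype.ext ?_),
      isConj_iff.2 ⟨_, e4.trans (k.inj (Subtype.ext ?_))⟩⟩⟩ o
  · rw [e1]; exact k.comm _ _ _ _
  · rw [map_mul, k.p, map_one, Matrix.SpecialLinearGroup.coe_mul, pm, Jm_mul]
    ext i j; fin_cases i <;> fin_cases j <;> simp [Jm_apply, swap_apply_def]
  · have : (ι (B 0 1 (by decide) (-1))).1 * (ι (B 2 3 (by decide) (-1))).1 = -1 := by
      rw [k.val, k.val, diagonal_mul_diagonal, ← diagonal_one, diagonal_neg]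
      congr; ext i; fin_cases i <;> simp
    rw [e1]
    exact mem_center_iff.2 fun g => k.inj (Subtype.ext (by simp [this]))
  · simp only [e2, map_mul, Matrix.SpecialLinearGroup.coe_mul, k.val, diagonal_mul_diagonal, mul_comm]
  · simp only [e2, map_mul, Matrix.SpecialLinearGroup.coe_mul, k.val, diagonal_mul_diagonal]
    congr; ext i; fin_cases i <;> simp

theorem sl4 {Y : Subgroup SL(4, F)} (a1 : ∀ t, transvection (by decide : (0 : Fin 4) ≠ 1) t ∈ Y)
    (a2 : ∀ t, transvection (by decide : (1 : Fin 4) ≠ 0) t ∈ Y) (a3 : ∀ t, transvection (by decide : (2 : Fin 4) ≠ 3) t ∈ Y)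
    (a4 : ∀ t, transvection (by decide : (3 : Fin 4) ≠ 2) t ∈ Y) (a5 : ∀ t, transvection (by decide : (0 : Fin 4) ≠ 2) t ∈ Y)
    (a6 : ∀ t, transvection (by decide : (2 : Fin 4) ≠ 1) t ∈ Y) : Y = ⊤ := by
  have c : ∀ {i j : Fin 4} (k) {hij : i ≠ j} {hik : i ≠ k} {hkj : k ≠ j}, (∀ t, transvection hik t ∈ Y) →
      (∀ t, transvection hkj t ∈ Y) → ∀ t : F, transvection hij t ∈ Y := fun k hij hik hkj a b t => by
    rw [← mul_one t, ← H11.commutator_transvection hij hik hkj]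
    exact mul_mem (mul_mem (mul_mem (a _) (b _)) (inv_mem (a _))) (inv_mem (b _))
  have b1 := c (hij := (by decide : (2 : Fin 4) ≠ 0)) 1 a6 a2
  have b2 := c (hij := (by decide : (1 : Fin 4) ≠ 2)) 0 a2 a5
  refine H11.sl_subgroup_eq_top Y fun i j h => ?_
  fin_cases i <;> fin_cases j
  exacts [absurd rfl h, a1, a5, c 2 a5 a3, a2, absurd rfl h, b2, c 2 b2 a3, b1, a6, absurd rfl h, a3, c 2 a4 b1, c 2 a4 a6, a4,
    absurd rfl h]

theorem l4 (ks : KS.{u, 0}) (kd : KD.{u, 0}) (k3 : K3.{u, 0}) : L4.{u} := fun F _ _ o => by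
  have k : ∀ n, Bl (.id SL(n, F)) (.id _) pm fun _ _ => bs := fun n =>
    ⟨two_ne o, fun _ _ => id, rfl, fun _ _ => rfl, fun _ _ _ _ => rfl⟩
  refine ⟨(k 4).four ks kd k3 o (fun q => ⟨transvection zero_ne_one 1, ?_, fun e => ?_, fun Y a b => ?_⟩) fun Y h => ?_, (k 5).five⟩
  · have : (3 : F) = 0 := by exact_mod_cast q ▸ FiniteField.cast_card_eq_zero F
    ext i j; fin_cases i <;> fin_cases j <;> simp [pow_three, transvection_coe, mul_apply]
    linear_combination this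
  · simpa [transvection_coe] using congrArg (fun g : SL(2, F) => g.1 0 1) e
  · rw [(bs_up _ _).1] at a
    refine sl4 (fun t => (bs_up _ t).1 ▸ b _) (fun t => (bs_up (by decide : (0 : Fin 4) ≠ 1) t).2 ▸ b _) (fun t => a _ ?_) (fun t => a _ ?_)
      (fun t => a _ ?_) fun t => a _ ?_ <;>
    exact Subtype.ext (by simp [transvection_coe, mul_add, add_mul, add_right_comm])
  · refine sl4 (fun t => (bs_up _ t).1 ▸ (h _).1) (fun t => (bs_up (by decide : (0 : Fin 4) ≠ 1) t).2 ▸ (h _).1)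
      (fun t => (bs_up _ t).1 ▸ (h _).2.1) (fun t => (bs_up (by decide : (2 : Fin 4) ≠ 3) t).2 ▸ (h _).2.1)
      (fun t => (bs_up _ t).1 ▸ (h _).2.2.1) fun t => ?_
    rw [← mul_one t, ← H11.commutator_transvection _ (k := 0) (by decide) (by decide), ← (bs_up (by decide : (0 : Fin 4) ≠ 1) _).1,
      ← (bs_up (by decide : (0 : Fin 4) ≠ 2) _).2]
    exact mul_mem (mul_mem (mul_mem (h _).2.2.1 (h _).1) (inv_mem (h _).2.2.1)) (inv_mem (h _).1)

end H23.O7
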