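/-
S5815, chunk `U4`.
-/
import Cfsg.Agent.H23.O7B

set_option autoImplicit false
set_option linter.unusedSectionVars false

open Cfsg MatrixGroups Subgroup H26.O7 H27.PH Equiv H11 H12
open Matrix hiding transvection
namespace H23.O7
universe u

theorem Kill.tr {G G' : Type} [Group G] [Group G'] (h : Kill.{u} G) (e : G ≃* G') : Kill.{u} G' := fun K _ _ p _ _ R I =>
  h K p (R.comp e.toMonoidHom e.injective) fun W hW => I W fun g x hx => by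
    obtain ⟨g, rfl⟩ := e.surjective g; exact hW g x hx

variable {F : Type} [Field F] [Fintype F] {q n : ℕ} (hF : Fintype.card F = q ^ 2)
include hF

theorem su4 (h2 : (2 : F) ≠ 0) {Y : Subgroup (SU 4 F q)} {b c : Fin 4} (e : b = 2 ∧ c = 3 ∨ b = 3 ∧ c = 2)
    (h0 : Bk F q {0, 1} ≤ Y) (h1 : Bk F q {2, 3} ≤ Y) (h3 : Bk F q {1, b} ≤ Y) : Y = ⊤ := by
  have u : Bk F q (Set.univ : Set (Fin 4)) = ⊤ := by ext; simp [mem_Bk]
  rw [eq_top_iff, ← u]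
  refine (gen4 hF (s := Set.univ) (a := 0) (b := 1) (c := 2) (d := 3) trivial trivial trivial trivial (by decide) (by decide) (by decide)
    (by decide) (by decide) (by decide)).trans (sup_le ?_ h0)
  refine gen0 hF (a := 1) (b := b) (c := c) (by simp) (by rcases e with e | e <;> simp [e]) (by rcases e with e | e <;> simp [e])
    (by rcases e with e | e <;> simp [e]) (by rcases e with e | e <;> simp [e]) (by rcases e with e | e <;> simp [e])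
    (sup_le (by convert h1; ext a; fin_cases a <;> simp) h3) fun k y hy y1 => ?_
  obtain ⟨i, i0, hi⟩ : ∃ i, i ≠ 0 ∧ y i * frob hF (y i) ≠ 1 := by
    by_contra! h
    simp only [hermC_B, Fin.sum_univ_four, ← frob_apply hF, h 1 (by decide), h 2 (by decide), h 3 (by decide),
      mem_Ws.1 hy 0 (by simp)] at y1
    exact h2 (by linear_combination y1)
  obtain ⟨t, ht, e⟩ : ∃ t ∈ Y ⊓ Bk F q (Set.univ \ {0}), t • (Pi.single 1 1 : Fin 4 → F) = Pi.single i 1 := by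
    by_cases h : i = 1
    · exact ⟨1, one_mem _, by simp [h]⟩
    · exact k _ (e_mem ⟨trivial, i0⟩) (ad_of (B_ee hF _) (B_ee hF _) (by simp [B_e, h]))
  exact ⟨t, ht, .inr (e ▸ ⟨B_ee hF i, y1, by rwa [← sy _ y, B_e]⟩)⟩

/-- the unitary blocks -/
def bu (a c : Fin n) (h : a ≠ c) : SU 2 F q →* SU n F q := bl hF _ (on_Jm (inj2 h))

theorem bu_val {a c : Fin n} (h : a ≠ c) (A : SU 2 F q) :
    (bu hF a c h A).1 = bs h A.1 := Subtype.ext (by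
  rw [bs_val, ← show ct hF (Jm F ![a, c]) = (Jm F ![a, c])ᵀ by ext; simp [ct_Jm, Jm_apply]]; rfl)

theorem bu_le {a c : Fin n} {h : a ≠ c} {Y : Subgroup (SU n F q)} (k : ∀ A, bu hF a c h A ∈ Y) : Bk F q {a, c} ≤ Y := by
  rw [← range_cons_cons_empty a c ![], ← range_bl (hF := hF) (inj2 h)]
  rintro _ ⟨A, rfl⟩; exact k A

theorem bl_su {F₁ : Type} [Field F₁] [Fintype F₁] (h1 : (2 : F₁) ≠ 0) (h2 : (2 : F) ≠ 0) (e : SL(2, F₁) ≃* SU 2 F q) :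
    Bl (SU n F q).subtype ((SU 2 F q).subtype.comp e.toMonoidHom) (fun π h => ⟨pm π h, (mem_su hF).2 (on_Jm π.injective)⟩)
      fun a c h => (bu hF a c h).comp e.toMonoidHom :=
  ⟨h2, Subtype.val_injective, map_neg' h1 h2 _ (Subtype.val_injective.comp e.injective), fun _ _ => rfl, fun _ _ h _ => bu_val hF h _⟩

theorem u4' (ks : KS.{u, 0}) (kd : KD.{u, 0}) (k3 : K3.{u, 0}) (o : Odd q) (h3 : q = 3 → ∃ y, y ^ 3 = 1 ∧ y ≠ 1 ∧
    ∀ Y : Subgroup (SU 4 F q), (∀ g, Commute g (bu hF 0 1 (by decide) y) → g ∈ Y) → Bk F q {0, 1} ≤ Y → Bk F q {1, 2} ≤ Y) :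
    Kill.{u} (PSU 4 F q) ∧ Kill0.{u} (PSU 5 F q) := by
  have h2 := two_ne (F := F) (hF ▸ o.pow)
  obtain ⟨p, k, hp, _, k0, hq⟩ := exists_prime_pow_of_card_sq hF
  have := Fact.mk hp
  have := Fintype.ofFinite (GaloisField p k)
  have c : Fintype.card (GaloisField p k) = q := by rw [← Nat.card_eq_fintype_card, GaloisField.card _ _ k0.ne', hq]
  obtain ⟨e⟩ := nonempty_su_two_equiv hF c
  have b := fun n => bl_su (n := n) hF (two_ne (c ▸ o)) h2 e.symm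
  have l : ∀ {a c : Fin 4} {h : a ≠ c} {Y : Subgroup (SU 4 F q)}, (∀ A, (bu hF a c h).comp e.symm.toMonoidHom A ∈ Y) → Bk F q {a, c} ≤ Y :=
    fun {_ _ h _} k => bu_le hF (h := h) (e.symm.surjective.forall.2 k)
  refine ⟨(b 4).four ks kd k3 (c ▸ o) (fun t => ?_) fun Y h => su4 hF h2 (.inr ⟨rfl, rfl⟩) (l fun A => (h A).1)
    (l fun A => (h A).2.1) (Set.pair_comm _ _ ▸ l fun A => (h A).2.2.2), (b 5).five⟩
  obtain ⟨y, y3, y1, h⟩ := h3 (c ▸ t)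
  obtain ⟨y, rfl⟩ := e.symm.surjective y
  exact ⟨y, e.symm.injective (by simpa using y3), fun k => y1 (by simp [k]), fun Y a1 a2 => su4 hF h2 (.inl ⟨rfl, rfl⟩) (l a2)
    (l (h := by decide) fun A => a1 _ ((b 4).comm _ _ _ _)) (h Y a1 (l a2))⟩

theorem h9 (y : SU 2 F q) (g k : SU 4 F q)
    (d : g.1.1 * (bs (by decide : (0 : Fin 4) ≠ 1) y.1).1 = (bs (by decide : (0 : Fin 4) ≠ 1) y.1).1 * g.1.1 ∧
    (∀ i : Fin 4, i ≠ 0 → i ≠ 1 → k.1.1 *ᵥ Pi.single i 1 = Pi.single i 1) ∧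
    (g * k * g).1.1 *ᵥ Pi.single 2 1 = Pi.single 0 1 ∧ (g * k * g).1.1 *ᵥ Pi.single 3 1 = Pi.single 3 1)
    (Y : Subgroup (SU 4 F q)) (a1 : ∀ g, Commute g (bu hF 0 1 (by decide) y) → g ∈ Y)
    (a2 : Bk F q {0, 1} ≤ Y) : Bk F q {1, 2} ≤ Y := fun b hb => by
  obtain ⟨d1, d2, e2, e3⟩ := d
  have hg : g ∈ Y := a1 g (Subtype.ext (by rw [coe_mul, coe_mul, bu_val]; exact Subtype.ext d1))
  have m := mul_mem (mul_mem hg (a2 (mem_Bk.2 fun i hi => d2 i (fun e => hi (.inl e)) fun e => hi (.inr e)))) hg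
  rw [← su_smul] at e2 e3
  generalize g * k * g = h at *
  refine (mul_mem_cancel_left (inv_mem m)).1 ((mul_mem_cancel_right m).1 (a2 (mem_Bk.2 fun i hi => ?_)))
  rw [mul_smul, mul_smul, inv_smul_eq_iff]
  fin_cases i
  exacts [absurd (by simp) hi, absurd (by simp) hi, e2 ▸ mem_Bk.1 hb 0 (by simp), (congrArg _ e3).trans ((mem_Bk.1 hb 3 (by simp)).trans e3.symm)]

omit hF

/-- explicit elements over the field with nine elements -/
def su9 {n : ℕ} (A : Matrix (Fin n) (Fin n) H16.F9c) (h : A.det = 1 := by decide +kernel)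
    (h' : Aᵀ * A.map (· ^ 3) = 1 := by decide +kernel) : SU n H16.F9c 3 := ⟨⟨A, h⟩, (mem_SU_iff_matrix H16.card_F9c _).2 h'⟩

/-- an element of order three -/
def y9 : SU 2 H16.F9c 3 := su9 !![⟨1, 1⟩, ⟨1, 1⟩; ⟨2, 1⟩, ⟨1, 2⟩]
/-- an element of its centralizer -/
def g9 : SU 4 H16.F9c 3 := su9 !![⟨0, 1⟩, ⟨2, 2⟩, 2, 0; ⟨1, 2⟩, 0, ⟨2, 2⟩, 0; ⟨0, 1⟩, ⟨1, 1⟩, 2, 0; 0, 0, 0, 1]
/-- an element of the block -/
def k9 : SU 4 H16.F9c 3 := su9 !![⟨0, 1⟩, 0, 0, 0; 0, ⟨0, 2⟩, 0, 0; 0, 0, 1, 0; 0, 0, 0, 1]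

theorem d9 : (y9 ^ 3).1.1 = 1 ∧ y9.1.1 ≠ 1 ∧
    g9.1.1 * (bs (by decide : (0 : Fin 4) ≠ 1) y9.1).1 = (bs (by decide : (0 : Fin 4) ≠ 1) y9.1).1 * g9.1.1 ∧
    (∀ i : Fin 4, i ≠ 0 → i ≠ 1 → k9.1.1 *ᵥ Pi.single i 1 = Pi.single i 1) ∧
    (g9 * k9 * g9).1.1 *ᵥ Pi.single 2 1 = Pi.single 0 1 ∧ (g9 * k9 * g9).1.1 *ᵥ Pi.single 3 1 = Pi.single 3 1 := by
  decide +kernel

theorem u4 (ks : KS.{u, 0}) (kd : KD.{u, 0}) (k3 : K3.{u, 0}) : U4.{u} := fun F _ _ q hF o => by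
  by_cases h : q = 3
  swap
  · exact u4' hF ks kd k3 o (absurd · h)
  subst h
  obtain ⟨f⟩ := nonempty_ringEquiv_of_card (F := H16.F9c) (K := F) (by rw [hF]; rfl)
  obtain ⟨a, b⟩ := u4' H16.card_F9c ks kd k3 o fun _ => ⟨y9, su_ext d9.1, fun e => d9.2.1 (congrArg (·.1.1) e), h9 _ _ _ _ d9.2.2⟩
  exact ⟨Kill.tr a (psuCongr 4 3 f), b.inj (psuCongr 5 3 f).toMonoidHom (psuCongr 5 3 f).injective⟩

end H23.O7
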