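/-
S5815, chunk `SP4`.
-/
import Cfsg.Agent.H23.O7A
import Cfsg.Agent.H11.SpSimple

set_option autoImplicit false
set_option linter.unusedSectionVars false

open Cfsg MatrixGroups Subgroup H26.O7 H11 Matrix
namespace H23.O7
universe u

variable {F : Type} [Field F]

local notation "Γ" => symplecticGroup (Fin 2) F
local notation "𝐞" k => (Pi.single (Sum.inl k) (1 : F) : Fin 2 ⊕ Fin 2 → F)

/-- symplectic transvections -/
noncomputable def tv (v : Fin 2 ⊕ Fin 2 → F) (c : F) : Γ := spEquivIsom.symm (stv _ v c)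

theorem tv_mul (v x : Fin 2 ⊕ Fin 2 → F) (c : F) : (tv v c).1 *ᵥ x = x + (c * (spForm (Fin 2) F).B v x) • v := by
  rw [← spEquivIsom_apply, tv, MulEquiv.apply_symm_apply, stv_apply]

theorem tv_conj (g : Γ) (v : Fin 2 ⊕ Fin 2 → F) (c : F) : g * tv v c * g⁻¹ = tv (g.1 *ᵥ v) c :=
  spEquivIsom.injective (by simp [tv, stv_conj])

theorem tv_top {Y : Subgroup Γ} (h : ∀ v c, tv v c ∈ Y) : Y = ⊤ :=
  comap_injective spEquivIsom.symm.surjective (f := spEquivIsom.symm.toMonoidHom) (stv_induction spForm_nondeg _ h)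

/-- the matrices of the long root `SL₂` -/
def ψm (A : Matrix (Fin 2) (Fin 2) F) : Matrix (Fin 2 ⊕ Fin 2) (Fin 2 ⊕ Fin 2) F :=
  fromBlocks !![A 0 0, 0; 0, 1] !![A 0 1, 0; 0, 0] !![A 1 0, 0; 0, 0] !![A 1 1, 0; 0, 1]

theorem ψm_mem (A : SL(2, F)) : ψm A.1 ∈ Γ := by
  have := A.det_coe
  rw [det_fin_two] at this
  rw [SymplecticGroup.mem_iff, J, ψm, fromBlocks_transpose, fromBlocks_multiply, fromBlocks_multiply]
  congr <;> ext i j <;> fin_cases i <;> fin_cases j <;> simp [vecMul, dotProduct, mul_comm] <;> grind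

theorem ψm_mul (A B : Matrix (Fin 2) (Fin 2) F) : ψm (A * B) = ψm A * ψm B := by
  rw [ψm, ψm, ψm, fromBlocks_multiply]
  congr <;> ext i j <;> fin_cases i <;> fin_cases j <;> simp [mul_apply]

/-- the long root `SL₂` -/
def ψs : SL(2, F) →* Γ := MonoidHom.mk' (fun A => ⟨_, ψm_mem A⟩) fun A B => Subtype.ext (ψm_mul A.1 B.1)

theorem ψs_mul (A : SL(2, F)) (x : Fin 2 ⊕ Fin 2 → F) : (ψs A).1 *ᵥ x =
    Sum.elim ![A 0 0 * x (.inl 0) + A 0 1 * x (.inr 0), x (.inl 1)] ![A 1 0 * x (.inl 0) + A 1 1 * x (.inr 0), x (.inr 1)] := by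
  ext (i | i) <;> fin_cases i <;> simp [ψs, ψm, mulVec, dotProduct]

/-- elements of the Levi subgroup -/
def lv (A B : Matrix (Fin 2) (Fin 2) F) (h : A * Bᵀ = 1) : Γ := ⟨fromBlocks A 0 0 B, by
  rw [SymplecticGroup.mem_iff, J, fromBlocks_transpose, fromBlocks_multiply, fromBlocks_multiply]
  simp [h, transpose_eq_one.1 (show (B * Aᵀ)ᵀ = 1 by simpa)]⟩

/-- the swap -/
def τs : Γ := lv !![0, 1; 1, 0] !![0, 1; 1, 0] (by ext i j; fin_cases i <;> fin_cases j <;> simp [mul_apply])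
/-- a short root element -/
def ss : Γ := lv !![1, 0; 1, 1] !![1, -1; 0, 1] (by ext i j; fin_cases i <;> fin_cases j <;> simp [mul_apply])

theorem sp_ext {g h : Γ} (e : ∀ x, g.1 *ᵥ x = h.1 *ᵥ x) : g = h :=
  Subtype.ext (toLin'.injective (LinearMap.ext e))

theorem τs_mul (x : Fin 2 ⊕ Fin 2 → F) : τs.1 *ᵥ x = Sum.elim ![x (.inl 1), x (.inl 0)] ![x (.inr 1), x (.inr 0)] := by
  ext (i | i) <;> fin_cases i <;> simp [τs, lv, mulVec, dotProduct]

theorem τs_sq : (τs : Γ) * τs = 1 := sp_ext fun x => by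
  rw [Submonoid.coe_mul, ← mulVec_mulVec, τs_mul, τs_mul]
  ext (i | i) <;> fin_cases i <;> simp

theorem ψt_mul (A : SL(2, F)) (x : Fin 2 ⊕ Fin 2 → F) : (τs * ψs A * τs⁻¹).1 *ᵥ x =
    Sum.elim ![x (.inl 0), A 0 0 * x (.inl 1) + A 0 1 * x (.inr 1)] ![x (.inr 0), A 1 0 * x (.inl 1) + A 1 1 * x (.inr 1)] := by
  rw [inv_eq_of_mul_eq_one_right τs_sq, Submonoid.coe_mul, Submonoid.coe_mul, ← mulVec_mulVec, ← mulVec_mulVec, τs_mul, τs_mul, ψs_mul]
  simp

theorem ψs_up (c : F) : ψs (up (-c)) = tv (𝐞 0) c := sp_ext fun x => by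
  rw [ψs_mul, tv_mul, spForm_B, J_form_apply]
  ext (i | i) <;> fin_cases i <;> simp [up]

theorem ψt_up (c : F) : τs * ψs (up (-c)) * τs⁻¹ = tv (𝐞 1) c := by
  rw [ψs_up, tv_conj, τs_mul]
  congr 1; ext (i | i) <;> fin_cases i <;> simp

theorem ex_col (a b : F) : ∃ (A : SL(2, F)) (e : F), (e = 0 ∨ e = 1) ∧ A 0 0 * e = a ∧ A 1 0 * e = b := by
  by_cases h : a = 0
  · by_cases h' : b = 0
    · exact ⟨1, 0, by simp [h, h']⟩
    · exact ⟨⟨!![0, -b⁻¹; b, 0], by simp [h']⟩, 1, by simp [h]⟩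
  · exact ⟨⟨!![a, 0; b, a⁻¹], by simp [h]⟩, 1, by simp⟩

theorem sp_top {Y : Subgroup Γ} (a : ∀ A, ψs A ∈ Y) (b : ∀ A, τs * ψs A * τs⁻¹ ∈ Y) (d : ∀ c, tv ((𝐞 0) + 𝐞 1) c ∈ Y) : Y = ⊤ :=
  tv_top fun v c => by
    obtain ⟨A, e, h, h1, h2⟩ := ex_col (v (.inl 0)) (v (.inr 0))
    obtain ⟨B, e', h', h3, h4⟩ := ex_col (v (.inl 1)) (v (.inr 1))
    have : tv (e • (𝐞 0) + e' • 𝐞 1) c ∈ Y := by
      rcases h with rfl | rfl <;> rcases h' with rfl | rfl <;> simp only [zero_smul, one_smul, zero_add, add_zero]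
      exacts [by simp [tv, stv_zero_left], ψt_up c ▸ b _, ψs_up c ▸ a _, d c]
    have := mul_mem (mul_mem (a A) (mul_mem (mul_mem (b B) this) (inv_mem (b B)))) (inv_mem (a A))
    rw [tv_conj, tv_conj, ψt_mul, ψs_mul] at this
    convert this
    ext (i | i) <;> fin_cases i <;> simp [*]

theorem sp4 (ks : KS.{u, 0}) (kd : KD.{u, 0}) (k3 : K3.{u, 0}) : SP4.{u} := fun F _ _ o => by
  have h2 := two_ne o
  have up_pow : ∀ (n : ℕ) (t : F), up t ^ n = up (n * t) := fun n t => by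
    induction n with
    | zero => rw [pow_zero]; ext i j; fin_cases i <;> fin_cases j <;> simp [up]
    | succ n ih =>
      rw [pow_succ, ih]; refine Subtype.ext ?_; change (up _).1 * (up _).1 = _; ext i j
      fin_cases i <;> fin_cases j <;> simp [up, mul_apply]; ring
  have up0 : up (0 : F) = 1 := by ext i j; fin_cases i <;> fin_cases j <;> simp [up]
  have cm : ∀ a b : SL(2, F), Commute (ψs a) (τs * ψs b * τs⁻¹) := fun a b => sp_ext fun x => by
    rw [Submonoid.coe_mul, Submonoid.coe_mul _ _ (ψs a), ← mulVec_mulVec, ← mulVec_mulVec, ψs_mul, ψt_mul, ψt_mul, ψs_mul]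
    simp
  have ce : ∀ {g : symplecticGroup (Fin 2) F}, g ∈ center _ → (∀ x, g.1 *ᵥ x = x) ∨ ∀ x, g.1 *ᵥ x = -x := fun h =>
    ((sp_mem_center_iff _).1 h).imp (fun h x => by simp [h]) fun h x => by simp [h, neg_mulVec]
  have s0 : ss.1 *ᵥ Pi.single (.inl 0) (1 : F) = Pi.single (.inl 0) 1 + Pi.single (.inl 1) 1 := by
    ext (i | i) <;> fin_cases i <;> simp [ss, lv]
  have s1 : ss.1 *ᵥ Pi.single (.inl 1) (1 : F) = Pi.single (.inl 1) 1 := by ext (i | i) <;> fin_cases i <;> simp [ss, lv]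
  refine Dt.kill ks kd k3 (ψ := ψs) (τ := τs) (s := ss) ⟨cm, τs_sq, (sp_mem_center_iff _).2 (.inr ?_), fun h => h2 ?_,
    fun q => ⟨up (- -1), ?_, fun e => ?_, fun Y a b => sp_top b (fun A => a _ (cm _ _).symm) fun c => a _ ?_⟩,
    fun Y h => sp_top (fun A => (h A).1) (fun A => (h A).2.1) fun c => ?_, .inr ⟨up (- -1), ringChar F, ?_, ?_, fun h => ?_, ?_⟩⟩ o
  · refine toLin'.injective (LinearMap.ext fun x => ?_)
    rw [toLin'_apply, toLin'_apply, Submonoid.coe_mul, ← mulVec_mulVec, ψs_mul, ψt_mul]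
    ext (i | i) <;> fin_cases i <;> simp [neg_mulVec]
  · obtain h | h := ce h
    · have := congrFun (h 1) (.inl 0)
      simp [ψs_mul] at this; linear_combination -this
    · have := congrFun (h 1) (.inl 1)
      simp [ψs_mul] at this; linear_combination this
  · rw [up_pow, ← q, FiniteField.cast_card_eq_zero, zero_mul, up0]
  · simpa [up] using congrArg (fun g : SL(2, F) => g.1 0 1) e
  · refine (mul_inv_eq_iff_eq_mul.1 ?_).symm
    rw [ψs_up, tv_conj, tv_mul, spForm_B, J_form_apply]; simp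
  · rw [← s0, ← tv_conj, ← ψs_up]; exact (h _).2.2.1
  · exact (CharP.char_is_prime F _).odd_of_ne_two fun e => h2 (by exact_mod_cast e ▸ ringChar.Nat.cast_ringChar (R := F))
  · rw [up_pow, ringChar.Nat.cast_ringChar, zero_mul, up0]
  · obtain h | h := ce h
    · simpa [up] using congrFun ((ψt_mul _ _).symm.trans (h 1)) (.inl 1)
    · have := congrFun ((ψt_mul _ _).symm.trans (h 1)) (.inl 0)
      simp at this; exact h2 (by linear_combination this)
  · exact mul_inv_eq_iff_eq_mul.1 (by rw [ψt_up, tv_conj, s1])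

end H23.O7
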