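import Cfsg.Agent.H23.PrimeGr
import Cfsg.Agent.H23.Small
import Cfsg.Agent.H23.Count
import Cfsg.Agent.H23.Elem
import Cfsg.Agent.H10.FixAut
import Cfsg.Agent.H5.Burnside
import Cfsg.Agent.H24.ClassSize

/-! Fixed-point-free elements of order three; groups whose element orders are at most four. -/

set_option autoImplicit false

namespace H23

open Subgroup Cfsg
open scoped commutatorElement

variable {G : Type*} [Group G]

theorem pow_six_of_class_two (hc : ∀ a b c : G, c * ⁅a, b⁆ = ⁅a, b⁆ * c) {h k0 k1 k2 : G}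
    (e : k0 * k1 * k2 = 1) (c : Commute k0 k1) (h0 : (h * k0) ^ 2 = 1) (h1 : (h * k1) ^ 2 = 1)
    (h2 : (h * k2) ^ 2 = 1) : h ^ 6 = 1 := by
  have hsq : ∀ k, (h * k) ^ 2 = 1 → ⁅k, h⁆ * k ^ 2 = (h ^ 2)⁻¹ := fun k hk => by
    have : h ^ 2 * (⁅k, h⁆ * k ^ 2) = (h * k) ^ 2 := by
      calc h ^ 2 * (⁅k, h⁆ * k ^ 2) = h * (h * ⁅k, h⁆) * k ^ 2 := by simp only [sq, mul_assoc]
        _ = (h * k) ^ 2 := by rw [hc, commutatorElement_def]; simp only [sq]; group
    rw [hk] at this
    exact eq_inv_of_mul_eq_one_right this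
  have bil : ∀ a b, ⁅a * b, h⁆ = ⁅b, h⁆ * ⁅a, h⁆ := fun a b => by
    calc ⁅a * b, h⁆ = a * ⁅b, h⁆ * a⁻¹ * ⁅a, h⁆ := by simp only [commutatorElement_def]; group
      _ = _ := by rw [hc b h a]; group
  have e1 : ⁅k2, h⁆ * (⁅k1, h⁆ * ⁅k0, h⁆) = 1 := by rw [← bil, ← bil, e, commutatorElement_one_left]
  have e2 : k2 ^ 2 * (k0 ^ 2 * k1 ^ 2) = 1 := by
    rw [← c.mul_pow, eq_inv_of_mul_eq_one_right e, inv_pow, inv_mul_cancel]
  have : (h ^ 6)⁻¹ = ⁅k2, h⁆ * k2 ^ 2 * (⁅k0, h⁆ * k0 ^ 2 * (⁅k1, h⁆ * k1 ^ 2)) := by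
    rw [hsq k0 h0, hsq k1 h1, hsq k2 h2]; group
  have C : ∀ a b c : G, Commute c ⁅a, b⁆ := hc
  rw [← inv_eq_one, this, (C k1 h _).mul_mul_mul_comm,
    ((C k0 h _).mul_right (C k1 h _)).mul_mul_mul_comm, hc k1 h, e1, e2, mul_one]

variable [Finite G]

/-- Burnside/Neumann: a fixed-point-free automorphism of order three forces class two. -/
theorem lcs_two_of_fpf_three {N : Subgroup G} [N.Normal] {x : G} (hx : x ^ 3 = 1)
    (hf : N ⊓ centralizer {x} = ⊥) : (⊤ : Subgroup N).lowerCentralSeries 2 = ⊥ := by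
  haveI : Fact (Nat.Prime 3) := ⟨Nat.prime_three⟩
  refine H10.higman_fpf (p := 3) (Or.inr ⟨rfl, rfl⟩) (α := MulAut.conjNormal x)
    (by rw [← map_pow, hx, map_one]) fun g hg => Subtype.ext (H3.eq_one_of_fpf hf g.2 ?_)
  have := congrArg Subtype.val hg
  rw [MulAut.conjNormal_apply] at this
  rw [← mul_inv_eq_iff_eq_mul, this]

theorem norm_three {N : Subgroup G} [N.Normal] {x : G} (hx : x ^ 3 = 1)
    (hf : N ⊓ centralizer {x} = ⊥) {a : G} (ha : a ∈ N) :
    a * (x * a * x⁻¹) * (x * (x * a * x⁻¹) * x⁻¹) = 1 ∧ Commute a (x * a * x⁻¹) := by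
  have key : ∀ a ∈ N, a * (x * a * x⁻¹) * (x * (x * a * x⁻¹) * x⁻¹) = 1 := fun a ha => by
    obtain ⟨y, -, rfl⟩ := H3.exists_commutator_of_fpf (le_normalizer_of_normal (mem_top x)) hf ha
    calc _ = y⁻¹ * x ^ 3 * y * (x ^ 3)⁻¹ := by rw [pow_three]; group
      _ = 1 := by rw [hx]; group
  refine ⟨key a ha, ?_⟩
  have h1 := eq_inv_of_mul_eq_one_right (key a ha)
  have h2 := eq_inv_of_mul_eq_one_right (key _ (inv_mem ha))
  have h3 : x * (x * a⁻¹ * x⁻¹) * x⁻¹ = (x * (x * a * x⁻¹) * x⁻¹)⁻¹ := by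
    simp only [mul_inv_rev, inv_inv, mul_assoc]
  rw [h3, h1, inv_inv] at h2
  have h4 : (a⁻¹ * (x * a⁻¹ * x⁻¹))⁻¹ = x * a * x⁻¹ * a := by group
  exact h2.trans h4

/-- `S₃` acting on a 2-group with the 3-element fixed point free, and no elements of order 8. -/
theorem sq_eq_one_of_s3 {N : Subgroup G} [hN : N.Normal] {x s : G} (hx : x ^ 3 = 1)
    (hf : N ⊓ centralizer {x} = ⊥) (hs : s * s = 1) (hsx : s * x * s⁻¹ = x⁻¹)
    (h4 : ∀ h ∈ N, ∀ i : ℕ, (h * (x ^ i * s)) ^ 4 = 1) (h4' : ∀ h ∈ N, h ^ 4 = 1) :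
    ∀ h ∈ N, h ^ 2 = 1 := by
  intro h hh
  have hc : ∀ a b c : N, c * ⁅a, b⁆ = ⁅a, b⁆ * c := fun a b c => by
    have : ⁅⁅a, b⁆, c⁆ ∈ (⊤ : Subgroup N).lowerCentralSeries 2 :=
      commutator_mem_commutator (commutator_mem_commutator (mem_top a) (mem_top b)) (mem_top c)
    rw [lcs_two_of_fpf_three hx hf, mem_bot, commutatorElement_eq_one_iff_mul_comm] at this
    exact this.symm
  have hk := hN.conj_mem h hh s
  obtain ⟨e, c⟩ := norm_three hx hf hk
  have hi : ∀ i : ℕ, (h * (x ^ i * (s * h * s⁻¹) * (x ^ i)⁻¹)) ^ 2 = 1 := fun i => by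
    have e1 : s * x ^ i * s⁻¹ = (x ^ i)⁻¹ := by rw [← conj_pow, hsx, inv_pow]
    have e2 : s⁻¹ = s := inv_eq_of_mul_eq_one_right hs
    rw [← h4 h hh i, ← e1, (by norm_num : 4 = 2 * 2), pow_mul]
    congr 1
    calc _ = h * x ^ i * s * h * x ^ i * s⁻¹ := by group
      _ = _ := by rw [e2, sq]; group
  have h6 := pow_six_of_class_two hc (h := ⟨h, hh⟩) (k0 := ⟨_, hk⟩) (k1 := ⟨_, hN.conj_mem _ hk x⟩)
    (k2 := ⟨_, hN.conj_mem _ (hN.conj_mem _ hk x) x⟩) (Subtype.ext e) (Subtype.ext c)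
    (Subtype.ext (by simpa using hi 0)) (Subtype.ext (by simpa using hi 1))
    (Subtype.ext (by simpa [sq, mul_assoc] using hi 2))
  have h6 : h ^ 6 = 1 := congrArg Subtype.val h6
  rw [(by norm_num : 6 = 4 + 2), pow_add, h4' h hh, one_mul] at h6
  exact h6

theorem isPGroup_of_piNum {p : ℕ} (hp : p.Prime) (h : PiNum {p} (Nat.card G)) : IsPGroup p G := by
  obtain ⟨k, hk⟩ := (piNum_singleton_iff hp Nat.card_pos.ne').1 h
  exact IsPGroup.of_card hk

theorem card_le_of_cyclic {n : ℕ} (h : ∀ g : G, orderOf g ≤ n) (hc : IsCyclic G) :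
    Nat.card G ≤ n := by
  obtain ⟨g, hg⟩ := hc.exists_ofOrder_eq_natCard
  exact hg ▸ h g

theorem ord4 (h : ∀ g : G, orderOf g ≤ 4) (h2 : 2 ∣ Nat.card G) (h3 : 3 ∣ Nat.card G) :
    ∃ (N : Subgroup G) (_ : N.Normal),
      (IsElementaryAbelian 3 N ∧ IsPGroup 2 (G ⧸ N) ∧ (IsCyclic (G ⧸ N) ∨
        Nonempty (G ⧸ N ≃* QuaternionGroup 2))) ∨
      (IsPGroup 2 N ∧ N.index = 3 ∧ Group.nilpotencyClass N ≤ 2) ∨
      (IsElementaryAbelian 2 N ∧ Nonempty (G ⧸ N ≃* Equiv.Perm (Fin 3)) ∧
        ∃ g : G, orderOf g = 4) := by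
  classical
  haveI : Fact (Nat.Prime 2) := ⟨Nat.prime_two⟩
  haveI : Fact (Nat.Prime 3) := ⟨Nat.prime_three⟩
  have hp : ∀ r : ℕ, r.Prime → r ∣ Nat.card G → r = 2 ∨ r = 3 := fun r hr hd => by
    haveI : Fact r.Prime := ⟨hr⟩
    obtain ⟨g, hg⟩ := exists_prime_orderOf_dvd_card' r hd
    have := hg ▸ h g
    have := hr.two_le
    have : r ≠ 4 := by rintro rfl; norm_num at hr
    omega
  have hs := H5.isSolvable_of_primes_subset_pair Nat.prime_two Nat.prime_three hp
  have he : EPPO G := eppo_of_not_mul fun a b ha hb hab had hbd ⟨g, hg⟩ => by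
    have := hg ▸ h g
    rcases hp a ha had with rfl | rfl <;> rcases hp b hb hbd with rfl | rfl <;> omega
  have c23 : ∀ n, n ∣ Nat.card G → PiNum {2}ᶜ n → PiNum {3} n := fun n hn h r hr hd =>
    (hp r hr (hd.trans hn)).resolve_left (h r hr hd)
  have c32 : ∀ n, n ∣ Nat.card G → PiNum {3}ᶜ n → PiNum {2} n := fun n hn h r hr hd =>
    (hp r hr (hd.trans hn)).resolve_right (h r hr hd)
  haveI : Nontrivial G := Finite.one_lt_card_iff_nontrivial.1 (Nat.le_of_dvd Nat.card_pos h2)
  have hq : ∀ (N : Subgroup G) [N.Normal] (g : G ⧸ N), orderOf g ≤ 4 := fun N _ g => by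
    obtain ⟨g, rfl⟩ := QuotientGroup.mk_surjective g
    exact (Nat.le_of_dvd (orderOf_pos g) (orderOf_map_dvd (QuotientGroup.mk' N) g)).trans (h g)
  by_cases h0 : piCore {3} G = ⊥
  · have h0 : piCore {2} G ≠ ⊥ := (exists_piCore_ne_bot hs {2}).resolve_right fun h1 =>
      h1 (eq_bot_iff.2 (h0 ▸ H1.le_piCore inferInstance
        (c23 _ (card_subgroup_dvd_card _) H1.piCore_isPi)))
    set N := piCore {2} G
    have hN : PiNum {2} (Nat.card N) := H1.piCore_isPi
    have hN2 := isPGroup_of_piNum Nat.prime_two hN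
    refine ⟨N, inferInstance, Or.inr ?_⟩
    rcases (he {2}).struct hs h0 with hi | ⟨F, hFn, hc, -, hF0, hF1, hF, -, hC⟩
    · obtain ⟨C, hC, hf, hfr, -⟩ := (he {2}).frob N hN hi h0 fun e => by
        have := hN 3 Nat.prime_three (by rwa [e, card_top])
        simp at this
      have hC3 := isPGroup_of_piNum Nat.prime_three
        (hC.symm.index_eq_card ▸ c23 _ N.index_dvd_card hi : PiNum {3} (Nat.card C))
      have hc := (H3.cyclic_or_quaternion_of_fpf hC3 le_normalizer_of_normal h0 hf).resolve_right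
        (by simp)
      have h4 := card_le_of_cyclic (G := C) (n := 4) (fun g => by rw [← orderOf_coe]; exact h g) hc
      have h5 := Nat.le_of_dvd Nat.card_pos (hC3.card_eq_or_dvd.resolve_left
        (mt card_eq_one.1 hfr.1))
      have h6 : Nat.card C = 3 := by
        by_contra h6
        have h7 : Nat.card C = 4 := by omega
        have := hC3.card_eq_or_dvd
        omega
      obtain ⟨x, hx, ho⟩ := exists_mem_orderOf_eq Nat.prime_three h6.symm.dvd
      haveI := hN2.isNilpotent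
      exact Or.inl ⟨hN2, hC.symm.index_eq_card.trans h6,
        Subgroup.lowerCentralSeries_eq_bot_iff_nilpotencyClass_le.1 (lcs_two_of_fpf_three
          (ho ▸ pow_orderOf_eq_one x) (hf x hx (by rintro rfl; simp at ho)))⟩
    · right
      have hF3 := isPGroup_of_piNum Nat.prime_three
        (c23 _ ((card_subgroup_dvd_card F).trans N.index_dvd_card) hF)
      have h4 := card_le_of_cyclic (G := F) (n := 4) (fun g => by rw [← orderOf_coe]; exact hq N g) hc
      have h6 : Nat.card F = 3 := by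
        have := hF3.card_eq_or_dvd.resolve_left (mt card_eq_one.1 hF0)
        have := Nat.card_pos (α := F)
        omega
      obtain ⟨X, ⟨e⟩, hX, hf⟩ := (he {2}).exists_lift N hN hF
      obtain ⟨x, hx, ho⟩ := exists_mem_orderOf_eq (H := X) Nat.prime_three
        (by rw [Nat.card_congr e.toEquiv, h6])
      have hx1 : x ≠ 1 := by rintro rfl; simp at ho
      have hx3 : x ^ 3 = 1 := ho ▸ pow_orderOf_eq_one x
      have hxN : (x : G ⧸ N) ≠ 1 := fun e => by
        have := hN 3 Nat.prime_three (ho ▸ orderOf_dvd_natCard N ((QuotientGroup.eq_one_iff x).1 e))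
        simp at this
      have hxF : (x : G ⧸ N) ∈ F := hX ▸ mem_map_of_mem _ hx
      obtain ⟨hxo, hz⟩ := eq_zpowers_of_card_prime Nat.prime_three h6 hxF hxN
      have hCx : centralizer {(x : G ⧸ N)} = F := by
        rw [← H1.centralizer_zpowers, hz]
        exact le_antisymm hC (le_centralizer F)
      have hconj : ∀ y, IsConj (x : G ⧸ N) y → y = x ∨ y = (x : G ⧸ N)⁻¹ := fun y hy => by
        obtain ⟨c, rfl⟩ := isConj_iff.1 hy
        have h1 := hFn.conj_mem _ hxF c
        rw [← hz] at h1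
        obtain ⟨k, hk, e⟩ := Finset.mem_image.1 (mem_zpowers_iff_mem_range_orderOf.1 h1)
        rw [hxo, Finset.mem_range] at hk
        interval_cases k
        · exact absurd (by simpa using e.symm) hxN
        · exact Or.inl (by rw [← e, pow_one])
        · refine Or.inr (e ▸ eq_inv_of_mul_eq_one_left ?_)
          rw [← pow_succ]; exact orderOf_dvd_iff_pow_eq_one.1 hxo.dvd
      have hi : F.index = 2 := by
        have h1 : H24.cs (x : G ⧸ N) ≤ 2 := by
          rw [← H24.ncard_isConj]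
          exact (Set.ncard_le_ncard (t := {(x : G ⧸ N), (x : G ⧸ N)⁻¹}) fun y hy => hconj y hy).trans
            ((Set.ncard_insert_le _ _).trans (by simp))
        rw [H24.cs, hCx] at h1
        have h2 := mt index_eq_one.1 hF1
        have h3 := F.index_ne_zero_of_finite
        omega
      obtain ⟨t, ht⟩ : ∃ t, t ∉ F := by
        by_contra h1; push Not at h1; exact hF1 (eq_top_iff.2 fun t _ => h1 t)
      obtain ⟨t, rfl⟩ := QuotientGroup.mk_surjective t
      have h1 : ((t * x * t⁻¹ : G) : G ⧸ N) = (x : G ⧸ N)⁻¹ :=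
        (hconj _ (isConj_iff.2 ⟨t, rfl⟩)).resolve_left fun e => ht
          (hCx ▸ mem_centralizer_singleton_iff.2 (mul_inv_eq_iff_eq_mul.1 e))
      have h2 : t * x * t⁻¹ * x ∈ N := by
        rw [← QuotientGroup.eq_one_iff, QuotientGroup.mk_mul, h1, inv_mul_cancel]
      obtain ⟨y, hy, ey⟩ := H3.exists_commutator_of_fpf (le_normalizer_of_normal (mem_top x⁻¹))
        (hf x⁻¹ (inv_mem hx) (inv_ne_one.2 hx1)) h2
      have hsx : y * t * x * (y * t)⁻¹ = x⁻¹ := by
        calc _ = y * (t * x * t⁻¹ * x) * x⁻¹ * y⁻¹ := by group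
          _ = _ := by rw [ey]; group
      have hout : ∀ g : G, (g : G ⧸ N) ∉ F → g ^ 4 = 1 := fun g hg => by
        have h1 : 2 ∣ orderOf g := by
          by_contra h1
          refine hg (mem_of_coprime_index ?_)
          rw [hi]
          exact Nat.Coprime.coprime_dvd_left (orderOf_map_dvd (QuotientGroup.mk' N) g)
            ((Nat.Prime.coprime_iff_not_dvd Nat.prime_two).2 h1).symm
        have h2 := h g
        have h3 := orderOf_pos g
        rw [← orderOf_dvd_iff_pow_eq_one]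
        generalize orderOf g = k at *
        interval_cases k <;> omega
      have hout' : ∀ a ∈ N, ∀ i : ℕ, ((a * (x ^ i * (y * t)) : G) : G ⧸ N) ∉ F := by
        intro a ha i h1
        rw [QuotientGroup.mk_mul, QuotientGroup.mk_mul, QuotientGroup.mk_mul, QuotientGroup.mk_pow,
          (QuotientGroup.eq_one_iff a).2 ha, (QuotientGroup.eq_one_iff y).2 hy, one_mul, one_mul,
          F.mul_mem_cancel_left (pow_mem hxF i)] at h1
        exact ht h1
      have hss : y * t * (y * t) = 1 := by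
        have h1 : y * t * (y * t) ∈ centralizer {x} := mem_centralizer_singleton_iff.2 (by
          calc _ = y * t * (y * t * x * (y * t)⁻¹) * (y * t) := by group
            _ = y * t * x⁻¹ * (y * t) := by rw [hsx]
            _ = (y * t * x * (y * t)⁻¹)⁻¹ * (y * t) * (y * t) := by group
            _ = _ := by rw [hsx]; group)
        refine H3.eq_one_of_coprime_of_mem (he.isPGroup_centralizer Nat.prime_three ho) h1
          (Nat.Coprime.coprime_dvd_left (k := 2) ?_ (by norm_num))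
        have := hout _ (hout' 1 N.one_mem 0)
        rw [orderOf_dvd_iff_pow_eq_one, ← sq, ← pow_mul]
        simpa using this
      have hsq := sq_eq_one_of_s3 hx3 (hf x hx hx1) hss hsx (fun a ha i => hout _ (hout' a ha i))
        fun a ha => by
          obtain ⟨k, hk⟩ := exists_orderOf_eq_of_mem hN2 ha
          have h2 := hk ▸ h a
          rw [← orderOf_dvd_iff_pow_eq_one, hk]
          exact pow_dvd_pow 2 (show k ≤ 2 from (Nat.pow_le_pow_iff_right one_lt_two).1 h2)
      have hinv : ∀ a ∈ N, a⁻¹ = a := fun a ha => inv_eq_of_mul_eq_one_right (sq a ▸ hsq a ha)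
      refine ⟨⟨H1.isMulCommutative_iff.2 fun a ha b hb => ?_, hsq⟩, s3_of_card_six ?_ fun hc => ?_,
        by_contra fun h4 => ?_⟩
      · rw [← hinv _ (mul_mem ha hb), mul_inv_rev, hinv a ha, hinv b hb]
      · rw [← F.card_mul_index, h6, hi]
      · exact ht (hCx ▸ mem_centralizer_singleton_iff.2 (hc _ _))
      · have h5 : y * t ∈ centralizer (N : Set G) := fun a ha => by
          have h1 := hout _ (hout' a ha 0)
          rw [pow_zero, one_mul] at h1
          have h2 : (a * (y * t)) ^ 2 = 1 := by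
            by_contra h2
            exact h4 ⟨_, orderOf_eq_prime_pow (p := 2) (n := 1) h2 h1⟩
          calc a * (y * t) = (a * (y * t))⁻¹ := (inv_eq_of_mul_eq_one_right (sq (a * _) ▸ h2)).symm
            _ = _ := by rw [mul_inv_rev, hinv a ha, inv_eq_of_mul_eq_one_right hss]
        obtain ⟨n, hn, hno⟩ := exists_mem_orderOf_eq Nat.prime_two
          (hN2.card_eq_or_dvd.resolve_left (mt card_eq_one.1 h0))
        have h7 : centralizer (N : Set G) ≤ N := H1.le_piCore inferInstance (PiNum.of_dvd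
          ((he {2}).piNum_centralizer (z := n) (by rintro rfl; simp at hno)
            (by rw [hno]; exact PiNum.prime Nat.prime_two rfl))
          (card_dvd_of_le (centralizer_le (Set.singleton_subset_iff.2 hn))))
        refine hout' 1 N.one_mem 0 ?_
        rw [pow_zero, one_mul, one_mul, (QuotientGroup.eq_one_iff _).2 (h7 h5)]
        exact F.one_mem
  · set N := piCore {3} G
    have hN : PiNum {3} (Nat.card N) := H1.piCore_isPi
    have hN3 := isPGroup_of_piNum Nat.prime_three hN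
    refine ⟨N, inferInstance, Or.inl ?_⟩
    rcases (he {3}).struct hs h0 with hi | ⟨F, hFn, hc, hodd, hF0, hF1, hF, -, hC⟩
    · obtain ⟨C, hC, hf, hfr, -⟩ := (he {3}).frob N hN hi h0 fun e => by
        have := hN 2 Nat.prime_two (by rwa [e, card_top])
        simp at this
      have hC2 := isPGroup_of_piNum Nat.prime_two
        (hC.symm.index_eq_card ▸ c32 _ N.index_dvd_card hi : PiNum {2} (Nat.card C))
      have e := hC.symm.QuotientMulEquiv
      obtain ⟨t, ht, ho⟩ := exists_mem_orderOf_eq Nat.prime_two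
        (hC2.card_eq_or_dvd.resolve_left (mt card_eq_one.1 hfr.1))
      refine ⟨⟨H3.isMulCommutative_of_conj_eq_inv (s := t) fun k hk => H3.conj_eq_inv_of_fpf
        (le_normalizer_of_normal (mem_top t)) (by
          rw [← sq, ← ho, pow_orderOf_eq_one]; exact one_mem _)
        (hf t ht (by rintro rfl; simp at ho)) hk, fun a ha => ?_⟩, hC2.of_equiv e.symm, ?_⟩
      · obtain ⟨k, hk⟩ := exists_orderOf_eq_of_mem hN3 ha
        have h2 := hk ▸ h a
        rw [← orderOf_dvd_iff_pow_eq_one, hk]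
        have : k < 2 := (Nat.pow_lt_pow_iff_right (a := 3) (by norm_num)).1 (by omega)
        exact (pow_dvd_pow 3 (show k ≤ 1 by omega)).trans (by norm_num)
      · rcases H3.cyclic_or_quaternion_of_fpf hC2 le_normalizer_of_normal h0 hf with
          hc | ⟨-, n, hn, ⟨f⟩⟩
        · exact Or.inl (isCyclic_of_surjective e.symm e.symm.surjective)
        · have h1 := h (f.symm (QuaternionGroup.a 1))
          rw [orderOf_coe, MulEquiv.orderOf_eq, QuaternionGroup.orderOf_a_one] at h1
          have : n < 2 := (Nat.pow_lt_pow_iff_right (a := 2) (by norm_num)).1 (by omega)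
          obtain rfl : n = 1 := by omega
          exact Or.inr ⟨e.trans f⟩
    · have := (isPGroup_of_piNum Nat.prime_two
        (c32 _ ((card_subgroup_dvd_card F).trans N.index_dvd_card) hF)).card_eq_or_dvd.resolve_left
        (mt card_eq_one.1 hF0)
      exact absurd (even_iff_two_dvd.2 this) (Nat.not_even_iff_odd.2 hodd)

end H23
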