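import Cfsg.Agent.H6.PS0

/-! The Praeger-Saxl bound: one round inside the kernel (chunk RD). -/

set_option autoImplicit false

namespace H23.PR
open MulAction Finset H6.PS
universe u

open Classical in
/-- indicator -/
noncomputable def I (P : Prop) : ℕ := if P then 1 else 0
theorem I1 {P : Prop} (h : P) : I P = 1 := if_pos h
theorem I0 {P : Prop} (h : ¬ P) : I P = 0 := if_neg h

theorem sI {Ω : Type*} [Fintype Ω] (P : Ω → Prop) : ∑ v, I (P v) = {v | P v}.ncard := by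
  classical
  rw [Set.ncard_eq_toFinset_card', Set.toFinset_setOf, card_filter]
  exact sum_congr rfl fun _ _ => by unfold I; congr

theorem EI {G Ω : Type*} [Group G] [MulAction G Ω] [Fintype Ω] (X : Subgroup G) :
    E Ω X = ∑ u : Ω, ∑ v, I (u ≠ v ∧ ∃ g ∈ X, g • u = v) := by
  rw [E, card_filter, Fintype.sum_prod_type]
  exact sum_congr rfl fun _ _ => sum_congr rfl fun _ _ => by unfold I; congr

theorem sh {G Ω : Type*} [Group G] [MulAction G Ω] [Fintype Ω] (g : G) (f : Ω → ℕ) : ∑ x, f x = ∑ x, f (g • x) :=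
  (Equiv.sum_comp (toPerm g) f).symm

theorem E_le {G Ω : Type*} [Group G] [MulAction G Ω] [Fintype Ω] {X : Subgroup G} {a : Ω} {c : ℕ}
    (h0 : ∀ g ∈ X, g • a = a) (h : ∀ u ≠ a, {v | u ≠ v ∧ ∃ g ∈ X, g • u = v}.ncard ≤ c) :
    E Ω X ≤ (Nat.card Ω - 1) * c := by
  classical
  rw [EI, ← add_sum_erase _ _ (mem_univ a), sum_eq_zero fun v _ => I0 fun ⟨n, g, m, e⟩ => n ((h0 g m).symm.trans e),
    zero_add, Nat.card_eq_fintype_card, ← card_univ, ← card_erase_of_mem (mem_univ a)]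
  exact sum_le_card_nsmul _ _ _ fun u m => (sI _).trans_le (h u (mem_erase.1 m).1)

theorem rd (sq : SQ.{u}) : RD.{u} := by
  classical
  intro K Ω Λ _ _ _ _ α _ s b t B
  obtain ⟨π, eqv, fib, cs, cn0, hs, hb⟩ := B
  have sb : 4 ≤ s * b := Nat.mul_le_mul hs hb
  have : Finite Λ := Nat.finite_of_card_ne_zero (by rw [cs]; omega)
  have := Fintype.ofFinite Λ
  have cn : Fintype.card Ω = s * b + 1 := Nat.card_eq_fintype_card.symm.trans cn0
  have fb : ∀ u ≠ α, {v | u ≠ v ∧ v ≠ α ∧ π v = π u}.ncard = b - 1 := fun u n => by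
    rw [← fib (π u), ← Set.ncard_diff_singleton_of_mem (a := u) (And.intro n rfl)]
    congr 1
    ext v
    exact ⟨fun k => ⟨k.2, Ne.symm k.1⟩, fun k => ⟨Ne.symm k.2, k.1⟩⟩
  have La : ∀ g ∈ LL K α Λ, g • α = α := fun _ ⟨h, _, e⟩ => e ▸ h.2
  have Lp : ∀ g ∈ LL K α Λ, ∀ u ≠ α, g • u ≠ α ∧ π (g • u) = π u := fun g m u n =>
    ⟨fun e => n (smul_left_cancel g (e.trans (La g m).symm)), by
      obtain ⟨h, k, rfl⟩ := m
      exact (eqv h u n).trans (Equiv.congr_fun (MonoidHom.mem_ker.1 k) _)⟩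
  refine ⟨(E_le La fun u n => le_of_le_of_eq (Set.ncard_le_ncard fun v ⟨k, g, m, e⟩ => And.intro k (e ▸ Lp g m u n)) (fb u n)).trans_eq
    (by rw [cn0, Nat.add_sub_cancel]), fun X l => ?_⟩
  have tr : ∀ γ, ∃ g : K, g • α = γ := fun γ => by
    have : Nontrivial Ω := Fintype.one_lt_card_iff_nontrivial.1 (by omega)
    obtain ⟨⟨β, p⟩, δ, q⟩ := And.intro (exists_ne α) (exists_ne γ)
    exact (t _ _ _ _ p.symm q.symm).imp fun _ => And.left
  let R : Ω → Ω → Ω → Prop := fun γ u v => ∃ g : K, g • α = γ ∧ u ≠ γ ∧ v ≠ γ ∧ π (g⁻¹ • v) = π (g⁻¹ • u)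
  have Ri : ∀ (k : K) γ u v, R γ u v → R (k • γ) (k • u) (k • v) := fun k _ _ _ ⟨g, e, p, q, r⟩ =>
    ⟨k * g, by rw [mul_smul, e], (smul_left_cancel_iff k).not.2 p, (smul_left_cancel_iff k).not.2 q, by
      simpa [mul_smul] using r⟩
  have Rj : ∀ (k : K) γ u v, R (k • γ) (k • u) (k • v) ↔ R γ u v := fun k γ u v =>
    ⟨fun h => by simpa using Ri k⁻¹ _ _ _ h, Ri k γ u v⟩
  have Ra : ∀ u v, R α u v ↔ u ≠ α ∧ v ≠ α ∧ π v = π u := fun u v =>
    ⟨fun ⟨g, e, p, q, r⟩ => ⟨p, q, smul_left_cancel (⟨g, e⟩ : stabilizer K α)⁻¹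
      ((eqv _ v q).symm.trans (r.trans (eqv (⟨g, e⟩ : stabilizer K α)⁻¹ u p)))⟩,
      fun ⟨p, q, r⟩ => ⟨1, one_smul .., p, q, by simpa using r⟩⟩
  clear_value R
  have nu : ∀ u v, u ≠ v → ∑ γ, I (R γ u v) = b - 1 := fun u v n => by
    have c1 : ∀ γ, ∑ x, ∑ y, I (x ≠ y ∧ R γ x y) = s * b * (b - 1) := fun γ => by
      obtain ⟨g, rfl⟩ := tr γ
      rw [sh g, sum_congr rfl fun _ _ => sh g _]
      simp only [Rj, ne_eq, smul_left_cancel_iff]
      rw [← add_sum_erase _ _ (mem_univ α), sum_eq_zero fun v _ => I0 fun k => ((Ra _ _).1 k.2).1 rfl, zero_add,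
        sum_congr rfl (g := fun _ => b - 1) fun x m => by
          rw [sI, ← fb x (mem_erase.1 m).1]
          simp only [Ra, (mem_erase.1 m).1, ne_eq, not_false_eq_true, true_and]]
      simp [cn]
    have c2 : ∀ x, ∑ y, ∑ γ, I (x ≠ y ∧ R γ x y) = s * b * ∑ γ, I (R γ u v) := fun x => by
      rw [← add_sum_erase _ _ (mem_univ x), sum_eq_zero fun v _ => I0 fun k => k.1 rfl, zero_add,
        sum_congr rfl (g := fun _ => ∑ γ, I (R γ u v)) fun y m => by
          obtain ⟨g, rfl, rfl⟩ := t u v x y n (mem_erase.1 m).1.symm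
          rw [sh g]
          simp only [Rj, ne_eq, smul_left_cancel_iff, n, not_false_eq_true, true_and]]
      simp [cn]
    have c3 := sum_congr rfl fun γ (_ : γ ∈ univ) => c1 γ
    rw [sum_comm, sum_congr rfl fun x _ => sum_comm.trans (c2 x)] at c3
    simp only [sum_const, card_univ, smul_eq_mul] at c3
    exact Nat.eq_of_mul_eq_mul_left (by omega) (Nat.eq_of_mul_eq_mul_left (by omega) c3)
  choose g hg using tr
  let φ : Ω → (stabilizer K α →* K) := fun γ => (MulAut.conj (g γ)).toMonoidHom.comp (stabilizer K α).subtype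
  have φe : ∀ γ h, φ γ h = g γ * h * (g γ)⁻¹ := fun _ _ => rfl
  have φi : ∀ γ, Function.Injective (φ γ) := fun γ => (MulAut.conj (g γ)).injective.comp Subtype.val_injective
  clear_value φ
  let Y : Ω → Subgroup K := fun γ => ((toPermHom (stabilizer K α) Λ).ker ⊓ X.comap (φ γ)).map (φ γ)
  have YX : ∀ γ, Y γ ≤ X := fun _ _ ⟨_, m, e⟩ => e ▸ m.2
  have sm : ∑ γ ∈ univ.erase α, E Ω (Y γ) ≤ E Ω X * (b - 2) := by
    simp only [EI]
    rw [sum_comm, sum_mul]
    refine sum_le_sum fun u _ => ?_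
    rw [sum_comm, sum_mul]
    refine sum_le_sum fun v _ => ?_
    by_cases p : u ≠ v ∧ ∃ g ∈ X, g • u = v
    · obtain ⟨n, x, m, e⟩ := id p
      have ua : u ≠ α := fun q => n (by rw [← e, q, La x (l m)])
      have := nu u v n
      rw [← add_sum_erase _ _ (mem_univ α), I1 ((Ra u v).2 ⟨ua, e ▸ Lp x (l m) u ua⟩)] at this
      rw [I1 p, one_mul, show b - 2 = ∑ γ ∈ univ.erase α, I (R γ u v) by omega]
      refine sum_le_sum fun γ _ => ?_
      by_cases q : u ≠ v ∧ ∃ g ∈ Y γ, g • u = v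
      · obtain ⟨-, _, ⟨h, k, rfl⟩, e⟩ := id q
        rw [φe, mul_smul, mul_smul, smul_eq_iff_eq_inv_smul] at e
        have w : (g γ)⁻¹ • u ≠ α := fun r => n (smul_left_cancel (g γ)⁻¹ (by rw [← e, r]; exact h.2.symm))
        have := (Rj (g γ) _ _ _).2 ((Ra _ _).2 ⟨w, e ▸ Lp h ⟨h, k.1, rfl⟩ _ w⟩)
        rw [hg, smul_inv_smul, smul_inv_smul] at this
        rw [I1 q, I1 this]
      · exact (I0 q).trans_le (Nat.zero_le _)
    · exact (sum_eq_zero fun γ _ => I0 fun ⟨n, x, m, e⟩ => p ⟨n, x, YX γ m, e⟩).trans_le (Nat.zero_le _)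
  have ce : #(univ.erase α) = s * b := by simp [cn]
  obtain ⟨γ, m, mn⟩ := exists_min_image (univ.erase α) (fun γ => E Ω (Y γ)) (card_pos.1 (by omega))
  replace m := (mem_erase.1 m).1
  have ga : (g γ)⁻¹ • α ≠ α := fun e => m ((hg γ).symm.trans (inv_smul_eq_iff.1 e).symm)
  have fx : ∀ h ∈ X.comap (φ γ), h • π ((g γ)⁻¹ • α) = π ((g γ)⁻¹ • α) := fun h k => by
    have := La _ (l k)
    rw [φe, mul_smul, mul_smul, smul_eq_iff_eq_inv_smul] at this
    rw [← eqv h _ ga, this]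
  refine ⟨Y γ, YX γ, (toPermHom (stabilizer K α) Λ).ker.relIndex (X.comap (φ γ)), ?_, le_min ?_ ?_,
    (mul_comm _ _).trans_le (le_trans (ce ▸ card_nsmul_le_sum _ _ _ mn) sm)⟩
  · have e1 : Nat.card (stabilizer X γ) ≤ Nat.card (X.comap (φ γ)) := Nat.card_le_card_of_injective
      (fun x => ⟨⟨(g γ)⁻¹ * x.1 * g γ, by
        rw [mem_stabilizer_iff, mul_smul, mul_smul, hg, inv_smul_eq_iff, hg]; exact x.2⟩, by
        rw [Subgroup.mem_comap, φe]; simp [mul_assoc]⟩) fun x y e =>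
          Subtype.ext (Subtype.ext (by simpa using congrArg (·.1.1) e))
    have e2 : (orbit X γ).ncard ≤ b := fib (π γ) ▸ Set.ncard_le_ncard fun _ ⟨x, e⟩ => e ▸ Lp x (l x.2) γ m
    have e3 : Nat.card (X.comap (φ γ)) = (toPermHom (stabilizer K α) Λ).ker.relIndex (X.comap (φ γ)) * Nat.card (Y γ) := by
      rw [Subgroup.card_map_of_injective (φi γ), ← Subgroup.inf_relIndex_right, mul_comm, ← Subgroup.relIndex_bot_left,
        ← Subgroup.relIndex_bot_left, Subgroup.relIndex_mul_relIndex _ _ _ bot_le inf_le_right]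
    rw [← (stabilizer X γ).index_mul_card, index_stabilizer, mul_assoc, ← e3]
    exact Nat.mul_le_mul e2 e1
  · refine Nat.pow_le_pow_left ?_ 2
    have e := (stabilizer (Equiv.Perm Λ) (π ((g γ)⁻¹ • α))).index_mul_card
    rw [index_stabilizer_of_transitive, Nat.card_perm, cs, ← Nat.mul_factorial_pred (by omega : s ≠ 0)] at e
    rw [Subgroup.relIndex_ker, ← Nat.eq_of_mul_eq_mul_left (by omega) e]
    exact Subgroup.card_le_of_le fun _ ⟨h, k, e⟩ => e ▸ fx h k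
  · refine (sq _ Λ _).trans (Nat.pow_le_pow_right two_pos ((E_le fx fun σ n => ?_).trans_eq (by rw [cs])))
    obtain ⟨x, p, rfl⟩ := (Set.ncard_pos).1 ((fib σ).symm ▸ (by omega : 0 < b))
    have w : g γ • x ≠ α := fun e => n (by rw [← e, inv_smul_smul])
    rw [← fb _ w]
    refine le_trans (Set.ncard_le_ncard fun τ ⟨q, h, k, e⟩ => ?_)
      (Set.ncard_image_le (f := fun y => π ((g γ)⁻¹ • y)))
    have r : (g γ)⁻¹ • φ γ h • g γ • x = (h : K) • x := by simp [φe, mul_smul]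
    exact ⟨φ γ h • g γ • x, ⟨fun o => q (by rw [← e, ← eqv h x p, ← r, ← o, inv_smul_smul]), Lp _ (l k) _ w⟩,
      by rw [← e, ← eqv h x p, ← r]⟩

end H23.PR
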