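import Cfsg.Agent.H10.RG.I1

/-! S3320, chunk `TX`: the trivial intersection subgroups of `2 ^ 10 : L₅(2)`. -/

set_option autoImplicit false
set_option linter.unusedSectionVars false
set_option linter.unusedVariables false
set_option maxRecDepth 100000
set_option synthInstance.maxSize 4000
open Cfsg Subgroup H19 H0 H15 H10.RF H10.RG
open scoped commutatorElement Pointwise
namespace H23.RG
local notation "cj" => H19.cj
universe u
variable {G : Type*} [Group G] [Finite G] {A B M O X Y Z : Subgroup G} {ρ : G → ℕ} {v K : ℕ → G} {x y : G} {a b e g i j t s : ℕ}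

theorem cosf (S : Finset ℕ) (r : ℕ → G) (h : ∀ x ∈ X, ∃ i ∈ S, x * (r i)⁻¹ ∈ Y) : #X ≤ S.card * #(X ⊓ Y : Subgroup G) := by
  choose! f h1 h2 using h
  choose w hw using fun i : ℕ => (show ∃ y, (∃ x ∈ X, f x = i) → y ∈ X ∧ f y = i from
    (em (∃ x ∈ X, f x = i)).elim (fun ⟨x, k⟩ => ⟨x, fun _ => k⟩) fun n => ⟨1, fun k => absurd k n⟩)
  have k := fun x (hx : x ∈ X) => hw (f x) ⟨x, hx, rfl⟩
  have := Nat.card_le_card_of_injective (fun x : X => ((⟨f x, h1 x x.2⟩, ⟨x * (w (f x))⁻¹, mem_inf.2 ⟨mul_mem x.2 (inv_mem (k x x.2).1), by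
    simpa [(k x x.2).2, mul_assoc] using mul_mem (h2 x x.2) (inv_mem (h2 _ (k x x.2).1))⟩⟩) : S × (X ⊓ Y : Subgroup G))) fun p q e => by
    have e1 : f p = f q := congrArg (fun z : S × (X ⊓ Y : Subgroup G) => (z.1 : ℕ)) e
    have e2 : p * (w (f p))⁻¹ = q * (w (f q))⁻¹ := congrArg (fun z : S × (X ⊓ Y : Subgroup G) => (z.2 : G)) e
    rw [e1] at e2
    exact Subtype.ext (mul_right_cancel e2)
  simpa using this
theorem sq_sup (n : B ≤ N(O)) (q : ∀ b ∈ B, b * b ∈ O) : ∀ x ∈ O ⊔ B, x * x ∈ O := fun x hx => by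
  obtain ⟨r, hr, b, hb, rfl⟩ := (mem_sup_of_norm n).1 hx
  simpa [mul_assoc] using mul_mem (mul_mem hr (conj_mem_of_norm (n hb) hr)) (q b hb)
theorem pg_sq (p : PG 2 O) (q : ∀ b ∈ B, b * b ∈ O) : PG 2 B := PiN.of_elt fun x hx =>
  ((PiN.prime_pow Nat.prime_two 1).mul p).dvd (orderOf_dvd_of_pow_eq_one (by
    rw [pow_mul, pow_one, pow_two]; exact orderOf_dvd_iff_pow_eq_one.1 (orderOf_dvd_card' (q x hx))))
/-- the generic step for `TL.wc` -/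
theorem wc1 (ZX : Z ≤ X) (ZC : Z ≤ C(O)) (one : ∀ a ∈ O, a ∉ X → #(X ⊓ C[a] : Subgroup G) ≤ 2 * #Z)
    (hyp : ∀ m ∈ M, #Z ≤ 2 * #(Z ⊓ C[m] : Subgroup G) → m ∈ O) (l : B ≤ M) (c : #B = #O) (z : #Z ≤ #(X ⊓ C(B) : Subgroup G)) :
    B = O ∨ O ⊓ B ≤ X := by
  refine or_iff_not_imp_right.2 fun n => eq_of_le_of_card_eq (fun b hb => hyp b (l hb) ?_) c
  obtain ⟨a, ha, n⟩ := SetLike.not_le_iff_exists.1 n
  have k : X ⊓ C(B) ≤ X ⊓ C[a] := inf_le_inf_left _ (cent_le_cent1 ha.2)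
  exact z.trans ((idx2 fun u hu w hw => two_mul (le_inf ZX (ZC.trans (cent_le_cent1 ha.1))) (one a ha.1 n) (k hu) (k hw)).trans
    (Nat.mul_le_mul_left _ (card_le fun x hx => ⟨hx.2, cent_le_cent1 hb hx.1.2⟩)))

/-- a Singer cycle on the axis -/
def sg : ℕ := 0x1000602002002
theorem sgk : (ok sg = true ∧ inP mP sg ∧ ∀ t < 16, ∀ s < 16, t ≠ 0 → s ≠ 0 → ∃ k < 15, (a5 sg)^[k] t = s) ∧
    (∀ i < 16, mm sg (ug i) = mm (ug (a5 sg i)) sg ∧ a5 sg i < 16) ∧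
    force (L2 sg) (fun M => allTo2 (fun a => Nat.beq (mv M a / 64) (a5 sg (a / 64))) 32 32) = true := by decide +kernel
theorem wk : ∀ i < 16, force (L2 (ug i)) (fun M => allTo2 (fun a => Nat.beq (mv M a) (a ^^^ wd i (a / 64))) 32 32) = true := by
  decide +kernel
theorem Lw (hi : i < 16) (ha : a < 1024) : Lv (ug i) a = a ^^^ wd i (a / 64) := by
  have := wk i hi
  simp only [force_eq, allTo2_iff, Nat.beq_eq] at this
  exact this a ha
theorem ugs : ∀ j < 1024, ug j = mm (ug (j % 16)) (ug (16 * (j / 16))) := by decide +kernel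
theorem jk : ∀ i < 64, force (ug (16 * i)) (fun f => bimp (decide (¬ inP mJ f ∧ inP mH (mm f f))) (decide (((Finset.range 64).filter
    fun j => force (ug (16 * j)) (fun g => force (mm f g) fun k => decide (inP mH (mm g g) ∧ inP mH (mm k k))) = true).card < 16))) = true := by
  decide +kernel
theorem x64 (a b : ℕ) : (a ^^^ b) / 64 = a / 64 ^^^ b / 64 := Nat.xor_div_two_pow (n := 6)

local notation "ZZ" => sZ v K
local notation "RR" => sR v K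
local notation "TT" => sT v K
local notation "PP" => sP v K
section
variable (h : IK A ρ v K)
include h
theorem cjs (hi : i < 16) (a : ℕ) : K sg * (v a * K (ug i)) * (K sg)⁻¹ = v (Lv sg a) * K (ug (a5 sg i)) := by
  have o := sgk.1.1
  have k := sgk.2.1 i hi
  rw [← mul_assoc, h.Kv o, mul_assoc (v _), ← h.km _ _ o (ugk i (by omega)).1, k.1, h.km _ _ (ugk _ (by omega)).1 o, ← mul_assoc,
    mul_inv_cancel_right]
theorem sqZ (hx : x ∈ RR) : x * x ∈ ZZ := by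
  obtain ⟨a, ha, i, hi, rfl⟩ := h.exR hx
  rw [h.mulR hi hi, Nat.xor_self, show ug 0 = I5 from rfl, h.K1, mul_one]
  exact h.vP ((sb_lt 6).2 (Nat.lt_of_div_eq_zero (by decide) (by rw [show 2 ^ 6 = 64 from rfl, x64, (x1k' hi ha).1, Nat.xor_self])))
theorem cmZ (hx : x ∈ RR) (hy : y ∈ RR) : ⁅x, y⁆ ∈ ZZ := cmsq ((h.RT.trans h.TP).trans h.PZ) (fun _ => sqZ h) hx hy
theorem ZA : ZZ ≤ A := h.PA
theorem ZC : ZZ ≤ C(RR) := cents_symm (h.CZ.ge.trans inf_le_right)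
theorem hyp : ∀ m ∈ PP, #ZZ ≤ 2 * #(ZZ ⊓ C[m] : Subgroup G) → m ∈ RR := fun m hm c => by
  have n := h.PN hm
  have o := h.okr m n
  have p := h.rP gdk.2.2.2.1 hm
  let d := fun k => wd (cl11 (ρ m) (pp k)) (cl11 (ρ m) (qq k)) ^^^ 2 ^ k
  have r : ∀ k < 6, ∀ l < 6, d k = 0 ∨ d l = 0 ∨ d k = d l := fun k hk l hl => by
    have p : ∀ k < 6, 2 ^ k < 2 ^ 6 := fun k hk => Nat.pow_lt_pow_right one_lt_two hk
    have q : ∀ k < 6, v (2 ^ k) ∉ ZZ ⊓ C[m] ∨ d k = 0 := fun k hk => or_iff_not_imp_left.2 fun z => Nat.xor_eq_zero_iff.2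
      ((Lv_pow o (by omega)).symm.trans ((h.fixi n ((p k hk).trans (by decide))).1 (mem_cent1_symm.1 (not_not.1 z).2)))
    refine (q k hk).symm.imp_right fun n1 => (q l hl).symm.imp_right fun n2 => ?_
    have := (two_mul inf_le_left c (h.vP ((sb_lt 6).2 (p k hk))) (h.vP ((sb_lt 6).2 (p l hl))) n1 n2).2
    rw [← h.vx] at this
    have := (h.fixi n (x10 ((p k hk).trans (by decide)) ((p l hl).trans (by decide)))).1 (mem_cent1_symm.1 this)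
    rw [Lv_xor, Lv_pow o (by omega), Lv_pow o (by omega)] at this
    refine Nat.xor_eq_zero_iff.1 ?_
    simp only [d]
    rw [Nat.xor_assoc, Nat.xor_left_comm (2 ^ k), ← Nat.xor_assoc, this, Nat.xor_self]
  have q : ∀ j < 4, cl11 (ρ m) j < 16 := fun j hj => (by decide +kernel : ∀ j < 4, ∀ c < 32, sb (c ^^^ 2 ^ j) (cl11 mP j) → c < 16) j hj _
    (ok_cl o (by omega)) (p j (by omega))
  have k := (by decide +kernel : ∀ a < 16, ∀ b < 16, ∀ c < 16, (∀ x ∈ [wd a b ^^^ 2 ^ 0, wd a c ^^^ 2 ^ 1], ∀ y ∈ [wd a c ^^^ 2 ^ 1,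
    wd b c ^^^ 2 ^ 2], x = 0 ∨ y = 0 ∨ x = y) → ∀ d < 16, (∀ x ∈ [wd a b ^^^ 2 ^ 0, wd a c ^^^ 2 ^ 1, wd b c ^^^ 2 ^ 2, wd a d ^^^ 2 ^ 3,
      wd b d ^^^ 2 ^ 4], ∀ y ∈ [wd a d ^^^ 2 ^ 3, wd b d ^^^ 2 ^ 4, wd c d ^^^ 2 ^ 5], x = 0 ∨ y = 0 ∨ x = y) → a = 1 ∧ b = 2 ∧ c = 4 ∧ d = 8)
    _ (q 0 (by decide)) _ (q 1 (by decide)) _ (q 2 (by decide)) (fun x hx y hy => ?_) _ (q 3 (by decide)) fun x hx y hy => ?_
  · refine h.memP n fun j hj => ?_
    interval_cases j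
    exacts [by rw [k.1]; exact sb0 _, by rw [k.2.1]; exact sb0 _, by rw [k.2.2.1]; exact sb0 _, by rw [k.2.2.2]; exact sb0 _, p 4 hj]
  · obtain ⟨k, hk, rfl⟩ := List.mem_map.1 (show x ∈ [0, 1].map d from hx)
    obtain ⟨l, hl, rfl⟩ := List.mem_map.1 (show y ∈ [1, 2].map d from hy)
    exact r k (by simp at hk; omega) l (by simp at hl; omega)
  · obtain ⟨k, hk, rfl⟩ := List.mem_map.1 (show x ∈ [0, 1, 2, 3, 4].map d from hx)
    obtain ⟨l, hl, rfl⟩ := List.mem_map.1 (show y ∈ [3, 4, 5].map d from hy)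
    exact r k (by simp at hk; omega) l (by simp at hl; omega)
theorem redT (hx : x ∈ TT) : ∃ j < 64, x * (K (ug (16 * j)))⁻¹ ∈ RR := by
  obtain ⟨a, ha, j, hj, rfl⟩ := h.exT hx
  refine ⟨j / 16, by omega, ?_⟩
  rw [ugs j hj, h.km _ _ (ugk _ (by omega)).1 (ugk _ (by omega)).1, ← mul_assoc, mul_inv_cancel_right]
  exact h.mR ha (Nat.mod_lt _ (by decide))
/-- the last clause of `TX` -/
theorem lc (B : Subgroup G) (l1 : RR ≤ B) (l2 : B ≤ TT) (q : ∀ a ∈ B, a * a ∈ RR) (c : 16 * #RR ≤ #B) : PS v K 1023 mJ ≤ B := by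
  have d : gd 1023 mJ := by decide +kernel
  have cJ : #(PS v K 1023 mJ) = 16 * 16384 := (h.cPS (by decide +kernel)).trans (by decide +kernel)
  refine (eq_of_le_of_card_ge (fun x hx => by_contra fun n => ?_) (by rwa [cJ, ← h.cR])).ge
  have o := fun j (hj : j < 64) => (ugk (16 * j) (by omega)).1
  have m : ∀ {x j}, x ∈ B → x * (K (ug (16 * j)))⁻¹ ∈ RR → K (ug (16 * j)) ∈ B := fun hx k => by
    simpa using mul_mem (inv_mem (l1 k)) hx
  have sq : ∀ {g}, ok g = true → K g ∈ B → inP mH (mm g g) := fun o k => (h.K_mem gdk.2.1 (ok_mm o o)).1 (h.km _ _ o o ▸ q _ k)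
  obtain ⟨i, hi, k⟩ := redT h (l2 hx)
  have := jk i hi
  simp only [force_eq, bimp_iff, decide_eq_true_eq] at this
  replace := this ⟨fun p => n (by simpa using mul_mem (PS_le (by decide) (by decide +kernel) k) (h.KP (o i hi) p)), sq (o i hi) (m hx k)⟩
  refine this.not_ge (Nat.le_of_mul_le_mul_right (c.trans ((cosf _ (fun j => K (ug (16 * j))) fun y hy => ?_).trans
    (Nat.mul_le_mul_left _ (card_le inf_le_right)))) (card_pos _))
  obtain ⟨j, hj, l⟩ := redT h (l2 hy)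
  exact ⟨j, Finset.mem_filter.2 ⟨Finset.mem_range.2 hj, sq (o j hj) (m hy l), sq (ok_mm (o i hi) (o j hj))
    (h.km _ _ (o i hi) (o j hj) ▸ mul_mem (m hx k) (m hy l))⟩, l⟩
/-- the bound in the second case of `TL.wc` -/
theorem y8 (nX : PP ≤ N(X)) (XR : X ≤ RR) (XA : X ⊓ A ≤ ZZ) (l1 : RR ≤ B) (l2 : B ≤ PP) (q : ∀ a ∈ B, a * a ∈ RR) (c : 16 * #RR ≤ #B)
    (l : Y ≤ X) (c1 : ∀ y ∈ Y, ∀ b ∈ B, ⁅y, b⁆ ∈ A) (c2 : Y ⊓ ZZ ≤ C(B)) : #Y ≤ 8 := by
  obtain ⟨g, hg, l3⟩ := (h.sylT.of_le h.TP h.PN).scj_le l2 (pg_sq (h.pT.of_le h.RT) q)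
  have J := lc h _ (cj_of_mem_norm (h.PR hg) ▸ cj_mono g l1) l3 (sqcj (h.PR hg) q) (by rwa [card_cj])
  have m : ∀ j ∈ [128, 16, 256, 32], K (ug j) ∈ cj g B ∧ ok (ug j) = true := fun j hj =>
    have := (by decide +kernel : ∀ j ∈ [128, 16, 256, 32], ok (ug j) = true ∧ inP mJ (ug j)) j hj
    ⟨J (h.KP this.1 this.2), this.1⟩
  have l' := cj_le_of_mem_norm (nX hg) l
  have := cosf (X := cj g Y) (Y := A) (Finset.range 4) (fun i => K (ug i)) fun y hy => by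
    obtain ⟨a, ha, i, hi, rfl⟩ := h.exR (XR (l' hy))
    have o := (ugk i (by omega)).1
    have k : ∀ j ∈ [128, 16, 256, 32], mm (ug i) (ug j) = mm (ug j) (ug i) := fun j hj => by
      have n := h.elN a (ug i)
      have := (h.eqv _ (mul_mem n (h.kn (ug j))) _ (mul_mem (h.kn (ug j)) n)).2 (by
        obtain ⟨y, hy, e⟩ := mem_cj'.1 hy
        obtain ⟨b, hb, f⟩ := mem_cj'.1 (m j hj).1
        rw [mul_inv_rev, ← mul_assoc, ← commutatorElement_def, ← e, ← f, ← cmc]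
        exact conj_mem_of_norm (h.PN hg) (c1 y hy b hb))
      rwa [h.mul _ n _ (h.kn _), h.mul _ (h.kn _) _ n, h.rel o, h.kr _ (m j hj).2] at this
    exact ⟨i, Finset.mem_range.2 ((by decide +kernel : ∀ i < 16, (∀ j ∈ [128, 16, 256, 32], mm (ug i) (ug j) = mm (ug j) (ug i)) → i < 4)
      i hi k), by simpa using h.vm a⟩
  have k : cj g Y ⊓ A ≤ zpowers (v 1) := fun y hy => by
    have z := XA ⟨l' hy.1, hy.2⟩
    have c : y ∈ C(cj g B) := cj_cent g B ▸ cj_mono g c2 (by rw [cj_inf, cj_of_mem_norm (h.PZ hg)]; exact ⟨hy.1, z⟩)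
    obtain ⟨a, ha, rfl⟩ := h.memV gdk.1.1 z hy.2
    have ha := (sb_lt 6).1 ha
    rcases (by decide +kernel : ∀ a < 2 ^ 6, (∀ j ∈ [128, 16, 256, 32], Lv (ug j) a = a) → a = 0 ∨ a = 1) a ha (fun j hj =>
      (h.fixK (m j hj).2 (by omega)).1 (le_cent1_iff.2 c (m j hj).1)) with rfl | rfl
    exacts [h.v0 ▸ one_mem _, mem_zpowers _]
  have := card_le k
  rw [H10.RF.c2 (h.vv 1) h.s1] at this
  simp only [card_cj, Finset.card_range] at *
  omega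
end

/-- the class modulo `X0` or `X1` -/
def Cl (v K : ℕ → G) (e : ℕ) (x : G) (t : ℕ) : Prop := ∃ a < 1024, ∃ i < 16, x = v a * K (ug i) ∧ a / 64 ^^^ e * i = t
theorem ex2 (he : e < 2) (i j : ℕ) : e * (i ^^^ j) = e * i ^^^ e * j ∧ e * a5 sg i = a5 sg (e * i) := by
  interval_cases e <;> simp [show a5 sg 0 = 0 from rfl]
section
variable (h : IK A ρ v K) (he : e < 2) (hX : ∀ a < 1024, ∀ i < 16, v a * K (ug i) ∈ X ↔ a / 64 = e * i)
include h he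
theorem Cl.ex (hx : x ∈ RR) : ∃ t < 16, Cl v K e x t :=
  let ⟨a, ha, i, hi, k⟩ := h.exR hx
  ⟨_, Nat.xor_lt_two_pow (n := 4) (by omega) (by interval_cases e <;> omega), a, ha, i, hi, k, rfl⟩
theorem Cl.mul (p : Cl v K e x t) (q : Cl v K e y s) : Cl v K e (x * y) (t ^^^ s) := by
  obtain ⟨a, ha, i, hi, rfl, rfl⟩ := p
  obtain ⟨b, hb, j, hj, rfl, rfl⟩ := q
  refine ⟨_, x10 ha (Lv_lt _ _), _, Nat.xor_lt_two_pow (n := 4) hi hj, h.mulR hi hj a b, ?_⟩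
  rw [x64, (x1k' hi hb).1, (ex2 he i j).1]; ac_rfl
theorem Cl.sig (p : Cl v K e x t) (k : ℕ) : Cl v K e (K sg ^ k * x * (K sg ^ k)⁻¹) ((a5 sg)^[k] t) := by
  induction k with
  | zero => simpa using p
  | succ k ih =>
    obtain ⟨a, ha, i, hi, p, q⟩ := ih
    have := sgk.2.2
    simp only [force_eq, allTo2_iff, Nat.beq_eq] at this
    refine ⟨_, Lv_lt sg a, _, (sgk.2.1 i hi).2, by rw [pow_succ', ← cjcj, p, cjs h hi], ?_⟩
    rw [Function.iterate_succ_apply', ← q, a5_xor, (ex2 he i i).2, ← this a ha]; rfl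
include hX
theorem Cl.mem (p : Cl v K e x t) : x ∈ X ↔ t = 0 := by
  obtain ⟨a, ha, i, hi, rfl, rfl⟩ := p
  rw [hX a ha i hi, Nat.xor_eq_zero_iff]
theorem XA (XR : X ≤ RR) : X ⊓ A ≤ ZZ := fun x hx => by
  obtain ⟨a, ha, i, hi, rfl⟩ := h.exR (XR hx.1)
  obtain rfl := (h.mA ha hi).1 hx.2
  exact h.X0A ▸ ⟨(h.mX0 ha hi).2 ((hX a ha 0 hi).1 hx.1), hx.2⟩
theorem Cl.cm (XR : X ≤ RR) (p : Cl v K e x t) (n : x ∉ X) (hy : y ∈ X ⊓ C[x]) (z : y ∉ ZZ) : ρ y = ug t := by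
  have n0 := mt (p.mem h he hX).2 n
  obtain ⟨a, ha, i, hi, rfl, rfl⟩ := p
  obtain ⟨b, hb, j, hj, rfl⟩ := h.exR (XR hy.1)
  have o := (ugk (i ^^^ j) ((Nat.xor_lt_two_pow (n := 4) hi hj).trans (by decide))).1
  have := mem_cent1.1 hy.2
  rw [h.mulR hi hj, h.mulR hj hi, Nat.xor_comm j, Lw hi hb, Lw hj ha, (hX b hb j hj).1 hy.1] at this
  have := (h.uniq (by rw [← Lw hj ha]; exact x10 hb (Lv_lt _ _)) (by rw [← (hX b hb j hj).1 hy.1, ← Lw hi hb]; exact x10 ha (Lv_lt _ _)) o o this).1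
  rw [Nat.xor_left_comm, Nat.xor_right_inj, Nat.xor_right_inj] at this
  rw [h.rel (ugk j (by omega)).1]
  exact congrArg ug (((by decide +kernel : ∀ e < 2, ∀ i < 16, ∀ c < 16, c ^^^ e * i ≠ 0 → ∀ j < 16, wd j c = wd i (e * j) →
    j = 0 ∨ j = c ^^^ e * i) e he i hi _ (by omega) n0 j hj this).resolve_left fun k => z (XA h he hX XR ⟨hy.1, (h.mA hb hj).2 k⟩))
theorem tl (sq : ∀ x ∈ X, x * x = 1) (ZX : ZZ ≤ X) (XR : X ≤ RR) (nX : PP ≤ N(X)) (cX : #X = 1024) : TL PP X RR ZZ := by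
  have RP := h.RT.trans h.TP
  have one : ∀ a ∈ RR, a ∉ X → #(X ⊓ C[a] : Subgroup G) ≤ 2 * #ZZ := fun a ha n => by
    obtain ⟨t, ht, p⟩ := Cl.ex h he ha
    refine (idx2 (K := X ⊓ C[a]) fun x hx y hy n1 n2 => XA h he hX XR (mem_inf.2 ⟨mul_mem hx.1 hy.1, ?_⟩)).trans (Nat.mul_le_mul_left _ (card_le inf_le_right))
    rw [← inv_eq_of_mul_eq_one_right (sq y hy.1), ← h.eqv _ (h.PN (XR hx.1)) _ (h.PN (XR hy.1)), p.cm h he hX XR n hx n1,
      p.cm h he hX XR n hy n2]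
  refine ⟨sq, ZX, XR, RP, nX, h.PR, fun a ha => ZX (sqZ h ha), by rw [h.cR, cX], ZC h, fun a ha b hb n1 n2 n3 x hx => by_contra fun z => ?_,
    one, hyp h, fun B l1 l2 c q z => (wc1 ZX (ZC h) one (hyp h) l2 c z).resolve_right fun k => ?_, by rw [h.cP, h.cR],
    fun _ => h.simP, fun a ha b hb n1 n2 => ?_⟩
  · obtain ⟨t, ht, p⟩ := Cl.ex h he ha
    obtain ⟨s, hs, q⟩ := Cl.ex h he hb
    have := (p.cm h he hX XR n1 hx.1 z).symm.trans (q.cm h he hX XR n2 ⟨hx.1.1, hx.2⟩ z)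
    rw [((p.mul h he q).mem h he hX), ← (ugk t (by omega)).2.2, this, (ugk s (by omega)).2.2, Nat.xor_self] at n3
    exact n3 rfl
  · have n := l2.trans h.PR
    have c1 := card_sup_mul_inf n
    have c2 := card_le k
    have := y8 h nX XR (XA h he hX XR) le_sup_left (sup_le RP l2) (sq_sup n fun b hb => XR (q b hb)) (by
      rw [c, h.cR] at c1; rw [cX] at c2; rw [h.cR]; nlinarith) (inf_le_left (b := C(B))) (fun y hy b hb => by
        obtain ⟨r, hr, b, hb', rfl⟩ := (mem_sup_of_norm n).1 hb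
        rw [H10.RF.cmr, cm1.2 (cent_le_cent1 hb' hy.2), mul_one, mul_inv_cancel, mul_one]
        exact ZA h (cmZ h (XR hy.1) hr)) (cents_sup (inf_le_right.trans (ZC h)) (inf_le_left.trans inf_le_right))
    rw [h.cZ] at z
    omega
  · obtain ⟨t, ht, p⟩ := Cl.ex h he ha
    obtain ⟨s, hs, q⟩ := Cl.ex h he hb
    obtain ⟨k, -, rfl⟩ := sgk.1.2.2 t ht s hs (mt (p.mem h he hX).2 n1) (mt (q.mem h he hX).2 n2)
    refine ⟨_, pow_mem (h.KP sgk.1.1 sgk.1.2.1) k, ?_⟩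
    simpa [mul_assoc] using mul_mem ((((p.sig h he k).mul h he q).mem h he hX).2 (Nat.xor_self _)) (inv_mem (ZX (sqZ h hb)))
end
theorem tx : TX.{u} := fun h =>
  ⟨tl (e := 0) h (by decide) (fun a ha i hi => by rw [h.mX0 ha hi, zero_mul]) h.sq0 h.ZX0 h.X0R h.PX0 h.cX0,
    tl (e := 1) h (by decide) (fun a ha i hi => by rw [h.mX1 ha hi, one_mul]) h.sq1 h.ZX1 h.X1R h.PX1 h.cX1, lc h⟩
end H23.RG
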