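import Cfsg.Agent.H23.RG2
import Cfsg.Agent.H10.RF.C2

/-! S3320, chunks `JT` and `TQ`. -/

set_option autoImplicit false
set_option linter.unusedSectionVars false
set_option linter.unusedVariables false
set_option maxRecDepth 100000
set_option synthInstance.maxSize 4000
open Cfsg Subgroup H19 H0 H15 H10.RF H10.RG
open scoped commutatorElement Pointwise
namespace H23.RG
local notation "cj" => H19.cj
universe u
/-- an element of order three -/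
def x3 : ℕ := 0x1001001001802
def Y6 : List ℕ := [0x1001001001001, 0x1001001001801, 0x1001001000802, 0x1001001001802, 0x1001001000803, 0x1001001001003]
theorem yk : (ok x3 = true ∧ inP 0x1803 x3 ∧ mm x3 (mm x3 x3) = I5 ∧ gd 0 0x1803) ∧ (∀ y ∈ Y6, ok y = true ∧ inP 0x1803 y) ∧
    (∀ j < 64, mm (qg j) x3 = mm x3 (qg j) → qg j = I5) ∧ (∀ b < 256, sb b 223 → Lv x3 b ^^^ b < 2 → b < 2) ∧
    (∀ a < 1024, (∀ j ∈ [1, 2, 4, 8, 16, 32], Lv (qg j) a ^^^ a < 2) → sb a 223) ∧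
    (∀ a < 256, (∀ j ∈ [1, 2, 4, 8, 16, 32], Lv (qg j) a = a) → sb a 223 → a < 2) ∧
    ∀ k < 8, ∀ l < 8, k ≠ 0 → l ≠ 0 → k ≠ l → ∀ j < 64, Lv (qg j) (ra k) ^^^ ra k < 2 → Lv (qg j) (ra l) ^^^ ra l < 2 → qg j = I5 := by
  decide +kernel
theorem yq : ∀ a < 32, sb (a ^^^ 2 ^ 0) (cl11 0x1803 0) → ∀ b < 32, sb (b ^^^ 2 ^ 1) (cl11 0x1803 1) → ∀ c < 32, sb (c ^^^ 2 ^ 2) (cl11 0x1803 2) →
    ∀ d < 32, sb (d ^^^ 2 ^ 3) (cl11 0x1803 3) → ∀ e < 32, sb (e ^^^ 2 ^ 4) (cl11 0x1803 4) →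
    force (a + 2048 * (b + 2048 * (c + 2048 * (d + 2048 * e)))) (fun g => bimp (ok g) (decide (mm g g ∈ [I5, x3, mm x3 x3]))) = true := by
  decide +kernel
theorem kq : ∀ c < 32, ∀ d < 32, sb (wd c d ^^^ 2 ^ 5) 223 → ∀ e < 32, sb (wd c e ^^^ 2 ^ 8) 223 → sb (wd d e ^^^ 2 ^ 9) 223 →
    ∀ a < 32, sb (a ^^^ 2 ^ 0) (cl11 mY 0) → ∀ b < 32, sb (b ^^^ 2 ^ 1) (cl11 mY 1) →
    force (a + 2048 * (b + 2048 * (c + 2048 * (d + 2048 * e)))) (fun g => bimp (ok g) (anyL (fun y => force (mm g y) fun f =>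
      decide (inP mF f)) Y6)) = true := by decide +kernel
theorem zk : (∀ f ∈ [rg 2, rg 4], ok f = true ∧ inP mU f) ∧ ∀ g < 16, (∀ c ∈ [256, 512], sb (Lv (rg g) c ^^^ c) 223) →
    (∀ f ∈ [rg 2, rg 4], mm f (rg g) = mm (rg g) f) ∧ mm (rg g) (rg g) = I5 ∧
    ∀ a < 8, (∀ f ∈ [rg 2, rg 4], sb (Lv f (ra a) ^^^ ra a) 223) → Lv (rg g) (ra a) = ra a := by decide +kernel

variable {G : Type*} [Group G] [Finite G] {A B D E X : Subgroup G} {ρ : G → ℕ} {v K : ℕ → G} {x y : G} {a b e f g i j k l : ℕ}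
local notation "QQ" => sQ v K
local notation "RR" => sR v K
local notation "TT" => sT v K
local notation "SS" => zpowers (v 1)
section
variable (h : IK A ρ v K)
include h
theorem vQ (ha : a < 1024) : v a ∈ QQ ↔ sb a 223 := h.v_mem gdk.1.2.2.2 ha
theorem KQ (hj : j ∈ [1, 2, 4, 8, 16, 32]) : K (qg j) ∈ QQ ∧ ok (qg j) = true :=
  have := qk.1 j (by simp at hj; omega); ⟨h.KP this.1 this.2.1, this.1⟩
theorem QW : QQ ⊓ C(QQ ⊓ A) ≤ A := fun x hx => h.CW ⟨h.PN hx.1, h.QA ▸ hx.2⟩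
theorem es : ES QQ (v 1) := mkES ((vQ h (by decide)).2 (by decide)) h.s1 (h.vv 1) (h.QT.trans h.TC) (fun _ => sqQ h) (fun x hx => by
    obtain ⟨a, ha, rfl⟩ := h.vs x (QW h ⟨hx.1, cent_mono inf_le_left hx.2⟩)
    have s := (vQ h ha).1 hx.1
    exact (vS h ha).2 (yk.2.2.2.2.2.1 a (by have := s.le; omega) (fun j hj =>
      (h.fixK (KQ h hj).2 ha).1 (le_cent1_iff.2 hx.2 (KQ h hj).1)) s)) (by rw [h.cQ]; decide)
theorem QX (he : e < 2) (hX : ∀ a < 1024, ∀ i < 16, v a * K (ug i) ∈ X ↔ a / 64 = e * i) (XR : X ≤ RR) (ZX : sZ v K ≤ X) :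
    QQ ⊓ C(QQ ⊓ X) ≤ X := fun x hx => by_contra fun n => by
  obtain ⟨t, ht, p⟩ := Cl.ex h he (h.c27 (h.PN hx.1) (cent_mono (le_inf (PS_le (by decide) (by decide +kernel))
    ((PS_le (by decide) (by decide +kernel)).trans ZX)) hx.2))
  have k : ∀ i ∈ [1, 2], ug i = ug t := fun i hi => by
    obtain ⟨i1, i2, i3, i4, i5, i6⟩ := (by decide +kernel : ∀ e < 2, ∀ i ∈ [1, 2], 64 * e * i < 1024 ∧ i < 16 ∧ 64 * e * i / 64 = e * i ∧
      i ≠ 0 ∧ sb (64 * e * i) 223 ∧ inP mF (ug i)) e he i hi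
    have o := (ugk i (by omega)).1
    have m := (hX _ i1 i i2).2 i3
    rw [← h.rel o, p.cm h he hX XR n ⟨m, le_cent1_iff.2 hx.2 ⟨el_PS i5 o i6, m⟩⟩ fun z => i4 ((h.mA i1 i2).1 (ZA h z))]
  exact absurd ((k 1 (by simp)).trans (k 2 (by simp)).symm) (by decide)
theorem xs (hX : X = A ∨ X = X0 v K ∨ X = X1 v K) : (∀ x ∈ X, x * x = 1) ∧ TT ≤ N(X) ∧ v 1 ∈ X ∧ #X = 1024 ∧ QQ ⊓ C(QQ ⊓ X) ≤ X := by
  have z : v 1 ∈ sZ v K := h.vP (by decide)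
  rcases hX with rfl | rfl | rfl
  exacts [⟨h.sq, h.PN, h.vm 1, h.cA, QW h⟩, ⟨h.sq0, h.TP.trans h.PX0, h.ZX0 z, h.cX0,
    QX (e := 0) h (by decide) (fun a ha i hi => by rw [h.mX0 ha hi, zero_mul]) h.X0R h.ZX0⟩, ⟨h.sq1, h.TP.trans h.PX1, h.ZX1 z, h.cX1,
    QX (e := 1) h (by decide) (fun a ha i hi => by rw [h.mX1 ha hi, one_mul]) h.X1R h.ZX1⟩]
theorem XR (hX : X = A ∨ X = X0 v K ∨ X = X1 v K) : X ≤ TT := by
  rcases hX with rfl | rfl | rfl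
  exacts [h.AP, h.X0R.trans h.RT, h.X1R.trans h.RT]
theorem qx (hX : X = A ∨ X = X0 v K ∨ X = X1 v K) (l : E ≤ QQ ⊔ X) : QQ ⊓ X ≤ QQ ⊓ cm SS E := le_inf inf_le_left (le_trans
  (cm_sys (sup_le ((QM h).trans (cm_anti fun _ k => k.1)) fun x hx => ⟨TS' h (XR h hX hx), fun y hy =>
    commutatorElement_eq_one_iff_mul_comm.2 (csq (xs h hX).1 hx hy.2) ▸ one_mem _⟩) (inf_le_left.trans (h.QT.trans (TS' h)))) (cm_anti l))
theorem tabE (l : E ≤ TT) (q : ∀ b ∈ E, b * b ∈ QQ) : ∃ f, #E ≤ f * #(E ⊓ QQ : Subgroup G) ∧ f ≤ 32 ∧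
    (32 * #(E ⊓ QQ : Subgroup G) ≤ #E → ∃ e ∈ E, e * K (ee 0 1) ∈ QQ) ∧
    (E ≤ QQ ∨ f * (f * #(QQ ⊓ cm SS E : Subgroup G)) < 8192 ∨ f ≤ 8 ∧ #(QQ ⊓ cm SS E : Subgroup G) ≤ 128 ∧
      ∃ X, (X = A ∨ X = X0 v K ∨ X = X1 v K) ∧ E ≤ QQ ⊔ X) := by
  have n := l.trans (TQ' h)
  obtain ⟨f, k1, k2, k3, k4⟩ := tab h le_sup_left (sup_le h.QT l) (sq_sup n q)
  have c := card_sup_mul_inf n
  rw [h.cQ, inf_comm] at c
  have e : QQ ⊓ cm SS (QQ ⊔ E : Subgroup G) = QQ ⊓ cm SS E := le_antisymm (inf_le_inf_left _ (cm_anti fun _ k => mem_sup_right k))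
    (le_inf inf_le_left (cm_sys (sup_le ((QM h).trans (cm_anti fun _ k => k.1)) (cm_sys inf_le_right (l.trans (TS' h))))
      (inf_le_left.trans (h.QT.trans (TS' h)))))
  have p := card_pos (E ⊓ QQ)
  have c1 : #E ≤ f * #(E ⊓ QQ : Subgroup G) := by nlinarith
  rw [e] at k4
  refine ⟨f, c1, k2, fun t => ?_, k4.imp (fun t => ?_) (.imp_right fun t => ⟨t.1, t.2.1, t.2.2.imp fun _ t => ⟨t.1, le_sup_right.trans t.2⟩⟩)⟩
  · have o : ok (ee 0 1) = true ∧ inP mD (ee 0 1) ∧ mm (ee 0 1) (ee 0 1) = I5 := by decide +kernel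
    have cD : #(PS v K 511 mD) = 32 * 8192 := (h.cPS dk.1).trans (by decide +kernel)
    obtain ⟨r, hr, e, he, t⟩ := (mem_sup_of_norm n).1 ((eq_of_le_of_card_ge (k3 (by nlinarith)) (by nlinarith)).ge (h.KP o.1 o.2.1))
    exact ⟨e, he, by rw [eq_inv_mul_iff_mul_eq.2 t.symm, mul_assoc, h.Ksq o.1 o.2.2, mul_one]; exact inv_mem hr⟩
  · exact inf_eq_left.1 (eq_of_le_of_card_ge inf_le_left (by simpa [t] using c1))
theorem ts : TS TT QQ (v 1) := fun E l q => by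
  obtain ⟨f, k1, k2, -, k4⟩ := tabE h l fun b hb => (es h).zp_le (q b hb)
  refine ⟨f, k1, k2, or_iff_not_imp_left.2 fun n => ?_⟩
  rcases k4.resolve_left n with t | ⟨t1, t2, X, hX, t⟩
  · exact ⟨by rcases f with _ | f <;> nlinarith, .inl t⟩
  obtain ⟨e, he, n⟩ := SetLike.not_le_iff_exists.1 n
  refine ⟨by nlinarith, .inr ⟨t2, e, he, n, fun a ha => qx h hX t ⟨cms (cmN (TQ' h (l he)) ha), ?_⟩⟩⟩
  obtain ⟨r, hr, x, hx, rfl⟩ := (mem_sup_of_norm ((XR h hX).trans (TQ' h))).1 (t he)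
  have X := xs h hX
  exact H10.RF.cmr r x a ▸ mul_mem (zpowers_le.2 X.2.2.1 ((es h).comm_mem ha hr)) (conj_mem_of_norm (X.2.1 (h.QT hr)) (cmN (X.2.1 (h.QT ha)) hx))
end
theorem jt : JT.{u} := fun {G} _ _ A ρ v K h B l q c => by
  obtain ⟨f, k1, -, -, k4⟩ := tabE h l fun b hb => q b hb ▸ one_mem _
  have c1 := (es h).card_le_of_not ((es h).not_hasEA (m := 6) h.cQ) (inf_le_right (a := B)) (abelem2_iff.2 fun x hx => q x hx.1)
  have l1 : B ⊓ sQ v K ≤ sQ v K ⊓ cm (zpowers (v 1)) B := fun x hx => ⟨hx.2, TS' h (l hx.1), fun y hy =>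
    commutatorElement_eq_one_iff_mul_comm.2 (csq q hx.1 hy) ▸ one_mem _⟩
  have c2 := card_le l1
  rcases k4 with t | t | ⟨t1, t2, X, hX, t⟩
  · rw [inf_eq_left.2 t] at c1; omega
  · have := c.trans (k1.trans (Nat.mul_le_mul_left f c1))
    have := Nat.mul_le_mul (show 8 ≤ f by omega) (c.trans (k1.trans (Nat.mul_le_mul_left f c2)))
    omega
  have x := xs h hX
  have e := eq_of_le_of_card_ge l1 (by nlinarith)
  refine eq_of_le_of_card_ge (fun b hb => ?_) (x.2.2.2.1 ▸ c) ▸ hX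
  obtain ⟨r, hr, y, hy, rfl⟩ := (mem_sup_of_norm ((XR h hX).trans (TQ' h))).1 (t hb)
  exact mul_mem (x.2.2.2.2 ⟨hr, (Subgroup.mul_mem_cancel_right _ (cents_mono (ab_sq x.1) le_rfl inf_le_right hy)).1
    (cents_mono (ab_sq q) le_rfl (((qx h hX t).trans e.ge).trans inf_le_left) hb)⟩) hy
theorem tq : TQ.{u} := fun {G} _ _ A ρ v K h => by
  refine ⟨es h, ts h, fun X hX => (xs h hX).2.2.2.2, fun E l q => (tabE h l q).elim fun _ k => k.2.2.1, PS v K 0 0x1803, K x3,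
    fun S sS TS' SQ ts c1 c2 => ?_⟩
  have vq : A ⊓ cm (zpowers (v 1)) (sQ v K) ≤ sQ v K := fun x hx => by
    obtain ⟨a, ha, rfl⟩ := h.vs x hx.1
    refine (vQ h ha).2 (yk.2.2.2.2.1 a ha fun j hj => (vS h (x10 (Lv_lt _ _) ha)).1 ?_)
    simpa only [h.cmv (h.kn _), h.kr _ (KQ h hj).2] using cms (hx.2.2 _ (KQ h hj).1)
  have I : ∀ {b}, b < 1024 → Lv I5 b ^^^ b = 0 := fun hb => Nat.xor_eq_zero_iff.2 ((h.fixK okI.1 hb).1 (h.K1 ▸ one_mem _))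
  refine ⟨es h, h.cQ, sS, h.QT.trans TS', SQ, ts, fun t ht c => ?_, fun x hx => ?_, h.sq, h.AP.trans TS', h.PN, h.vm 1,
    h.Ye.le.trans h.YQ, h.QA ▸ h.CW, vq, (PS_le (by decide) (by decide +kernel)).trans h.Ye.ge, h.KP yk.1.1 yk.1.2.1, ?_, fun y hy => ?_,
    fun x hx => ?_, by rw [inf_comm, h.QA, h.cW, h.cA]; decide, fun a ha b hb n1 n2 n3 x hx => ?_, fun x hx => ?_⟩
  · obtain ⟨k, hk, r⟩ := exr h (c1 ⟨ht, c⟩)
    refine ⟨_, inv_mem r, ?_⟩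
    have c : rr v K k ∈ cm (sQ v K) S := by simpa using mul_mem (inv_mem (le_cm (fun _ k => SQ k) r)) c
    have o := (rk' hk).2.1
    obtain ⟨z1, z2, z3⟩ := zk.2 (k / 8) (by omega) fun b hb => (vQ h (x10 (Lv_lt _ _) (by simp at hb; omega))).1 (by
      simpa only [rr, h.cmv (h.elN _ _), h.rel o] using c.2 _ (TS' (h.AP (h.vm b))))
    have := z3 _ (Nat.mod_lt k (by decide)) fun f hf => (vQ h (x10 (Lv_lt _ _) (rk' hk).1)).1 (by
      have o' := zk.1 f hf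
      simpa only [rr, H10.RF.cmr, commutatorElement_eq_one_iff_mul_comm.2 (h.Kcm o'.1 o (z1 f hf)), mul_one, mul_inv_cancel,
        h.cmv (h.kn _), h.kr _ o'.1] using cms (c.2 _ (TS' (h.KP o'.1 o'.2))))
    rw [mul_inv_rev, inv_inv, inv_mul_cancel_right, rr, h.elm o o, this, z2, Nat.xor_self, h.v0, h.K1, one_mul]
    exact one_mem _
  · exact vq ⟨h.CW ⟨h.PN (c2 hx), cent_mono h.WQ hx.2⟩, HZ (sS.le hx.1), fun y hy =>
      cms (commutatorElement_eq_one_iff_mul_comm.2 (mem_cent.1 hx.2 y hy) ▸ one_mem _)⟩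
  · rw [pow_three, ← h.km _ _ yk.1.1 yk.1.1, ← h.km _ _ yk.1.1 (ok_mm yk.1.1 yk.1.1), yk.1.2.2.1, h.K1]
  · obtain ⟨a, g, ha, o, p, rfl⟩ := (h.mem_PS yk.1.2.2.2).1 hy
    have := yq _ (ok_cl o (by decide)) (p 0 (by decide)) _ (ok_cl o (by decide)) (p 1 (by decide)) _ (ok_cl o (by decide)) (p 2 (by decide))
      _ (ok_cl o (by decide)) (p 3 (by decide)) _ (ok_cl o (by decide)) (p 4 (by decide))
    rw [← ok_pk o, force_eq, bimp_iff] at this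
    rw [Nat.le_zero.1 ha.le, h.v0, one_mul, ← h.km _ _ o o]
    rcases (by simpa using this o : _ ∨ _ ∨ _) with e | e | e <;> rw [e]
    exacts [h.K1 ▸ one_mem _, mem_zpowers _, h.km _ _ yk.1.1 yk.1.1 ▸ mul_mem (mem_zpowers _) (mem_zpowers _)]
  · have o := h.okr x hx.1.1
    have p := h.rP gdk.2.2.2.2.1 (h.Ye.le hx.1)
    have r : ∀ k < 10, sb (wd (cl11 (ρ x) (pp k)) (cl11 (ρ x) (qq k)) ^^^ 2 ^ k) 223 := fun k hk => by
      rw [← Lv_pow o (by omega), ← vQ h (x10 (Lv_lt _ _) (Nat.pow_lt_pow_right (n := 10) one_lt_two hk)), ← h.cmv hx.1.1]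
      exact (hx.2.2 _ (h.vm _)).1
    have := kq _ (ok_cl o (j := 2) (by decide)) _ (ok_cl o (j := 3) (by decide)) (r 5 (by decide)) _ (ok_cl o (j := 4) (by decide))
      (r 8 (by decide)) (r 9 (by decide))
      _ (ok_cl o (by decide)) (p 0 (by decide)) _ (ok_cl o (by decide)) (p 1 (by decide))
    rw [← ok_pk o, force_eq, bimp_iff, anyL_iff] at this
    obtain ⟨y, hy, k⟩ := this o
    rw [force_eq, decide_eq_true_eq] at k
    obtain ⟨a, -, e⟩ := h.dec hx.1.1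
    have o' := yk.2.1 y hy
    rw [e, ← mul_inv_cancel_right (K (ρ x)) (K y), ← h.km _ _ o o'.1, ← mul_assoc]
    exact mul_mem (mem_sup_left (mul_mem (mem_sup_left (h.vm a)) (mem_sup_right (h.KP (ok_mm o o'.1) k))))
      (mem_sup_right (inv_mem (h.KP o'.1 o'.2)))
  · obtain ⟨c, hc, j, hj, rfl⟩ := exQ h hx.1.1
    have k : ∀ a ∈ A, v c * K (qg j) ∈ cm (zpowers (v 1)) {a} → ∃ k < 8, a * v (ra k) ∈ sQ v K ∧ Lv (qg j) (ra k) ^^^ ra k < 2 :=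
      fun a hA t => by
        obtain ⟨a, ha, rfl⟩ := h.vs a hA
        obtain ⟨k, hk, s⟩ := rk.2.2.1 a ha
        have m := h.vx a _ ▸ (vQ h (x10 ha (rk.2.1 k hk))).2 s
        have := cm_mul1 (H23.RG.TS' h (h.AP (h.vm a))) t (cm_one m (QM h hx.1.1))
        rw [← mul_assoc, h.vv, one_mul, ← mul_one (v (ra k)), ← h.K1] at this
        have hc : c < 1024 := by have := hc.le; omega
        exact ⟨k, hk, m, by simpa [I hc] using (cmS h (qk.1 j hj).1 okI.1 (rk.2.1 k hk) hc this).2⟩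
    obtain ⟨l, hl, m2, t2⟩ := k b hb hx.2
    obtain ⟨k, hk, m1, t1⟩ := k a ha hx.1.2
    rw [yk.2.2.2.2.2.2 k hk l hl (by rintro rfl; exact n1 (by simpa [show v (ra 0) = 1 from h.v0] using m1))
      (by rintro rfl; exact n2 (by simpa [show v (ra 0) = 1 from h.v0] using m2)) (by
        rintro rfl
        exact n3 (by simpa [mul_assoc, inv_eq_of_mul_eq_one_right (h.sq b hb)] using mul_mem m1 (inv_mem m2))) j hj t1 t2, h.K1, mul_one]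
    exact h.vm c
  · obtain ⟨c, hc, j, hj, rfl⟩ := exQ h hx.1
    have hc' : c < 256 := by have := hc.le; omega
    obtain ⟨t1, t2⟩ := cmS h (a := 0) (b := c) (qk.1 j hj).1 yk.1.1 (by decide) (by omega) (by rw [h.v0, one_mul]; exact hx.2)
    rw [yk.2.2.1 j hj t1, h.K1, mul_one, vS h (by omega)]
    exact yk.2.2.2.1 c hc' hc (by simpa [Lv, mv_zero] using t2)
end H23.RG
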