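/-
S5806: groups generated by transvections in characteristic two, closure rules.
-/
import Cfsg.Agent.H4.SPa
import Cfsg.Agent.H6.SP1

set_option autoImplicit false
set_option linter.unusedSectionVars false

namespace H23.S6
open Matrix Cfsg Cfsg.Geo H27.Asch Subgroup Module H6.SP H11.SP H4.SP

theorem dih {G : Type*} [Group G] [Finite G] {a b : G} (ha : a * a = 1) (hb : b * b = 1) :
    (∃ k : ℕ, (a * b) ^ k ≠ 1 ∧ Commute ((a * b) ^ k) a ∧ Commute ((a * b) ^ k) b) ∨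
      ∃ k : ℕ, (a * b) ^ k * a * ((a * b) ^ k)⁻¹ * a * ((a * b) ^ k * a * ((a * b) ^ k)⁻¹)⁻¹ = b := by
  have e : b = a * (a * b) := by rw [← mul_assoc, ha, one_mul]
  have i : a * (a * b) * a⁻¹ = (a * b)⁻¹ := by
    rw [← e, _root_.mul_inv_rev, inv_eq_of_mul_eq_one_right hb]
  generalize a * b = c at *
  have j : ∀ k : ℤ, a * c ^ k = c ^ (-k) * a := fun k => by rw [_root_.zpow_neg, ← _root_.inv_zpow, ← i, conj_zpow]; simp
  have o := pow_orderOf_eq_one c
  have p := orderOf_pos c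
  obtain ⟨k, h | h⟩ := Nat.even_or_odd' (orderOf c)
  · have : Commute (c ^ k) a := by
      have := j k
      rw [_root_.zpow_neg, zpow_natCast, inv_eq_of_mul_eq_one_right (by rw [← pow_add, ← two_mul, ← h, o] : c ^ k * c ^ k = 1)] at this
      exact this.symm
    exact .inl ⟨k, pow_ne_one_of_lt_orderOf (by omega) (by omega), this, e ▸ this.mul_right ((Commute.refl c).pow_left k)⟩
  refine .inr ⟨k * (k + 1), ?_⟩
  have t : c ^ ((4 * (k * (k + 1)) + 1 : ℕ) : ℤ) = 1 := by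
    rw [zpow_natCast, show 4 * (k * (k + 1)) + 1 = orderOf c * orderOf c by rw [h]; ring, pow_mul, o, one_pow]
  generalize k * (k + 1) = m at *
  have n : ∀ i : ℤ, c ^ i * a * (c ^ i)⁻¹ = c ^ (2 * i) * a := fun i => by
    rw [← _root_.zpow_neg, mul_assoc, j, neg_neg, ← mul_assoc, ← _root_.zpow_add, two_mul]
  rw [← zpow_natCast, n, show ∀ x, x * a * a * (x * a)⁻¹ = x * a * x⁻¹ from fun x => by group, n, e, ← zpow_one c, j, zpow_one,
    ← one_mul (c ^ (-1)), ← t, ← _root_.zpow_add]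
  congr 2; push_cast; ring

variable {F : Type*} [Field F] [Fintype F] [CharP F 2] {P : Subgroup (G6 F)} {u v w x y z : V6 F} {a b c : F}

theorem fs (u v : V6 F) : fm u v = fm v u := by rw [fm_swap, CharTwo.neg_eq]
theorem ex_sq (c : F) : ∃ r : F, r ^ 2 = c := let ⟨r, e⟩ := isSquare_of_charTwo' c; ⟨r, by rw [e, sq]⟩
theorem vv (u : V6 F) : u + u = 0 := by rw [← two_smul F, CharTwo.two_eq_zero, zero_smul]
theorem tv_sq (u : V6 F) (c : F) : tv u c * tv u c = 1 := by rw [tv_add, CharTwo.add_self_eq_zero, tv_zero]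
theorem tv_S6 (u : V6 F) (c : F) : tv u c ∈ S6 F := mem_S6.2 fun x y => by
  simp only [tv_mv, fm_add_l, fm_add_r, fm_smul_l, fm_smul_r, fm_self, fm_swap u y]; ring
theorem ex_fm (h : u ≠ 0) : ∃ y, fm y u ≠ 0 := by
  by_contra! H
  exact h (fm_nd fun x => by rw [fs, H])

theorem tv_inj (h : tv u 1 = tv v 1) : u = v := by
  have k : ∀ x, fm x u • u = fm x v • v := fun x => by simpa [tv_mv] using congrArg (·.val *ᵥ x) h
  by_cases u0 : u = 0
  · by_contra e
    obtain ⟨y, hy⟩ := ex_fm (u := v) (by rintro rfl; exact e u0)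
    simpa [u0, hy, eq_comm, show v ≠ 0 by rintro rfl; exact e u0] using k y
  obtain ⟨y, hy⟩ := ex_fm u0
  obtain ⟨l, rfl⟩ : ∃ l : F, u = l • v := ⟨fm y v / fm y u, by rw [div_eq_inv_mul, mul_smul, ← k, inv_smul_smul₀ hy]⟩
  have := k y
  rw [smul_smul, fm_smul_r] at this
  have := smul_left_injective F (right_ne_zero_of_smul u0) this
  rw [fm_smul_r, mul_ne_zero_iff] at hy
  have : (l + 1) ^ 2 = 0 := mul_left_cancel₀ hy.2 (by linear_combination this + (l + 1) * fm y v * CharTwo.two_eq_zero (R := F))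
  rw [CharTwo.add_eq_zero.1 (pow_eq_zero_iff two_ne_zero |>.1 this), one_smul]

/-- the centres of the transvections, normalised -/
def U (P : Subgroup (G6 F)) (u : V6 F) : Prop := tv u 1 ∈ P

theorem U.of (h : tv u c ∈ P) : ∃ r : F, r ^ 2 = c ∧ U P (r • u) :=
  let ⟨r, e⟩ := ex_sq c; ⟨r, e, by rwa [U, tv_smul, mul_one, e]⟩

theorem U.zero : U P 0 := by rw [U, tv_zero']; exact one_mem _

variable (h : TG P)
include h

theorem cj {g : G6 F} (hg : g ∈ P) (hu : U P u) : U P (g.val *ᵥ u) := h.conj hg hu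
theorem c1 (hu : U P u) (hv : U P v) : U P (u + fm u v • v) := by simpa [U] using h.tvc hv hu

theorem adj (hu : U P u) (u0 : u ≠ 0) (v0 : v ≠ 0) : ∃ w, U P w ∧ fm w u ≠ 0 ∧ fm w v ≠ 0 := by
  obtain ⟨w, ⟨-, c, c0, hc⟩, h1, h2⟩ := h.adj ⟨u0, 1, one_ne_zero, hu⟩ v0
  obtain ⟨r, e, hr⟩ := U.of hc
  have : r ≠ 0 := by rintro rfl; simp [← e] at c0
  exact ⟨_, hr, by simp [*], by simp [*]⟩

/-- the swap -/
theorem c2 (hu : U P u) (hv : U P v) (a0 : fm u v ≠ 0) : tv (u + v) (fm u v)⁻¹ ∈ P := by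
  have m : ∀ k : ℕ, (tv u 1 * tv v 1) ^ k ∈ P := fun k => pow_mem (mul_mem hu hv) k
  obtain ⟨k, k1, k2, k3⟩ | ⟨k, e⟩ := dih (tv_sq u 1) (tv_sq v 1)
  · have s : ∀ x, ∃ α β : F, ((tv u 1 * tv v 1) ^ k).val *ᵥ x = x + α • u + β • v := fun x => by
      clear k1 k2 k3
      induction k with
      | zero => exact ⟨0, 0, by simp⟩
      | succ k ih =>
        obtain ⟨α, β, e⟩ := ih
        rw [pow_succ', Units.val_mul, Units.val_mul, ← mulVec_mulVec, ← mulVec_mulVec, e, tv_mv, tv_mv]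
        generalize 1 * fm _ u = γ
        generalize 1 * fm _ v = δ
        exact ⟨α + γ, β + δ, by module⟩
    have g := h.sp (m k)
    generalize (tv u 1 * tv v 1) ^ k = z at *
    have e1 := tv_inj ((tv_conj g u 1).symm.trans (mul_inv_eq_iff_eq_mul.2 k2))
    have e2 := tv_inj ((tv_conj g v 1).symm.trans (mul_inv_eq_iff_eq_mul.2 k3))
    refine absurd (gl_ext fun x => ?_) k1
    obtain ⟨α, β, e⟩ := s x
    have a1 := mem_S6.1 g x u
    have a2 := mem_S6.1 g x v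
    rw [e1, e] at a1
    rw [e2, e] at a2
    simp [fs v u, a0] at a1 a2
    simp [e, a1, a2]
  have hx := cj h (m k) hu
  rw [tv_conj (h.sp (m k)), tv_conj (tv_S6 _ _)] at e
  replace e := tv_inj e
  generalize _ *ᵥ u = x at hx e
  rw [tv_mv, one_mul] at e
  have e1 : u + v = fm u x • x := by rw [← e, ← add_assoc, vv, zero_add]
  have e2 : fm u v = fm u x ^ 2 := by rw [← e]; simp [sq]
  rwa [e1, tv_smul, ← e2, mul_inv_cancel₀ a0]

omit h in
theorem sw_l (a0 : fm u v ≠ 0) : (tv (u + v) (fm u v)⁻¹).val *ᵥ u = v := by simp [tv_mv, a0, ← add_assoc, vv]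
omit h in
theorem sw_r (a0 : fm u v ≠ 0) : (tv (u + v) (fm u v)⁻¹).val *ᵥ v = u := by
  simp [tv_mv, a0, fs v u, add_left_comm, vv]
omit h in
theorem sw_o (h1 : fm z u = 0) (h2 : fm z v = 0) : (tv (u + v) c).val *ᵥ z = z := by simp [tv_mv, h1, h2]

theorem tr (hu : U P u) (u0 : u ≠ 0) (hv : U P v) (v0 : v ≠ 0) : ∃ g ∈ P, g.val *ᵥ u = v := by
  obtain ⟨w, hw, h1, h2⟩ := adj h hu u0 v0
  exact ⟨_, mul_mem (c2 h hw hv h2) (c2 h hw hu h1), by rw [Units.val_mul, ← mulVec_mulVec, sw_r h1, sw_l h2]⟩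

/-- three swaps -/
theorem c3 (hu : U P u) (hv : U P v) (hw : U P w) (a0 : fm u v ≠ 0) (b0 : fm u w ≠ 0) (c0 : fm v w ≠ 0) :
    tv ((fm u v + fm u w) • u + fm u w • v + fm u v • w) (fm u v * fm u w * fm v w)⁻¹ ∈ P := by
  convert mul_mem (mul_mem (c2 h hu hv a0) (c2 h hv hw c0)) (c2 h hu hw b0) using 1
  refine gl_ext fun x => ?_
  simp only [Units.val_mul, ← mulVec_mulVec, tv_mv, fm_add_l, fm_add_r, fm_smul_l, fm_smul_r, fm_self, fs v u, fs w u, fs w v]
  match_scalars <;> field_simp <;> ring_nf <;> reduce_mod_char! <;> ring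

theorem v4 (hu : U P u) (hv : U P v) (hx : U P (a • u + z)) (f0 : fm u v ≠ 0) (h1 : fm z u = 0) (h2 : fm z v = 0)
    (a0 : a ≠ 0) (a1 : a ≠ 1) : U P ((1 + a)⁻¹ • z) := by
  have f1 : fm (a • u + z) v ≠ 0 := by simp [*]
  have a2 : 1 + a ≠ 0 := fun e => a1 (CharTwo.add_eq_zero.1 e).symm
  obtain ⟨g, hg, e1, e2⟩ : ∃ g ∈ P, g.val *ᵥ u = a • u + z ∧ g.val *ᵥ z = z :=
    ⟨_, mul_mem (c2 h hx hv f1) (c2 h hu hv f0), by rw [Units.val_mul, ← mulVec_mulVec, sw_l f0, sw_r f1],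
      by rw [Units.val_mul, ← mulVec_mulVec, sw_o h1 h2, sw_o (by simp [h1]) h2]⟩
  obtain ⟨w, rfl⟩ : ∃ w, u = w + (1 + a)⁻¹ • z := ⟨u + (1 + a)⁻¹ • z, by rw [add_assoc, vv, add_zero]⟩
  have e3 : g.val *ᵥ w = a • w := by
    rw [mulVec_add, mulVec_smul, e2, ← eq_sub_iff_add_eq] at e1
    rw [e1]; match_scalars <;> field_simp <;> ring_nf <;> reduce_mod_char!
  have h3 : fm z w = 0 := by simpa using h1
  have k : ∀ j : ℕ, U P (a ^ j • w + (1 + a)⁻¹ • z) := fun j => by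
    induction j with
    | zero => simpa using hu
    | succ j ih => simpa [mulVec_add, mulVec_smul, e2, e3, smul_smul, pow_succ] using cj h hg ih
  have h4 : fm ((1 + a)⁻¹ • z) w = 0 := by simp [h3]
  generalize (1 + a)⁻¹ • z = t at *
  have s : ∀ m : ℕ, ∃ g ∈ P, ∀ x, g.val *ᵥ x = x + (∑ j ∈ Finset.range m, (a ^ 2) ^ j) • fm x w • w +
      (∑ j ∈ Finset.range m, a ^ j) • (fm x w • t + fm x t • w) + (m : F) • fm x t • t := fun m => by
    induction m with
    | zero => exact ⟨1, one_mem _, by simp⟩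
    | succ m ih =>
      obtain ⟨g, hg, e⟩ := ih
      refine ⟨_, mul_mem (k m) hg, fun x => ?_⟩
      simp only [Units.val_mul, ← mulVec_mulVec, e, tv_mv, fm_add_l, fm_add_r, fm_smul_l, fm_smul_r, fm_self, fs w t, h4,
        Finset.sum_range_succ]
      push_cast; module
  obtain ⟨g, hg, e⟩ := s (Fintype.card F - 1)
  have gs : ∀ b : F, b ≠ 0 → b ≠ 1 → ∑ j ∈ Finset.range (Fintype.card F - 1), b ^ j = 0 := fun b b0 b1 => by
    rw [geom_sum_eq b1, FiniteField.pow_card_sub_one_eq_one b b0, sub_self, zero_div]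
  rw [gs a a0 a1, gs _ (pow_ne_zero 2 a0) (by rwa [Ne, sq_eq_one_iff, CharTwo.neg_eq, or_self]),
    Nat.cast_pred Fintype.card_pos, FiniteField.cast_card_eq_zero] at e
  rwa [(gl_ext fun x => by simp [e, tv_mv, CharTwo.neg_eq] : g = tv t 1)] at hg

end H23.S6
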