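/-
S5806: groups generated by transvections in characteristic two.
-/
import Cfsg.Agent.H23.S6a
import Cfsg.Agent.H12.OmegaFin
import Cfsg.Agent.H12.Bridge

set_option autoImplicit false
set_option linter.unusedSectionVars false

namespace H23.S6
open Matrix Cfsg Cfsg.Geo H27.Asch Module H6.SP H11.SP H4.SP Submodule

variable {F : Type*} [Field F] [Fintype F] [CharP F 2] {P : Subgroup (G6 F)} {u v w x y z : V6 F} {a b c : F}

/-- one vector per point -/
def One (P : Subgroup (G6 F)) : Prop := ∀ u (c : F), u ≠ 0 → U P u → U P (c • u) → c = 0 ∨ c = 1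
/-- the vectors orthogonal to `Y` span its perp -/
def Dn (P : Subgroup (G6 F)) (Y : Set (V6 F)) : Prop := ∀ w, (∀ x, U P x → (∀ y ∈ Y, fm x y = 0) → fm x w = 0) → w ∈ span F Y
/-- quadratic forms polarising to `fm` -/
def Pol (Q : QuadraticForm F (V6 F)) : Prop := ∀ x y, Q (x + y) = Q x + Q y + fm x y
/-- a good form -/
def Gd (P : Subgroup (G6 F)) (Y : Set (V6 F)) : Prop := ∃ Q, Pol Q ∧ ∀ x ≠ 0, U P x → (∀ y ∈ Y, fm x y = 0) → Q x = 1

theorem Pol.adj {Q : QuadraticForm F (V6 F)} (hQ : Pol Q) (e : fm u v ≠ 0) :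
    ∃ Q', Pol Q' ∧ Q' u = 1 ∧ ∀ x, fm x v = 0 → Q' x = Q x :=
  ⟨Q + ((Q u + 1) / fm u v ^ 2) • QuadraticMap.linMulLin (fl v) (fl v), fun x y => by
    simp [hQ x y]; ring_nf; reduce_mod_char!, by simp [fs v u]; field_simp; ring_nf; reduce_mod_char!,
    fun x k => by simp [fs v x, k]⟩

theorem ex_pol : ∃ Q : QuadraticForm F (V6 F), Pol Q :=
  ⟨∑ i, QuadraticMap.proj (.inl i) (.inr i), fun x y => by
    simp [fm_ap, Fin.sum_univ_three, CharTwo.sub_eq_add]; ring⟩

variable (h : TG P)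
include h

theorem top (u0 : u ≠ 0) (hu : U P u) (ad : ∀ x y, U P x → U P y → U P (x + y)) (sm : ∀ (c : F) x, U P x → U P (c • x)) :
    S6 F ≤ P := by
  let W : Submodule F (V6 F) := ⟨⟨⟨{x | U P x}, ad _ _⟩, U.zero⟩, sm⟩
  have hW : W = ⊤ := (h.irr W fun g hg x hx => cj h hg hx).resolve_left fun e => u0 ((mem_bot F).1 (e ▸ hu : u ∈ _))
  rw [S6, ← H11.range_spToGL, MonoidHom.range_eq_map, ← Cfsg.Agent.S0765.result 3, Subgroup.map_le_iff_le_comap, Subgroup.closure_le]
  rintro g ⟨w, c, e⟩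
  have : H11.spToGL g = tv w c := gl_ext fun x => by
    rw [H11.spToGL_coe, e, tv_mv, sympTransvection, add_mulVec, smul_mulVec, vecMulVec_mulVec, one_mulVec, dotProduct_comm,
      op_smul_eq_smul, smul_smul]; rfl
  obtain ⟨r, rfl⟩ := ex_sq c
  change _ ∈ P
  rw [this, ← mul_one (r ^ 2), ← tv_smul]
  exact hW.ge mem_top

theorem real (hr : Fld P) (u0 : u ≠ 0) (hu : U P u) {K : Subfield F} (k : ∀ x y, U P x → U P y → fm x y ∈ K) : K = ⊤ := by
  refine by_contra fun e => hr K e (real_of (A := AddSubgroup.closure {x | U P x}) one_ne_zero (fun x hx y hy => ?_)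
    (fun g hg x hx => ?_) (top_le_iff.1 (le_trans ?_ (span_mono AddSubgroup.subset_closure))))
  · rw [one_mul]
    induction hx, hy using AddSubgroup.closure_induction₂ with
    | mem x y a b => exact k x y a b
    | zero_left => simp
    | zero_right => simp
    | add_left _ _ _ _ _ _ a b => rw [fm_add_l]; exact add_mem a b
    | add_right _ _ _ _ _ _ a b => rw [fm_add_r]; exact add_mem a b
    | neg_left _ _ _ _ a => rw [fm_neg_l]; exact neg_mem a
    | neg_right _ _ _ _ a => rw [fm_neg_r]; exact neg_mem a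
  · induction hx using AddSubgroup.closure_induction with
    | mem x a => exact AddSubgroup.subset_closure (cj h hg a)
    | zero => simp
    | add _ _ _ _ a b => rw [mulVec_add]; exact add_mem a b
    | neg _ _ a => rw [mulVec_neg]; exact neg_mem a
  · refine ((h.irr _ fun g hg x hx => ?_).resolve_left fun e => u0 ((mem_bot F).1 (e ▸ subset_span hu))).ge
    exact (span_le (p := (span F {x | U P x}).comap g.val.mulVecLin)).2 (fun x a => subset_span (cj h hg a)) hx

theorem caseA (hr : Fld P) (u0 : u ≠ 0) (hu : U P u) (hc : U P (c • u)) (c0 : c ≠ 0) (c1' : c ≠ 1) : S6 F ≤ P := by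
  let R : Subring F :=
    { carrier := {c | ∀ x, U P x → U P (c • x)}
      mul_mem' := fun a b x hx => by rw [mul_smul]; exact a _ (b x hx)
      one_mem' := by simp
      add_mem' := fun {c d} a b x hx => by
        have := mul_mem (a x hx) (b x hx)
        rwa [tv_smul, tv_smul, tv_add, ← add_mul, ← CharTwo.add_sq, ← tv_smul] at this
      zero_mem' := by simp [U.zero]
      neg_mem' := fun a => by rwa [CharTwo.neg_eq] }
  let K : Subfield F := { R with
    inv_mem' := fun x hx => by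
      by_cases x0 : x = 0
      · rwa [x0, _root_.inv_zero, ← x0]
      · rw [show x⁻¹ = x ^ (Fintype.card F - 2) from (eq_inv_of_mul_eq_one_left (by
          rw [← pow_succ, show Fintype.card F - 2 + 1 = Fintype.card F - 1 by have := Fintype.one_lt_card (α := F); omega,
            FiniteField.pow_card_sub_one_eq_one x x0])).symm]
        exact R.pow_mem hx _ }
  have mK : ∀ {c x}, x ≠ 0 → U P x → U P (c • x) → c ∈ K := fun x0 hx hc y hy => by
    by_cases y0 : y = 0
    · simp [y0, U.zero]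
    obtain ⟨g, hg, rfl⟩ := tr h hx x0 hy y0
    simpa only [mulVec_smul] using cj h hg hc
  have cK := mK u0 hu hc
  have c2 : 1 + c ≠ 0 := fun e => c1' (CharTwo.add_eq_zero.1 e).symm
  have sm : ∀ (c : F) x, U P x → U P (c • x) := fun d => (real h hr u0 hu (K := K) fun x y hx hy => by
    by_cases a0 : fm x y = 0
    · simp [a0]
    have := c3 h hx hy (cK _ (c1 h hx hy)) a0 (by simp [*]) (by simp [fs y x, *])
    replace : U P ((1 + (1 + c) / (c * fm x y)) • x) := by
      rw [U]; convert this using 1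
      refine gl_ext fun t => ?_
      simp only [tv_mv, fm_add_l, fm_add_r, fm_smul_l, fm_smul_r, fm_self, fs y x]
      match_scalars <;> field_simp <;> ring_nf <;> reduce_mod_char! <;> ring
    have := div_mem (add_mem (one_mem K) cK) (mul_mem cK (sub_mem (mK (by rintro rfl; simp at a0) hx this) (one_mem K)))
    convert this using 1
    rw [add_sub_cancel_left]; field_simp).ge trivial
  have s2 : ∀ {x y} (c : F), U P x → U P y → fm x y ≠ 0 → U P (x + c • y) := fun {x y} c hx hy e => by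
    obtain ⟨r, e'⟩ := ex_sq (c / fm x y)
    convert c1 h hx (sm r y hy) using 2
    rw [fm_smul_r, smul_smul, mul_right_comm, ← sq, e', div_mul_cancel₀ _ e]
  have s3 : ∀ {x y w} (c d : F), U P x → U P y → U P w → fm w x ≠ 0 → fm w y ≠ 0 → fm x y = 0 →
      fm w (c • x + d • y) ≠ 0 → U P (c • x + d • y) := fun {x y w} c d hx hy hw h1 h3 h4 h5 => by
    have := s2 (-1) (s2 d (s2 c hw hx h1) hy (by simpa [h4])) hw (by rwa [add_assoc, fm_add_l, fm_self, zero_add, fs])
    convert this using 1; module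
  refine top h u0 hu (fun x y hx hy => ?_) sm
  by_cases k : fm x y = 0
  swap
  · simpa using s2 1 hx hy k
  by_cases x0 : x = 0
  · simpa [x0]
  by_cases y0 : y = 0
  · simpa [y0]
  by_cases e : x + y = 0
  · exact e ▸ U.zero
  obtain ⟨w, hw, h1, h3⟩ := adj h hx x0 y0
  by_cases k1 : fm w (x + y) = 0
  swap
  · simpa using s3 1 1 hx hy hw h1 h3 k (by simpa using k1)
  obtain ⟨z, hz, h4, h5⟩ := adj h hx x0 e
  by_cases k2 : fm z y = 0
  swap
  · simpa using s3 1 1 hx hy hz h4 k2 k (by simpa using h5)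
  rw [fm_add_r, CharTwo.add_eq_zero] at k1
  have := s3 1 c hx hy hw h1 h3 k (by rw [fm_add_r, fm_smul_r, fm_smul_r, k1, ← add_mul]; simp [*])
  have e' : x + y = (1 - c⁻¹) • x + c⁻¹ • ((1 : F) • x + c • y) := by match_scalars <;> field_simp <;> ring
  exact e' ▸ s3 _ _ hx this hz h4 (by simpa [k2]) (by simp [k]) (e' ▸ h5)

variable (o : One P)
include o

theorem red (hu : U P u) (hv : U P v) (hx : U P x) (x0 : x ≠ 0) (a0 : fm u v ≠ 0) : ∃ κ α β : F, κ ≠ 0 ∧
    κ • x + α • u + β • v ≠ 0 ∧ U P (κ • x + α • u + β • v) ∧ fm (κ • x + α • u + β • v) u = 0 ∧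
    κ ^ 2 + α ^ 2 + β ^ 2 + κ * α * fm u x + κ * β * fm v x + α * β * fm u v = 1 := by
  by_cases b0 : fm u x = 0
  · exact ⟨1, 0, 0, by simp [fs x u, *]⟩
  by_cases c0 : fm v x = 0
  · have := cj h (c2 h hu hv a0) hx
    rw [tv_mv, smul_add, ← add_assoc, ← one_smul F x, fm_smul_l, one_mul] at this
    refine ⟨_, _, _, one_ne_zero, fun e => a0 ?_, this, ?_, ?_⟩
    · simpa [fs x v, fs x u, fs v u, c0, b0, a0] using congrArg (fm v) e
    · simp [fs x v, fs x u, fs v u, *]; field_simp; ring_nf; reduce_mod_char!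
    · simp [fs x v, fs x u, *]; field_simp; ring_nf; reduce_mod_char!
  obtain ⟨r, e, hr⟩ := U.of (c3 h hu hv hx a0 b0 c0)
  have r0 : r ≠ 0 := by rintro rfl; simp [*, @eq_comm F 0] at e
  have e1 : r • ((fm u v + fm u x) • u + fm u x • v + fm u v • x) =
    (r * fm u v) • x + (r * (fm u v + fm u x)) • u + (r * fm u x) • v := by module
  refine ⟨_, _, _, mul_ne_zero r0 a0, fun k => ?_, e1 ▸ hr, ?_, ?_⟩
  · obtain ⟨s, e2, hs⟩ := U.of (c2 h hu hv a0)
    obtain ⟨t, e3, ht⟩ := U.of (c2 h hu hx b0)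
    have s0 : s ≠ 0 := by rintro rfl; simp [*, @eq_comm F 0] at e2
    have t0 : t ≠ 0 := by rintro rfl; simp [*, @eq_comm F 0] at e3
    have e4 : u + x = (fm u x / fm u v) • (u + v) := by
      rw [← e1, smul_eq_zero, or_iff_right r0] at k
      rw [← add_zero (u + x), ← smul_zero (fm u v)⁻¹, ← k]
      match_scalars <;> field_simp <;> ring_nf <;> reduce_mod_char!
    have := o (s • (u + v)) (t * (fm u x / fm u v) / s) (fun e => by simpa [s0, a0] using congrArg (fm u) e) hs (by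
      rwa [smul_smul, div_mul_cancel₀ _ s0, mul_smul, ← e4])
    rw [or_iff_right (by simp [*]), div_eq_one_iff_eq s0] at this
    rw [← this, mul_pow, e3] at e2
    rw [show fm u x / fm u v = 1 by field_simp at e2 ⊢; exact e2, one_smul, add_right_inj] at e4
    simp [e4] at c0
  · simp [fs x u, fs v u]; ring_nf; reduce_mod_char!
  · rw [← mul_inv_cancel₀ (mul_ne_zero (mul_ne_zero a0 b0) c0), ← e]; ring_nf; reduce_mod_char!

theorem step {Y : Set (V6 F)} (d : Dn P Y) (hu : U P u) (h1 : ∀ y ∈ Y, fm u y = 0) (h2 : u ∉ span F Y) :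
    (∃ v, U P v ∧ (∀ y ∈ Y, fm v y = 0) ∧ fm u v ≠ 0) ∧ Dn P (insert u Y) ∧ (Gd P (insert u Y) → Gd P Y) := by
  obtain ⟨v, hv, h3, h4⟩ : ∃ v, U P v ∧ (∀ y ∈ Y, fm v y = 0) ∧ fm u v ≠ 0 := by
    by_contra! k
    exact h2 (d u fun x a b => fs u x ▸ k x a b)
  have h5 : ∀ y ∈ insert u Y, fm u y = 0 := by simpa
  refine ⟨⟨v, hv, h3, h4⟩, fun w k => mem_span_insert.2 ⟨fm v w / fm u v, w - _, d _ fun x hx h6 => ?_, (add_sub_cancel _ _).symm⟩,
    fun ⟨Q, hQ, k⟩ => ?_⟩
  · by_cases x0 : x = 0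
    · simp [x0]
    obtain ⟨κ, α, β, k0, -, k1, k2, -⟩ := red h o hu hv hx x0 h4
    have := k _ k1 (Set.forall_mem_insert.2 ⟨k2, fun y hy => by simp [h1 y hy, h3 y hy, h6 y hy]⟩)
    simp only [fm_add_l, fm_smul_l, fm_self, k u hu h5, fs v u] at this k2
    refine mul_left_cancel₀ k0 ?_
    rw [fm_sub_r, fm_smul_r]
    linear_combination this - fm v w / fm u v * k2 + β * div_mul_cancel₀ (fm v w) h4
  obtain ⟨Q', hQ', q1, q2⟩ := hQ.adj (fs u v ▸ h4)
  refine ⟨Q', hQ', fun x x0 hx h6 => ?_⟩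
  obtain ⟨κ, α, β, k0, k3, k1, k2, k4⟩ := red h o hu hv hx x0 h4
  have := (q2 _ k2).trans (k _ k3 k1 (Set.forall_mem_insert.2 ⟨k2, fun y hy => by simp [h1 y hy, h3 y hy, h6 y hy]⟩))
  simp only [hQ' _ _, QuadraticMap.map_smul, q1, q2 u (fm_self u), k u (by rintro rfl; simp at h4) hu h5, smul_eq_mul, fm_add_l,
    fm_smul_l, fm_smul_r, fs x] at this
  exact mul_left_cancel₀ (pow_ne_zero 2 k0) (by linear_combination this - k4)

omit o in
theorem d0 (u0 : u ≠ 0) (hu : U P u) : Dn P ∅ := fun w k => by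
  by_contra e
  obtain ⟨x, hx, -, a⟩ := adj h hu u0 (v := w) (by simpa using e)
  exact a (k x hx (by simp))

theorem d1 (u0 : u ≠ 0) (hu : U P u) : Dn P {u} := by
  simpa using (step h o (d0 h u0 hu) hu (by simp) (by simpa)).2.1

theorem ns (y0 : y ≠ 0) (hy : U P y) (x0 : x ≠ 0) (hx : U P x) (e : x ≠ y) : x ∉ span F {y} := fun k => by
  obtain ⟨c, rfl⟩ := mem_span_singleton.1 k
  rcases o y c y0 hy hx with rfl | rfl <;> simp at x0 e

theorem rule2 (x0 : x ≠ 0) (hx : U P x) (y0 : y ≠ 0) (hy : U P y) (e : x ≠ y) (f : fm x y = 0) (k : U P (a • x + b • y)) :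
    a = 0 ∧ b = 0 ∨ a + b = 1 ∨ a = 1 ∧ b = 1 := by
  have hf : ∀ {x y : V6 F} {a b : F}, x ≠ 0 → U P x → y ≠ 0 → U P y → x ≠ y → fm x y = 0 → U P (a • x + b • y) → a ≠ 0 → a ≠ 1 →
      a + b = 1 := fun {x y a b} x0 hx y0 hy e f k a0 a1 => by
    obtain ⟨v, hv, h1, h2⟩ := (step h o (d1 h o y0 hy) hx (by simpa) (ns h o y0 hy x0 hx e)).1
    have := v4 h hx hv k h2 (by simp [fs y x, f]) (by simp [fs y v, h1 y rfl]) a0 a1
    have a2 : 1 + a ≠ 0 := fun e => a1 (CharTwo.add_eq_zero.1 e).symm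
    obtain t | t := o y _ y0 hy (smul_smul (1 + a)⁻¹ b y ▸ this)
    · rw [mul_eq_zero, inv_eq_zero, or_iff_right a2] at t
      exact ((o x a x0 hx (by simpa [t] using k)).elim a0 a1).elim
    · rw [inv_mul_eq_one₀ a2] at t
      rw [← t, add_left_comm, CharTwo.add_self_eq_zero, add_zero]
  have := hf x0 hx y0 hy e f k
  have := hf y0 hy x0 hx e.symm (fs x y ▸ f) (add_comm (a • x) _ ▸ k)
  grind

end H23.S6
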