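/-
S5806: groups containing a transvection in characteristic two.
-/
import Cfsg.Agent.H23.S6b

set_option autoImplicit false
set_option linter.unusedSectionVars false

namespace H23.S6
open Matrix Cfsg Cfsg.Geo H27.Asch Module H6.SP H11.SP H4.SP Submodule

variable {F : Type*} [Field F] [Fintype F] [CharP F 2] {P : Subgroup (G6 F)} {u v w x y z : V6 F} {a b c : F}

/-- independent triples -/
def I3 (x y z : V6 F) : Prop := ∀ a b c : F, a • x + b • y + c • z = 0 → a = 0 ∧ b = 0 ∧ c = 0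

theorem I3.rot (i : I3 x y z) : I3 y z x := fun a b c e => by have := i c a b (by rw [← e]; abel); tauto
theorem I3.ne0 (i : I3 x y z) : x ≠ 0 := fun e => by simpa [e] using i 1 0 0
theorem I3.ne (i : I3 x y z) : x ≠ y := fun e => by simpa [e] using i 1 (-1) 0
theorem I3.ns (i : I3 x y z) : x ∉ span F {y, z} := fun e => by
  obtain ⟨a, b, e⟩ := mem_span_pair.1 e
  simpa using (i (-1) a b (by rw [← e]; module)).1

theorem perp_iff {Y : Set (V6 F)} : w ∈ (spΦ 3 F).perp (span F Y) ↔ ∀ y ∈ Y, fm w y = 0 :=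
  ⟨fun k y hy => k y (subset_span hy), fun k _ hy => (span_le (p := LinearMap.ker (fl w))).2 k hy⟩

theorem fp (W : Submodule F (V6 F)) : (W ≤ (spΦ 3 F).perp W → finrank F W ≤ 3) ∧ ((spΦ 3 F).perp W ≤ W → 3 ≤ finrank F W) := by
  have : finrank F W + finrank F ((spΦ 3 F).perp W : Submodule F (V6 F)) = 6 := (spΦ 3 F).finrank_perp W
  generalize (spΦ 3 F).perp W = X at *
  exact ⟨fun k => by have : finrank F W ≤ finrank F X := finrank_mono k; omega,
    fun k => by have : finrank F X ≤ finrank F W := finrank_mono k; omega⟩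

theorem lt_ins {Y : Set (V6 F)} (e : x ∉ span F Y) : finrank F (span F Y) < finrank F (span F (insert x Y)) :=
  finrank_lt_finrank_of_lt (lt_of_le_of_ne (span_mono (Set.subset_insert _ _)) fun k => e (k ▸ subset_span (Set.mem_insert _ _)))

variable (h : TG P) (o : One P)
include h o

section
variable (nt : ∀ x y, x ≠ 0 → y ≠ 0 → U P x → U P y → fm x y = 0 → U P (x + y) → x = y)
include nt

theorem rule3 (i : I3 x y z) (hx : U P x) (hy : U P y) (hz : U P z) (f1 : fm x y = 0) (f2 : fm y z = 0) (f3 : fm z x = 0)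
    (k : U P (a • x + b • y + c • z)) : a = 0 ∧ b = 0 ∧ c = 0 ∨ a + b + c = 1 := by
  have hf : ∀ {x y z : V6 F} {a b c : F}, I3 x y z → U P x → U P y → U P z → fm x y = 0 → fm y z = 0 → fm z x = 0 →
      U P (a • x + b • y + c • z) → (a ≠ 0 → a ≠ 1 → a + b + c = 1) ∧ ¬ (a = 0 ∧ b = 1 ∧ c = 1) := by
    refine fun {x y z a b c} i hx hy hz f1 f2 f3 k => ⟨fun a0 a1 => ?_, ?_⟩
    swap
    · rintro ⟨rfl, rfl, rfl⟩
      exact i.rot.ne (nt _ _ i.rot.ne0 i.rot.rot.ne0 hy hz f2 (by simpa using k))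
    obtain ⟨v, hv, h1, h2⟩ := (step h o (step h o (d1 h o i.rot.rot.ne0 hz) hy (by simpa) (ns h o i.rot.rot.ne0 hz i.rot.ne0 hy
      i.rot.ne)).2.1 hx (by simp [f1, fs x z, f3]) i.ns).1
    have := v4 h hx hv (add_assoc (a • x) _ _ ▸ k) h2 (by simp [fs y x, f1, f3])
      (by simp [fs y v, fs z v, h1 y (.inl rfl), h1 z (.inr rfl)]) a0 a1
    have a2 : 1 + a ≠ 0 := fun e => a1 (CharTwo.add_eq_zero.1 e).symm
    rw [smul_add, smul_smul, smul_smul] at this
    obtain ⟨t, t'⟩ | t | ⟨t, t'⟩ := rule2 h o i.rot.ne0 hy i.rot.rot.ne0 hz i.rot.ne f2 this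
    · simp only [mul_eq_zero, inv_eq_zero, a2, false_or] at t t'
      exact ((o x a i.ne0 hx (by simpa [t, t'] using k)).elim a0 a1).elim
    · rw [← mul_add, inv_mul_eq_one₀ a2] at t
      rw [add_assoc, ← t, add_left_comm, CharTwo.add_self_eq_zero, add_zero]
    · exact (i.rot.ne (nt _ _ i.rot.ne0 i.rot.rot.ne0 hy hz f2 (by simpa [t, t'] using this))).elim
  have h1 := hf i hx hy hz f1 f2 f3 k
  have h2 := hf (a := b) (b := c) (c := a) i.rot hy hz hx f2 f3 f1 (by convert k using 1; abel)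
  have h3 := hf (a := c) (b := a) (c := b) i.rot.rot hz hx hy f3 f1 f2 (by convert k using 1; abel)
  have := CharTwo.add_self_eq_zero (1 : F)
  grind

theorem good (u0 : u ≠ 0) (hu : U P u) : Gd P ∅ := by
  have ex : ∀ {Y : Set (V6 F)}, Dn P Y → finrank F (span F Y) < 3 → (∀ x ∈ Y, ∀ y ∈ Y, fm x y = 0) →
      ∃ x, U P x ∧ (∀ y ∈ Y, fm x y = 0) ∧ x ∉ span F Y := fun {Y} d r i => by
    by_contra! k
    have := (fp _).2 (show (spΦ 3 F).perp (span F Y) ≤ span F Y from fun w hw => d w fun x hx a => fs w x ▸ hw x (k x hx a))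
    omega
  obtain ⟨⟨v1, -, -, g1⟩, d1, e1⟩ := step h o (d0 h u0 hu) hu (by simp) (by simpa)
  have r1 : finrank F (span F (insert u ∅ : Set (V6 F))) = 1 := by rw [insert_empty_eq, finrank_span_singleton u0]
  obtain ⟨y, hy, f1, n1⟩ := ex d1 (by omega) (by simp)
  obtain ⟨⟨v2, -, g2, g3⟩, d2, e2⟩ := step h o d1 hy f1 n1
  have r2 : finrank F (span F (insert y (insert u ∅) : Set (V6 F))) < 3 := by
    classical
    have := (finrank_span_finset_le_card (R := F) {y, u}).trans Finset.card_le_two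
    rw [Set.finrank, Finset.coe_pair] at this
    rw [insert_empty_eq]; omega
  obtain ⟨z, hz, f2, n2⟩ := ex d2 r2 (by simpa [fs u y] using f1)
  obtain ⟨⟨v3, -, g4, g5⟩, -, e3⟩ := step h o d2 hz f2 n2
  have r3 := lt_ins n1
  have r4 := lt_ins n2
  simp only [insert_empty_eq, Set.mem_insert_iff, Set.mem_singleton_iff, forall_eq_or_imp, forall_eq] at *
  obtain ⟨Q, q⟩ := ex_pol (F := F)
  obtain ⟨Q, q, q1, -⟩ := q.adj g1
  obtain ⟨Q, q, q2, q3⟩ := q.adj g3
  obtain ⟨Q, q, q4, q5⟩ := q.adj g5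
  refine e1 (e2 (e3 ⟨Q, q, fun x x0 hx k => ?_⟩))
  simp only [Set.mem_insert_iff, Set.mem_singleton_iff, forall_eq_or_imp, forall_eq] at k
  have i : I3 z y u := fun a b c e => by
    have a0 : a = 0 := by simpa [fs y v3, fs u v3, g4, g5] using congrArg (fm · v3) e
    have b0 : b = 0 := by simpa [fs u v2, g2, g3, a0] using congrArg (fm · v2) e
    simpa [a0, b0, u0] using e
  obtain ⟨a, b, c, rfl⟩ : ∃ a b c : F, x = a • z + b • y + c • u := by
    have : x ∈ span F {z, y, u} := by_contra fun n => by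
      have := lt_ins n
      have := (fp _).1 (show span F {x, z, y, u} ≤ (spΦ 3 F).perp (span F {x, z, y, u}) from span_le.2 (by
        simp [Set.insert_subset_iff, perp_iff, fs z x, fs y x, fs u x, fs y z, fs u z, fs u y, *]))
      rw [insert_empty_eq] at r1 r3 r4
      omega
    obtain ⟨a, b, c, e⟩ := mem_span_triple.1 this
    exact ⟨a, b, c, e.symm⟩
  obtain ⟨rfl, rfl, rfl⟩ | t := rule3 h o nt i hz hy hu f2.1 f1 (fs z u ▸ f2.2) hx
  · simp at x0
  simp [q _ _, QuadraticMap.map_smul, q4, q5 y (fs y v3 ▸ g4.1), q5 u (fs u v3 ▸ g4.2), q2, q3 u (fs u v2 ▸ g2), q1, f1, f2]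
  linear_combination (a + b + c + 1) * t - (a * b + a * c + b * c) * CharTwo.two_eq_zero (R := F)
end

theorem caseB (hr : Fld P) (u0 : u ≠ 0) (w0 : w ≠ 0) (hu : U P u) (hw : U P w) (f : fm u w = 0) (k : U P (u + w)) (e : u ≠ w) :
    S6 F ≤ P := by
  have g3 : ∀ {u w x}, U P u → U P w → fm u w = 0 → U P (u + w) → U P x → U P (x + fm x w • u + fm x u • w) :=
    fun {u w x} hu hw f k hx => by
      convert c1 h (c1 h (c1 h hx hu) hw) k using 1
      simp only [fm_add_l, fm_add_r, fm_smul_l, fm_self, fs w u, f]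
      match_scalars <;> ring_nf <;> reduce_mod_char!
  have tp : ∀ x ≠ 0, U P x → ∃ w ≠ 0, U P w ∧ fm x w = 0 ∧ U P (x + w) ∧ x ≠ w := fun x x0 hx => by
    obtain ⟨g, hg, rfl⟩ := tr h hu u0 hx x0
    have i : ∀ {a b}, g.val *ᵥ a = g.val *ᵥ b → a = b := fun e => by simpa using congrArg ((g⁻¹).val *ᵥ ·) e
    exact ⟨_, fun e => w0 (i (by simpa using e)), cj h hg hw, (mem_S6.1 (h.sp hg) _ _).trans f, mulVec_add g.val _ _ ▸ cj h hg k,
      fun e' => e (i e')⟩
  have p : ∀ x y, U P y → U P x → fm y x = 0 ∨ fm y x = 1 := fun u v hv hu => by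
    refine or_iff_not_imp_left.2 fun a0 => ?_
    have u0 : u ≠ 0 := by rintro rfl; simp at a0
    have v0 : v ≠ 0 := by rintro rfl; simp at a0
    have q : ∀ w ≠ 0, U P w → fm u w = 0 → U P (u + w) → fm v w = 0 → fm v u = 1 := fun w w0 hw f k b0 => by
      have := g3 hu hw f k hv
      rw [b0, zero_smul, add_zero, ← one_smul F v, fm_smul_l, one_mul] at this
      simpa [a0] using rule2 h o v0 hv w0 hw (by rintro rfl; exact a0 (fs u v ▸ f)) b0 this
    obtain ⟨w, w0, hw, f, k, e⟩ := tp u u0 hu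
    by_cases b0 : fm v w = 0
    · exact q w w0 hw f k b0
    by_cases c0 : fm v (u + w) = 0
    · exact q _ (fun t => e (by rw [← add_zero u, ← vv w, ← add_assoc, t, zero_add])) k (by simp [f])
        (by rwa [← add_assoc, vv, zero_add]) c0
    have := cj h (c2 h hv hu a0) (g3 hu hw f k hv)
    rw [add_assoc, mulVec_add, sw_l a0, sw_o (by simp [fs u v, fs w v, mul_comm, CharTwo.add_self_eq_zero]) (by simp [fs w u, f]),
      ← add_assoc, ← one_smul F u, smul_smul, ← add_smul, fm_smul_r, mul_one, one_mul] at this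
    obtain ⟨-, t⟩ | t | ⟨t, -⟩ := rule2 h o u0 hu w0 hw e f this
    · exact absurd t a0
    · exact absurd (by rw [fm_add_r]; linear_combination t) c0
    · exact absurd (by linear_combination t) b0
  let K : Subfield F := ⊥
  have hK := real h hr u0 hu (K := ⊥) fun x y a b => by rcases p y x a b with e | e <;> simp [e]
  have c01 : ∀ c : F, c = 0 ∨ c = 1 := fun c => by
    have : c ∈ (⊥ : Subfield F) := hK.ge trivial
    rw [← Subfield.closure_empty] at this
    induction this using Subfield.closure_induction with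
    | mem _ a => exact a.elim
    | one => simp
    | add _ _ _ _ a b => rcases a with rfl | rfl <;> rcases b with rfl | rfl <;> simp [CharTwo.add_self_eq_zero]
    | neg _ _ a => rwa [CharTwo.neg_eq]
    | inv _ _ a => rcases a with rfl | rfl <;> simp
    | mul _ _ _ _ a b => rcases a with rfl | rfl <;> simp [b]
  refine top h u0 hu (fun x u hx hu => ?_) fun c x hx => by rcases c01 c with rfl | rfl <;> simp [hx, U.zero]
  obtain f | f := c01 (fm x u)
  swap
  · simpa [f] using c1 h hx hu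
  by_cases u0 : u = 0
  · simpa [u0]
  by_cases x0 : x = 0
  · simpa [x0]
  by_contra n
  have T : ∀ {w y}, U P w → fm u w = 0 → U P (u + w) → U P y → fm y u = 0 → ¬ U P (y + u) → fm y w = 0 :=
    fun {w y} hw f k hy g n => (c01 _).resolve_right fun e => n (by simpa [e, g] using g3 hu hw f k hy)
  have D : ∀ {x}, x ≠ 0 → U P x → x ≠ u → ∃ z, U P z ∧ fm z u = 0 ∧ fm z x ≠ 0 := fun x0 hx e => by
    by_contra! k
    exact ns h o u0 hu x0 hx e (d1 h o u0 hu _ fun z hz a => k z hz (a u rfl))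
  obtain ⟨v, hv, a1, a2⟩ := adj h hu u0 x0
  replace a1 := (c01 _).resolve_left a1
  replace a2 := (c01 _).resolve_left a2
  obtain ⟨w, w0, hw, f', k, e, b⟩ : ∃ w ≠ 0, U P w ∧ fm u w = 0 ∧ U P (u + w) ∧ u ≠ w ∧ fm v w = 0 := by
    obtain ⟨w, w0, hw, f, k, e⟩ := tp u u0 hu
    obtain b | b := c01 (fm v w)
    · exact ⟨w, w0, hw, f, k, e, b⟩
    exact ⟨u + w, fun t => e (by rw [← add_zero u, ← vv w, ← add_assoc, t, zero_add]), k, by simp [f],
      by rwa [← add_assoc, vv, zero_add], by simpa, by simp [a1, b, CharTwo.add_self_eq_zero]⟩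
  have xw := T hw f' k hx f n
  have hy : U P (x + w) := by
    have a : U P (v + x) := by simpa [a2] using c1 h hv hx
    have b : U P (v + u) := by simpa [a1] using c1 h hv hu
    convert c1 h (c1 h k a) b using 1
    simp only [fm_add_l, fm_add_r, fm_smul_l, fm_self, fs u v, fs w v, fs u x, fs w x, fs x v, fs w u, *]
    match_scalars <;> ring_nf <;> reduce_mod_char!
  obtain ⟨z, hz, z1, z2⟩ := D x0 hx (by rintro rfl; exact n (vv x ▸ U.zero))
  obtain ⟨t, ht, t1, t2⟩ := D w0 hw e.symm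
  have n1 : ¬ U P (z + u) := fun k => z2 (fs x z ▸ T hz (fs z u ▸ z1) (add_comm z u ▸ k) hx f n)
  have n2 : U P (t + u) := by_contra fun n => t2 (T hw f' k ht t1 n)
  have yu : fm (x + w) u = 0 := by simp [f, fs w u, f']
  by_cases n3 : U P (x + w + u)
  · simpa [z2, T hw f' k hz z1 n1] using T hy (fs u _ ▸ yu) (add_comm u _ ▸ n3) hz z1 n1
  · simpa [fs w t, t2, T ht (fs t u ▸ t1) (add_comm t u ▸ n2) hx f n] using T ht (fs t u ▸ t1) (add_comm t u ▸ n2) hy yu n3

omit h o

universe u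

theorem tv_val (u : V6 F) : (tv u 1).val = 1 + E u u := ext_mulVec fun x => by simp [add_mulVec, E_mv, tv_mv]

theorem uv_iff : Uv P u ↔ u ≠ 0 ∧ U P u :=
  and_congr_right' ⟨fun ⟨g, hg, e⟩ => by rwa [U, ← (Units.ext (e.trans (tv_val u).symm) : g = _)], fun k => ⟨_, k, tv_val u⟩⟩

theorem ind {G : Type*} [Group G] {π : P →* G} (r : Rq P π) (u0 : u ≠ 0) (hu : U P u) (X : G6 F → Prop) (a : X 1)
    (b : ∀ g h, X g → X h → X (g * h)) (c : ∀ u, U P u → X (tv u 1)) : ∀ g ∈ P, X g := fun g hg => by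
  have := r.simp
  have m : (-1 : G6 F) = 1 := Units.ext (by ext i j; simp [CharTwo.neg_eq])
  have := (MulEquiv.ofBijective π ⟨(injective_iff_map_eq_one _).2 fun x k => Subtype.ext (by simpa [m] using (r.ker x).1 k),
    r.sur⟩).isSimpleGroup
  have gen : Subgroup.closure {g : P | ∃ u, g.1 = tv u 1} = ⊤ := by
    refine (Subgroup.Normal.eq_bot_or_eq_top ⟨fun x hx y => (Subgroup.closure_le ((Subgroup.closure _).comap
      (MulAut.conj y).toMonoidHom)).2 ?_ hx⟩).resolve_left fun k => u0 (tv_inj ?_)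
    · rintro x ⟨u, e⟩
      exact Subgroup.subset_closure ⟨_, by rw [← tv_conj (r.sp y.2), ← e]; rfl⟩
    · exact (congrArg Subtype.val (Subgroup.mem_bot.1 (k ▸ Subgroup.subset_closure ⟨u, rfl⟩ : (⟨_, hu⟩ : P) ∈ _))).trans
        (tv_zero' 1).symm
  have : (⟨g, hg⟩ : P) ∈ Subgroup.closure _ := gen.ge trivial
  refine Subgroup.closure_induction'' (p := fun g _ => X g.1) ?_ ?_ a (fun _ _ _ _ => b _ _) this
  · rintro ⟨_, m⟩ ⟨u, rfl⟩; exact c u m
  · rintro ⟨_, m⟩ ⟨u, rfl⟩
    exact (congrArg X (inv_eq_of_mul_eq_one_right (tv_sq u 1))).mpr (c u m)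

theorem tg2 {G : Type*} [Group G] {π : P →* G} (r : Rq P π) (u0 : u ≠ 0) (hu : U P u) : TG P :=
  ⟨r.sp, irr_of_alg r.top, fun A hA => ind r u0 hu _ (by simp)
    (fun g h a b x hx => by rw [Units.val_mul, ← mulVec_mulVec]; exact a _ (b x hx)) fun u m x hx => by
      by_cases u0 : u = 0
      · simpa [u0, tv_mv]
      · exact tv_mv u 1 x ▸ hA u 1 ⟨u0, 1, one_ne_zero, m⟩ m x hx⟩

theorem tv_all : Vl.{u} fun F _ P => S6 F ≤ P := by
  rintro F G _ _ _ _ P π r hr ⟨u, hu⟩
  obtain ⟨u0, hu⟩ := uv_iff.1 hu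
  have h := tg2 r u0 hu
  by_cases o : One P
  swap
  · simp only [One, not_forall, not_or] at o
    obtain ⟨u, c, u0, hu, hc, c0, c1⟩ := o
    exact caseA h hr u0 hu hc c0 c1
  by_contra n
  obtain ⟨Q, q, k⟩ := good h o (fun x y x0 y0 hx hy f k => by_contra fun e => n (caseB h o hr x0 y0 hx hy f k e)) u0 hu
  have pl : ∀ x y, QuadraticMap.polar Q x y = fm x y := fun x y => by rw [QuadraticMap.polar, q]; ring
  have le : P ≤ isometryGroup F Q := ind r u0 hu _ (one_mem _) (fun _ _ => mul_mem) fun u m x _ => by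
    change Q ((tv u 1).val *ᵥ x) = Q x
    by_cases u0 : u = 0
    · simp [u0, tv_mv]
    · simp [tv_mv, q _ _, QuadraticMap.map_smul, k u u0 m (by simp), add_assoc, CharTwo.add_self_eq_zero]
  let χ := (H12.dickson Q).comp ((H12.orthEquiv Q).toMonoidHom.comp (Subgroup.inclusion le))
  have : χ ⟨_, hu⟩ = 1 := Abelianization.commutator_subset_ker χ ((comm_top r).ge trivial)
  have e : H12.orthEquiv Q ⟨_, le hu⟩ = H12.refl Q u := H12.orth_ext fun x => by
    rw [H12.orthEquiv_apply, H12.refl_apply, tv_mv, k u u0 hu (by simp), pl, inv_one, fs u x, sub_eq_add_neg, ← neg_smul, CharTwo.neg_eq]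
  have := (this.symm.trans (congrArg (H12.dickson Q) e)).trans (H12.dickson_refl (fun x a => fm_nd fun y => (pl x y).symm.trans (a y))
    (.inr (by simp)) (by simp [k u u0 hu]))
  exact absurd this (by decide)

theorem uv_all (k : S6 F ≤ P) (u0 : u ≠ 0) : Uv P u := uv_iff.2 ⟨u0, k (tv_S6 u 1)⟩

theorem tva : TVa.{u} := fun F G _ _ _ _ P π r hr x _ _ => tv_all F G P π r hr x
theorem tvc : TVc.{u} := fun F G _ _ _ _ P π r hr x _ _ _ _ _ => tv_all F G P π r hr x
theorem tvb : TVb.{u} := fun F G _ _ _ _ P π r hr x _ _ _ _ =>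
  have k := tv_all F G P π r hr x
  ⟨Pi.single (.inl 0) 1, Pi.single (.inl 1) 1, uv_all k (by simp), uv_all k (by simp),
    uv_all k fun e => by simpa using congrFun e (.inl 0), by simp [fm_ap]⟩
theorem tv4 : TV4.{u} := fun F G _ _ _ _ P π r hr x _ _ _ _ _ _ _ _ _ _ _ _ a1 z0 =>
  uv_all (tv_all F G P π r hr x) (smul_ne_zero (inv_ne_zero fun e => a1 (CharTwo.add_eq_zero.1 e).symm) z0)
theorem tv3 : TV3.{u} := fun F G _ _ _ _ P π r hr x _ _ u v w _ _ _ f n => by
  have k : w - (fm w u / fm u v) • v ∉ span F {u} := fun k => by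
    obtain ⟨c, e⟩ := mem_span_singleton.1 k
    exact n (mem_span_pair.2 ⟨c, _, by rw [e, sub_add_cancel]⟩)
  exact ⟨_, uv_all (tv_all F G P π r hr x) fun e => k (by simp [e]),
    sub_mem (subset_span (by simp)) (smul_mem _ _ (subset_span (by simp))), by simp [fs v u, f], k⟩
theorem tv0 : TV0.{u} := fun F G _ _ _ _ P π r hr ⟨u, x⟩ => by
  obtain ⟨u0, hu⟩ := uv_iff.1 x
  have h := tg2 r u0 hu
  simp only [V0, uv_iff]
  refine ⟨fun u w a b => tr h a.2 a.1 b.2 b.1, eq_top_iff.2 fun w _ => ?_, ind r u0 hu _ (one_mem _) (fun _ _ => mul_mem) fun v m => ?_,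
    fun u w a b f => ⟨_, c2 h a.2 b.2 f, sw_l f, sw_r f, fun v => sw_o⟩⟩
  · by_cases w0 : w = 0
    · simp [w0]
    · exact subset_span (uv_iff.1 (uv_all (tv_all F G P π r hr ⟨u, x⟩) w0))
  · by_cases v0 : v = 0
    · rw [v0, tv_zero']; exact one_mem _
    · exact Subgroup.subset_closure ⟨v, ⟨v0, m⟩, tv_val v⟩

end H23.S6
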