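import Cfsg.Agent.H23.SchurMeta
import Mathlib.GroupTheory.SpecificGroups.Dihedral

/-! Schur multipliers of dihedral groups. -/

set_option autoImplicit false

namespace H23

open Subgroup Cfsg DihedralGroup

theorem dihedral_gen (n : ℕ) [NeZero n] : closure {(r 1 : DihedralGroup n), sr 0} = ⊤ := by
  rw [eq_top_iff]
  have h1 : ∀ i : ZMod n, r i ∈ closure {(r 1 : DihedralGroup n), sr 0} := by
    intro i
    have : r i = (r 1 : DihedralGroup n) ^ i.val := by rw [r_one_pow, ZMod.natCast_zmod_val]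
    rw [this]; exact pow_mem (Subgroup.subset_closure (by simp)) _
  rintro (i | i) -
  · exact h1 i
  · have : sr i = (sr 0 : DihedralGroup n) * r i := by simp
    rw [this]; exact mul_mem (Subgroup.subset_closure (by simp)) (h1 i)

theorem hasSchur_dihedral (n : ℕ) [NeZero n] :
    HasCyclicSchurMultiplier (DihedralGroup n) (Nat.gcd n 2) := by
  have hn : 0 < n := Nat.pos_of_ne_zero (NeZero.ne n)
  obtain ⟨k, rfl⟩ : ∃ k, n = k + 1 := ⟨n - 1, by omega⟩
  refine hasSchur_metacyclic (dihedral_gen (k + 1)) (n := 2) (r := 2 * k + 1) (t := 0)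
    two_pos (by omega) ?_ ?_ ?_ ?_
  · rw [r_one_pow, inv_sr, sr_mul_r, sr_mul_sr]
    congr 1
    have : ((k + 1 : ℕ) : ZMod (k + 1)) = 0 := ZMod.natCast_self _
    push_cast at this ⊢
    linear_combination (-2) * this
  · rw [pow_zero, sq, sr_mul_self]
  · rintro j ⟨i, hi⟩
    by_contra hj
    obtain ⟨c, rfl⟩ : ∃ c, j = 2 * c + 1 := ⟨j / 2, by omega⟩
    have h2 : (sr 0 : DihedralGroup (k + 1)) ^ (2 : ℤ) = 1 := by
      rw [zpow_two, sr_mul_self]
    rw [zpow_add, zpow_mul, h2, one_zpow, one_mul, zpow_one] at hi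
    simp only [r_one_zpow] at hi
    cases hi
  · rw [orderOf_r_one, Nat.add_sub_cancel]
    have h1 : Nat.gcd (k + 1) (2 * k) = Nat.gcd (k + 1) 2 := by
      have : Nat.Coprime (k + 1) k := by simp
      rw [Nat.gcd_comm, Nat.gcd_comm (k + 1), this.symm.gcd_mul_right_cancel]
    rw [h1, Nat.mul_div_cancel' (Nat.gcd_dvd_left _ _), Nat.gcd_zero_left]
    have : ∑ i ∈ Finset.range 2, (2 * k + 1) ^ i = (k + 1) * 2 := by
      simp [Finset.sum_range_succ]; ring
    rw [this, Nat.gcd_mul_right_right]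

end H23
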