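import Cfsg.Agent.H23.Schur2
import Mathlib.LinearAlgebra.Matrix.GeneralLinearGroup.Basic

/-! Schur covers and projective representations. -/

set_option autoImplicit false

namespace H23

open Subgroup Cfsg

universe u v w

/-- a linear character of the central kernel is afforded by scalars in some representation -/
theorem exists_rep_scalar {Γ Q : Type*} [Group Γ] [Group Q] [Finite Q] (σ : Γ →* Q)
    (hσ : Function.Surjective σ) (hc : σ.ker ≤ center Γ) (l : σ.ker →* ℂˣ) :
    ∃ ρ : Γ →* GL (Fin (Nat.card Q)) ℂ,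
      ∀ a : σ.ker, ρ a = Matrix.GeneralLinearGroup.scalar _ (l a) := by
  classical
  let e : Q ≃ Fin (Nat.card Q) := Finite.equivFin Q
  choose s₀ hs₀ using hσ
  let s : Fin (Nat.card Q) → Γ := fun i => s₀ (e.symm i)
  have hs : ∀ i, σ (s i) = e.symm i := fun i => hs₀ _
  let L : Γ → ℂ := fun g => if h : g ∈ σ.ker then (l ⟨g, h⟩ : ℂ) else 0
  have hL : ∀ u v, v ∈ σ.ker → L (u * v) = L u * L v := by
    intro u v hv
    by_cases hu : u ∈ σ.ker
    · simp only [L, dif_pos hu, dif_pos hv, dif_pos (mul_mem hu hv)]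
      rw [← Units.val_mul, ← map_mul]; rfl
    · have : u * v ∉ σ.ker := fun h => hu (by simpa using mul_mem h (inv_mem hv))
      simp only [L, dif_neg hu, dif_neg this, zero_mul]
  have hL0 : ∀ g, g ∉ σ.ker → L g = 0 := fun g h => by simp only [L, dif_neg h]
  have hmem : ∀ i j x, (s i)⁻¹ * x * s j ∈ σ.ker ↔ i = e (σ x * e.symm j) := by
    intro i j x
    rw [MonoidHom.mem_ker, map_mul, map_mul, map_inv, hs, hs, mul_assoc, inv_mul_eq_one,
      Equiv.symm_apply_eq]
  have hker : ∀ (a : σ.ker), (Matrix.of fun i j => L ((s i)⁻¹ * a * s j)) =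
      Matrix.scalar (Fin (Nat.card Q)) (l a : ℂ) := by
    intro a
    ext i j
    rw [Matrix.of_apply, Matrix.scalar_apply, Matrix.diagonal_apply]
    split_ifs with h
    · subst h
      rw [mem_center_iff.1 (hc a.2) (s i)⁻¹, inv_mul_cancel_right]
      simp only [L, dif_pos a.2]
    · apply hL0
      rw [hmem, (show σ a = 1 from a.2), one_mul, Equiv.apply_symm_apply]
      exact h
  let M : Γ →* Matrix (Fin (Nat.card Q)) (Fin (Nat.card Q)) ℂ :=
    { toFun := fun x => Matrix.of fun i j => L ((s i)⁻¹ * x * s j)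
      map_one' := by
        have := hker 1
        rw [map_one, Units.val_one, map_one] at this
        exact this
      map_mul' := fun x y => by
        ext i j
        rw [Matrix.mul_apply, Finset.sum_eq_single (e (σ y * e.symm j))]
        · simp only [Matrix.of_apply]
          rw [← hL _ _ ((hmem _ _ _).2 rfl)]
          congr 1; group
        · intro k _ hk
          simp only [Matrix.of_apply]
          rw [hL0 _ (fun h => hk ((hmem _ _ _).1 h)), mul_zero]
        · intro h; exact absurd (Finset.mem_univ _) h }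
  exact ⟨M.toHomUnits, fun a => Units.ext (hker a)⟩

theorem scalar_injective {n : ℕ} (hn : 0 < n) :
    Function.Injective (Matrix.GeneralLinearGroup.scalar (R := ℂ) (Fin n)) := by
  intro u v h
  have := congrArg (fun g : GL (Fin n) ℂ => g.val ⟨0, hn⟩ ⟨0, hn⟩) h
  exact Units.ext (by simpa using this)

/-- if all projective representations lift to the stem extension `σ`, then any stem extension
over it is injective -/
theorem ker_eq_bot_of_lift {Q Γ Γ₀ : Type*} [Group Q] [Finite Q] [Group Γ] [Group Γ₀]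
    {σ : Γ →* Q} {β : Γ₀ →* Γ} (h₀ : IsStemExtension (σ.comp β))
    (hlift : ∀ (n : ℕ) (γ : Q →* (GL (Fin n) ℂ ⧸ center (GL (Fin n) ℂ))),
      ∃ ρ : Γ →* GL (Fin n) ℂ, (QuotientGroup.mk' (center (GL (Fin n) ℂ))).comp ρ = γ.comp σ) :
    β.ker = ⊥ := by
  haveI := finite_of_stem h₀
  letI : CommGroup (σ.comp β).ker := centralCommGroup _ h₀.2.1
  rw [eq_bot_iff]
  intro x hx
  have hx' : x ∈ (σ.comp β).ker := by
    show σ (β x) = 1
    rw [(show β x = 1 from hx), map_one]
  by_contra hne
  obtain ⟨l, hl⟩ := CommGroup.exists_apply_ne_one_of_hasEnoughRootsOfUnity (σ.comp β).ker ℂ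
    (a := ⟨x, hx'⟩) (fun h => hne (congrArg Subtype.val h))
  obtain ⟨ρ₀, hρ₀⟩ := exists_rep_scalar (σ.comp β) h₀.1 h₀.2.1 l
  let γ : Q →* _ := (σ.comp β).liftOfSurjective h₀.1
    ⟨(QuotientGroup.mk' (center (GL (Fin (Nat.card Q)) ℂ))).comp ρ₀, fun a ha => by
      rw [MonoidHom.mem_ker, MonoidHom.comp_apply, QuotientGroup.mk'_apply,
        QuotientGroup.eq_one_iff, Matrix.GeneralLinearGroup.center_eq_range_scalar]
      exact ⟨_, (hρ₀ ⟨a, ha⟩).symm⟩⟩
  obtain ⟨ρ, hρ⟩ := hlift _ γ
  have h1 : (QuotientGroup.mk' (center (GL (Fin (Nat.card Q)) ℂ))).comp (ρ.comp β) =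
      (QuotientGroup.mk' (center (GL (Fin (Nat.card Q)) ℂ))).comp ρ₀ := by
    rw [← MonoidHom.comp_assoc, hρ, MonoidHom.comp_assoc]
    exact MonoidHom.liftOfRightInverse_comp _ _ _ _
  have h2 := lift_eq_of_mem_commutator _ (by rw [QuotientGroup.ker_mk']) h1 (h₀.2.2 hx')
  rw [MonoidHom.comp_apply, (show β x = 1 from hx), map_one, hρ₀ ⟨x, hx'⟩,
    ← map_one (Matrix.GeneralLinearGroup.scalar (R := ℂ) (Fin (Nat.card Q)))] at h2
  exact hl (scalar_injective Nat.card_pos h2).symm

end H23
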