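import Cfsg.Agent.H23.Schur2

/-! The transfer (corestriction/restriction pair) for Schur multipliers. -/

set_option autoImplicit false

namespace H23

open Subgroup Cfsg
open scoped commutatorElement

universe u v w

section

variable {F G : Type*} [Group F] [Group G] (π : F →* G) (U : Subgroup G)

/-- class of `g⁻¹ r g` in `F_U / [R, F_U]` -/
def conjCls (g : F) : π.ker →* (hpi (resExt π U)).ker where
  toFun r := ⟨((⟨g⁻¹ * r * g, by
      show π _ ∈ U
      rw [map_mul, map_mul, (show π r = 1 from r.2), mul_one, map_inv, inv_mul_cancel]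
      exact one_mem _⟩ : U.comap π) : HE (resExt π U)), by
    apply Subtype.ext
    show π (g⁻¹ * r * g) = 1
    rw [map_mul, map_mul, (show π r = 1 from r.2), mul_one, map_inv, inv_mul_cancel]⟩
  map_one' := by
    apply Subtype.ext
    show QuotientGroup.mk _ = QuotientGroup.mk 1
    congr 1; apply Subtype.ext; simp
  map_mul' r s := by
    apply Subtype.ext
    show QuotientGroup.mk _ = QuotientGroup.mk (_ * _)
    congr 1; apply Subtype.ext
    show g⁻¹ * (r * s) * g = g⁻¹ * r * g * (g⁻¹ * s * g)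
    group

theorem conjCls_mul (g : F) (u : U.comap π) (r : π.ker) :
    conjCls π U (g * u) r = conjCls π U g r := by
  apply Subtype.ext
  have h := mem_center_iff.1 (hpi_ker_le _ (conjCls π U g r).2) (u : HE (resExt π U))
  have h2 : (conjCls π U (g * u) r : HE (resExt π U)) =
      (u : HE (resExt π U))⁻¹ * (conjCls π U g r * u) := by
    show QuotientGroup.mk _ = QuotientGroup.mk (u⁻¹ * (_ * u))
    congr 1; apply Subtype.ext
    show (g * u)⁻¹ * r * (g * u) = (u : F)⁻¹ * (g⁻¹ * r * g * u)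
    group
  rw [h2, ← h, inv_mul_cancel_left]

theorem conjCls_conj (g h : F) (r : π.ker) :
    conjCls π U g ⟨h⁻¹ * r * h, (MonoidHom.normal_ker π).conj_mem' _ r.2 h⟩ =
      conjCls π U (h * g) r := by
  apply Subtype.ext
  show QuotientGroup.mk _ = QuotientGroup.mk _
  congr 1; apply Subtype.ext
  show g⁻¹ * (h⁻¹ * r * h) * g = (h * g)⁻¹ * r * (h * g)
  group

end

/-- naive transfer formula -/
theorem exists_transfer_hom {F C : Type*} [Group F] [CommGroup C] (H : Subgroup F)
    [Fintype (F ⧸ H)] (ϕ : H →* C) : ∃ V : F →* C, ∀ g, V g = ∏ q : F ⧸ H,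
      ϕ ⟨(g • q).out⁻¹ * g * q.out, by
        rw [mul_assoc, ← QuotientGroup.eq, QuotientGroup.out_eq', ← smul_eq_mul,
          ← MulAction.Quotient.smul_mk, QuotientGroup.out_eq']⟩ := by
  refine ⟨MonoidHom.mk' (fun g => ∏ q : F ⧸ H, ϕ ⟨(g • q).out⁻¹ * g * q.out, _⟩) fun g h => ?_,
    fun _ => rfl⟩
  rw [← Equiv.prod_comp (MulAction.toPerm h) (fun q : F ⧸ H => ϕ ⟨(g • q).out⁻¹ * g * q.out, _⟩),
    ← Finset.prod_mul_distrib]
  refine Finset.prod_congr rfl fun q _ => ?_
  rw [← map_mul]
  congr 1; apply Subtype.ext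
  show ((g * h) • q).out⁻¹ * (g * h) * q.out =
    (g • h • q).out⁻¹ * g * (h • q).out * ((h • q).out⁻¹ * h * q.out)
  rw [mul_smul]; group

theorem exists_transfer_pair_HM {F G : Type*} [Group F] [Group G] [Finite G] (π : F →* G)
    (hπ : Function.Surjective π) (U : Subgroup G) :
    ∃ (t : HM π →* HM (resExt π U)) (j : HM (resExt π U) →* HM π),
      ∀ a, j (t a) = a ^ U.index := by
  classical
  haveI : (U.comap π).FiniteIndex := ⟨by
    rw [index_comap_of_surjective _ hπ]; exact FiniteIndex.index_ne_zero⟩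
  haveI : Fintype (F ⧸ U.comap π) := Fintype.ofFinite _
  letI : CommGroup (hpi (resExt π U)).ker := centralCommGroup _ (hpi_ker_le _)
  letI : CommGroup (hpi π).ker := centralCommGroup _ (hpi_ker_le _)
  let t₀ : π.ker →* (hpi (resExt π U)).ker := ∏ q : F ⧸ U.comap π, conjCls π U q.out
  have ht₀ : ∀ r, t₀ r = ∏ q : F ⧸ U.comap π, conjCls π U q.out r := fun r =>
    MonoidHom.finsetProd_apply _ _ _
  have hconj : ∀ (h : F) (r : π.ker),
      t₀ ⟨h⁻¹ * r * h, (MonoidHom.normal_ker π).conj_mem' _ r.2 h⟩ = t₀ r := by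
    intro h r
    rw [ht₀, ht₀, ← Equiv.prod_comp (MulAction.toPerm h)
      (fun q : F ⧸ U.comap π => conjCls π U q.out r)]
    refine Finset.prod_congr rfl fun q _ => ?_
    rw [conjCls_conj]
    obtain ⟨u, hu⟩ := QuotientGroup.mk_out_eq_mul (U.comap π) (h * q.out)
    have : (MulAction.toPerm h q) = ((h * q.out : F) : F ⧸ U.comap π) := by
      rw [MulAction.toPerm_apply, ← smul_eq_mul, ← MulAction.Quotient.smul_mk,
        QuotientGroup.out_eq']
    rw [this, hu, conjCls_mul]
  have hkill : ∀ r : π.ker, (r : F) ∈ ⁅π.ker, (⊤ : Subgroup F)⁆ → t₀ r = 1 := by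
    have : ⁅π.ker, (⊤ : Subgroup F)⁆ ≤ t₀.ker.map π.ker.subtype := by
      rw [commutator_le]
      intro r hr g _
      refine ⟨⟨r, hr⟩ * ⟨(g⁻¹)⁻¹ * ((⟨r, hr⟩ : π.ker)⁻¹ : π.ker) * g⁻¹,
        (MonoidHom.normal_ker π).conj_mem' _ ((⟨r, hr⟩ : π.ker)⁻¹).2 _⟩, ?_, ?_⟩
      · show t₀ _ = 1
        rw [map_mul, hconj, map_inv, mul_inv_cancel]
      · show r * ((g⁻¹)⁻¹ * r⁻¹ * g⁻¹) = ⁅r, g⁆
        rw [commutatorElement_def]; group
    intro r hr
    obtain ⟨s, hs, hsr⟩ := this hr
    rwa [← Subtype.ext hsr]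
  have hcomm : ∀ r : π.ker, (r : F) ∈ commutator F →
      (t₀ r : HE (resExt π U)) ∈ commutator (HE (resExt π U)) := by
    intro r hr
    obtain ⟨V, hV⟩ := exists_transfer_hom (U.comap π)
      (Abelianization.of.comp (hmk (resExt π U)))
    have h1 : V r = 1 := Abelianization.commutator_subset_ker V hr
    rw [← Abelianization.ker_of, MonoidHom.mem_ker, ← h1, hV, ht₀]
    refine (map_prod (Abelianization.of.comp (hpi (resExt π U)).ker.subtype) _ _).trans ?_
    refine Finset.prod_congr rfl fun q _ => ?_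
    have hq : (r : F) • q = q := by
      conv_rhs => rw [← QuotientGroup.out_eq' q]
      rw [← QuotientGroup.out_eq' q, MulAction.Quotient.smul_mk, QuotientGroup.out_eq', eq_comm,
        QuotientGroup.eq]
      show π (q.out⁻¹ * (r * q.out)) ∈ U
      rw [map_mul, map_mul, (show π r = 1 from r.2), one_mul, map_inv, inv_mul_cancel]
      exact one_mem _
    show Abelianization.of (QuotientGroup.mk _) = Abelianization.of (QuotientGroup.mk _)
    congr 2; apply Subtype.ext
    show q.out⁻¹ * r * q.out = ((r : F) • q).out⁻¹ * r * q.out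
    rw [hq]
  let S : Subgroup F := π.ker ⊓ commutator F
  have hmc : (commutator F).map (hmk π) = commutator _ :=
    map_commutator_of_central _ (fun d => by
      obtain ⟨e, rfl⟩ := QuotientGroup.mk_surjective d
      exact ⟨e, 1, one_mem _, by simp⟩)
  let ρ : S →* HM π := ((hmk π).comp S.subtype).codRestrict _ fun s =>
    mem_inf.2 ⟨s.2.1, hmc ▸ mem_map_of_mem _ s.2.2⟩
  have hρ : Function.Surjective ρ := by
    rintro ⟨x, hx, hx'⟩
    rw [← hmc] at hx'
    obtain ⟨y, hy, rfl⟩ := hx'
    exact ⟨⟨y, mem_inf.2 ⟨hx, hy⟩⟩, rfl⟩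
  let t₁ : S →* HM (resExt π U) :=
    ((hpi (resExt π U)).ker.subtype.comp (t₀.comp (inclusion inf_le_left))).codRestrict _ fun s =>
      mem_inf.2 ⟨(t₀ _).2, hcomm _ s.2.2⟩
  have hk : ρ.ker ≤ t₁.ker := fun s hs => by
    have h1 : ((s : F) : HE π) = 1 := congrArg Subtype.val hs
    rw [QuotientGroup.eq_one_iff] at h1
    apply Subtype.ext
    have h2 := congrArg Subtype.val (hkill (inclusion inf_le_left s) h1)
    exact h2
  let j₀ : HE (resExt π U) →* HE π := hlift _ ((hmk π).comp (U.comap π).subtype) fun r hr =>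
    hpi_ker_le π (congrArg Subtype.val hr : π r = 1)
  have hj₀ : ∀ x ∈ (hpi (resExt π U)).ker, j₀ x ∈ (hpi π).ker := by
    intro x hx
    obtain ⟨y, rfl⟩ := QuotientGroup.mk_surjective x
    exact (congrArg Subtype.val hx : π y = 1)
  let j₁ : (hpi (resExt π U)).ker →* (hpi π).ker :=
    (j₀.comp (hpi (resExt π U)).ker.subtype).codRestrict _ fun x => hj₀ x x.2
  let j : HM (resExt π U) →* HM π := (j₀.comp (HM _).subtype).codRestrict _ fun x =>
    mem_inf.2 ⟨hj₀ x x.2.1, by
      have : (commutator (HE (resExt π U))).map j₀ ≤ commutator _ := by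
        rw [_root_.commutator_def, map_commutator]; exact commutator_mono le_top le_top
      exact this (mem_map_of_mem _ x.2.2)⟩
  refine ⟨ρ.liftOfSurjective hρ ⟨t₁, hk⟩, j, fun a => ?_⟩
  obtain ⟨s, rfl⟩ := hρ a
  rw [MonoidHom.liftOfRightInverse_comp_apply]
  apply Subtype.ext
  let s' : (hpi π).ker := ⟨((s : F) : HE π), s.2.1⟩
  have h1 : j₁ (t₀ (inclusion inf_le_left s)) = s' ^ U.index := by
    rw [ht₀, map_prod, ← index_comap_of_surjective _ hπ, index_eq_card, Nat.card_eq_fintype_card,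
      ← Finset.card_univ, ← Finset.prod_const]
    refine Finset.prod_congr rfl fun q _ => Subtype.ext ?_
    show ((q.out : F) : HE π)⁻¹ * (s' : HE π) * (q.out : F) = s'
    rw [mul_assoc, ← mem_center_iff.1 (hpi_ker_le π s'.2), inv_mul_cancel_left]
  have h2 := congrArg Subtype.val h1
  exact h2

/-- transfer and corestriction between the multipliers of `G` and of a subgroup `U` -/
theorem exists_transfer_pair {G : Type u} [Group G] (U : Subgroup G) {A : Type v} {B : Type w}
    [CommGroup A] [CommGroup B] (hA : HasSchurMultiplier G A) (hB : HasSchurMultiplier U B) :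
    ∃ (t : A →* B) (j : B →* A), ∀ a, j (t a) = a ^ U.index := by
  haveI := schur_finite_group hA
  have hπ := canon_surjective G
  obtain ⟨t, j, h⟩ := exists_transfer_pair_HM (canon G) hπ U
  haveI : (U.comap (canon G)).FiniteIndex := ⟨by
    rw [index_comap_of_surjective _ hπ]; exact FiniteIndex.index_ne_zero⟩
  obtain ⟨e⟩ := hasSchur_iff.1 hA
  obtain ⟨e'⟩ := schur_unique hB (hasSchur_HM (resExt (canon G) U) (resExt_surjective hπ U))
  refine ⟨e'.symm.toMonoidHom.comp (t.comp e.toMonoidHom),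
    e.symm.toMonoidHom.comp (j.comp e'.toMonoidHom), fun a => ?_⟩
  simp [h]

theorem schur_pow_card {G : Type u} [Group G] {A : Type v} [CommGroup A]
    (hA : HasSchurMultiplier G A) (a : A) : a ^ Nat.card G = 1 := by
  haveI := schur_finite_group hA
  obtain ⟨t, j, h⟩ := exists_transfer_pair ⊥ hA schur_one_of_isCyclic
  haveI : Subsingleton (Multiplicative (ZMod 1)) := inferInstanceAs (Subsingleton (ZMod 1))
  rw [← index_bot, ← h, Subsingleton.elim (t a) 1, map_one]

end H23
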