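import Cfsg.Agent.H23.Sec10

/-! Alternating sections of groups of type E7. -/

set_option autoImplicit false
set_option linter.unusedSectionVars false
set_option maxRecDepth 100000

namespace H23.Sec

open H14 H14.PreSt H14.St Equiv Equiv.Perm H23.Wag Cfsg.Lie Module
open H14.RootSys hiding sign
open Matrix hiding J

/-- twice the weights in terms of the simple roots -/
noncomputable def w2 (x : Fin 56) (j : Fin chevE7.rank) : ℤ :=
  ([2, 3, 4, 6, 5, 4, 3] : List ℤ).getD j 0 + 2 * minE7.γ x j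

theorem w2_eq : ∀ x (i : Fin chevE7.rank),
    2 * repE7.wt x i = ∑ j, w2 x j * goodE7.R.wt (goodE7.R.simple j) i := by
  change ∀ x i, 2 * minE7.wt x i = _
  decide +kernel

/-- number of weights with given value -/
noncomputable def cn7 (l : ℕ) (a : Fin chevE7.rank → ℤ) (j : ZMod l) : ℕ :=
  (Finset.univ.filter fun x => ((∑ i, w2 x i * a i : ℤ) : ZMod l) = j).card

/-- the test for rational elements -/
def PE7 (l : ℕ) (S : List ℕ) (a : Fin chevE7.rank → ℤ) : Prop :=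
  (∀ j : Fin l, j.val ≠ 0 → cn7 l a j.val = cn7 l a 1) → cn7 l a 1 ∈ S ∨ ∀ j, (a j : ZMod l) = 0

noncomputable instance instPE7 (l : ℕ) (S : List ℕ) : DecidablePred (PE7 l S) :=
  fun _ => by unfold PE7; infer_instance

theorem chk77 : alcB [2, 2, 3, 4, 3, 2, 1] 7
    (fun L => decide (PE7 7 [6, 8, 9] fun j => (L.getD j 0 : ℕ))) = true := by decide +kernel

theorem chk75 : alcB [2, 2, 3, 4, 3, 2, 1] 5
    (fun L => decide (PE7 5 [10] fun j => (L.getD j 0 : ℕ))) = true := by decide +kernel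

variable (K : Type) [Field K]

/-- the universal group -/
abbrev Γ7 := chevE7.SteinbergGroup K

/-- the torus of the universal group -/
noncomputable abbrev tor7 : (Fin chevE7.rank → Kˣ) →* Γ7 K := (goodE7.stb_hmul K).tor

/-- the matrices of the module -/
noncomputable def θ7 : Γ7 K →* GL (Fin 56) K := (goodE7.stb_lift (repE7.hmul K)).choose

theorem θ7_hom : (goodE7.stb K).toPreSt.IsHom (repE7.st K).toPreSt (θ7 K) :=
  (goodE7.stb_lift (repE7.hmul K)).choose_spec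

/-- the module -/
noncomputable def ρ7 : Γ7 K →* End K (Fin 56 → K) :=
  (Matrix.toLinAlgEquiv' (R := K) (n := Fin 56)).toMonoidHom.comp ((Units.coeHom _).comp (θ7 K))

variable {K}

theorem ρ7_eig (c : Fin chevE7.rank → Kˣ) (μ : Kˣ) : (ρ7 K (tor7 K c)).eigenspace μ =
    Pi.spanSubset K {a | ∏ i, c i ^ repE7.wt a i = μ} := by
  ext v
  rw [End.mem_eigenspace_iff, Pi.mem_spanSubset_iff, funext_iff]
  refine forall_congr' fun a => ?_
  change ((θ7 K _ : Matrix _ _ K) *ᵥ v) a = _ ↔ _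
  rw [(goodE7.stb_hmul K).map (repE7.hmul K) (θ7_hom K), Rep.coe_tor, mulVec_diagonal,
    Pi.smul_apply, smul_eq_mul, mul_eq_mul_right_iff, Units.val_inj, Set.mem_ofPred_eq]
  tauto

theorem ρ7_dim {z : Kˣ} {l : ℕ} [Fact l.Prime] (h2 : (2 : ZMod l) ≠ 0) (hz : orderOf z = l)
    (ν : Fin chevE7.rank → ℤ) (g : Γ7 K) (j : ZMod l) :
    finrank K ((ρ7 K (g * tor7 K (fun i => z ^ ν i) * g⁻¹)).eigenspace ((z : K) ^ j.val)) =
      cn7 l (fun i => ν ⬝ᵥ goodE7.R.wt (goodE7.R.simple i)) (2 * j) := by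
  rw [eig_dim, ← Units.val_pow_eq_pow_val, ρ7_eig, Pi.dim_spanSubset, cn7, ← Set.ncard_coe_finset]
  congr 1
  ext a
  have : ∑ j, w2 a j * (ν ⬝ᵥ goodE7.R.wt (goodE7.R.simple j)) = 2 * (ν ⬝ᵥ repE7.wt a) := by
    simp only [dotProduct, Finset.mul_sum, mul_left_comm (2 : ℤ), w2_eq]
    rw [Finset.sum_comm]
    exact Finset.sum_congr rfl fun i _ => Finset.sum_congr rfl fun j _ => by ring
  rw [Set.mem_ofPred_eq, prod_zpow_dot, ← zpow_natCast, zpow_eq_zpow_iff_modEq, hz,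
    ← ZMod.intCast_eq_intCast_iff]
  simp only [Finset.coe_filter, Set.mem_ofPred_eq, this]
  simp [h2]

theorem alg7 (p : ℕ) [Fact p.Prime] : (goodE7.stb (Kb p)).Alg p where
  sep := goodE7.stb_sep _
  top := goodE7.pres_top _
  hmul := goodE7.stb_hmul _
  fin := (goodE7.alg (ZMod p) p two_ne_zero kerE7).fin
  lift φ := goodE7.stb_lift ((goodE7.stb_hmul _).base φ)
  ker := ⟨1, one_ne_zero, fun c h => by
    rw [pow_one]; exact stb_tor_injectiveE7 _ (h.trans (map_one _).symm)⟩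

theorem cls7 {p l : ℕ} [Fact p.Prime] [hl : Fact l.Prime] (h2 : l ≠ 2) {S : List ℕ}
    (hS : alcB [2, 2, 3, 4, 3, 2, 1] l (fun L => decide (PE7 l S fun j => (L.getD j 0 : ℕ))) = true)
    {z : (Kb p)ˣ} (hz : orderOf z = l) {s : Γ7 (Kb p)} (hs : s ^ l = 1) (h1 : s ≠ 1) {e : ℕ}
    (he : ∀ j : ZMod l, j ≠ 0 → finrank (Kb p) ((ρ7 _ s).eigenspace ((z : Kb p) ^ j.val)) = e) :
    e ∈ S := by
  have h3 : (2 : ZMod l) ≠ 0 := fun e => h2 ((Nat.prime_dvd_prime_iff_eq hl.1 Nat.prime_two).1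
    ((CharP.cast_eq_zero_iff _ l 2).1 e))
  obtain ⟨a, ν, h6, h7, h8⟩ := (alg7 p).exists_alcove (stb_tor_injectiveE7 _) (z := z) (s := s)
    (hz ▸ hl.1.pos) (hz ▸ hs)
  have h9 : ∀ j : ZMod l, j ≠ 0 → cn7 l (fun i => ν ⬝ᵥ goodE7.R.wt (goodE7.R.simple i)) j = e :=
    fun j hj => by
      rw [← he (j / 2) (div_ne_zero hj h3), h8]
      erw [ρ7_dim h3 hz, mul_div_cancel₀ _ h3]
  refine (alc_chk (P := PE7 l S) (⟨125, by decide⟩ : Fin chevE7.nroots) (by decide +kernel)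
    (by decide +kernel) hS h6 (hz ▸ h7) fun j hj => ?_).elim (h9 1 one_ne_zero ▸ id) fun h => ?_
  · rw [h9 1 one_ne_zero, h9 _ fun e => hj (Nat.eq_zero_of_dvd_of_lt
      ((CharP.cast_eq_zero_iff _ l _).1 e) j.2)]
  have := tor_cen (alg7 p).sep (alg7 p).top (alg7 p).hmul hz h
  rw [goodE7.stb_center] at this
  obtain ⟨c, hc, e⟩ := this
  have a1 : s ^ 2 = 1 := by
    rw [h8, conj_pow]; erw [← e]; rw [← map_pow, kerE7 c hc]; simp
  exact (h1 (orderOf_eq_one_iff.1 (Nat.eq_one_of_dvd_coprimes ((Nat.coprime_primes hl.1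
    Nat.prime_two).2 h2) (orderOf_dvd_of_pow_eq_one hs) (orderOf_dvd_of_pow_eq_one a1)))).elim

theorem pull7 {X : Type*} [Group X] [Finite X] {f : X →* chevE7.group K} (hf : Function.Injective f) :
    ∃ (Y : Subgroup (Γ7 K)) (q : Y →* X), Finite Y ∧ Function.Surjective q := by
  obtain ⟨θ, hθ⟩ := goodE7.stb_lift (goodE7.SG_hmul K)
  have h1 : Function.Surjective θ := by
    rw [← MonoidHom.range_eq_top, MonoidHom.range_eq_map, ← goodE7.pres_top (Good.relsAB_subset _ _),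
      hθ.map_U, goodE7.SG_top]
  have h2 : θ.ker ≤ (mpow Kˣ goodE7.R.A).ker.map (tor7 K) := fun y hy => by
    obtain ⟨c, rfl⟩ := (goodE7.stb_hmul K).exists_tor (mem_H_of_map_eq_one (goodE7.SG_sep K) hθ
      ((goodE7.pres_top _).ge trivial) hy)
    exact ⟨c, goodE7.SG_tor_eq_one.1 (((goodE7.stb_hmul K).map _ hθ c).symm.trans hy), rfl⟩
  let q : f.range.comap θ →* X := (MonoidHom.ofInjective hf).symm.toMonoidHom.comp
    ((θ.comp (Subgroup.subtype _)).codRestrict _ fun y => y.2)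
  have h3 : ∀ y ∈ q.ker, y.1 ∈ θ.ker := fun y hy =>
    congrArg Subtype.val ((MonoidHom.ofInjective hf).symm.map_eq_one_iff.1 hy)
  refine ⟨_, q, ?_, fun x => ?_⟩
  · haveI := finite_of_pow (M := (mpow Kˣ goodE7.R.A).ker) two_ne_zero kerE7
    haveI := Finite.of_surjective _ ((tor7 K).subgroupMap_surjective (mpow Kˣ goodE7.R.A).ker)
    haveI : Finite θ.ker := Finite.of_injective _ (Subgroup.inclusion_injective h2)
    haveI : Finite q.ker := Finite.of_injective (fun y => (⟨_, h3 _ y.2⟩ : θ.ker))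
      fun x y e => Subtype.ext (Subtype.ext (Subtype.ext_iff.1 e :))
    exact q.finite_iff_finite_ker_range.2 ⟨inferInstance, inferInstance⟩
  · obtain ⟨y, hy⟩ := h1 (f x)
    exact ⟨⟨y, x, hy.symm⟩, (MonoidHom.ofInjective hf).symm_apply_eq.2 (Subtype.ext hy)⟩

theorem prof {p l : ℕ} [Fact p.Prime] [hl : Fact l.Prime] (hp : l ≠ p) (ho : Odd l)
    (hW : ¬ l ^ 2 ∣ 2903040) {X : Type*} [Group X] [Finite X] {f : X →* Γ7 (Kb p)}
    (hf : Function.Injective f) {r m : ℕ} {π : X →* Perm (Fin r)} (h : Mn π) (hm : m ≤ r)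
    (h1 : l + 5 ≤ m) (h2 : 11 ≤ m) {ι : Type} [Fintype ι] [DecidableEq ι] (t : ι → Perm (Fin m))
    (s : Perm (Fin m)) (ht : ∀ i, sign (t i) = 1 ∧ sign s = 1 ∧
      s * t i * s⁻¹ = (t i)⁻¹ ∧ t i ^ l = 1 ∧ (t i).support.card = l ∧
      ∀ j, t j * t i * (t j)⁻¹ = t i ^ 1) {n : ℕ} (τ : Fin n → Perm (Fin m)) (σ : Fin n → ι → ι)
    (ν : Fin n → ι → ℕ) (hτ : ∀ k, sign (τ k) = 1 ∧ Function.Surjective (σ k) ∧
      (∀ i, (ν k i : ZMod l) ≠ 0) ∧ ∀ i, τ k * t i * (τ k)⁻¹ = t (σ k i) ^ ν k i) {T : ℕ}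
    (ty : (ι → ZMod l) → Fin T) (rp : Fin T → ι → ZMod l) (rk : (ι → ZMod l) → ℕ)
    (ho' : ∀ w, w = rp (ty w) ∨ ∃ k, rk (fun i => ν k i * w (σ k i)) < rk w ∧
      ty (fun i => ν k i * w (σ k i)) = ty w) {S : List ℕ}
    (hS : alcB [2, 2, 3, 4, 3, 2, 1] l (fun L => decide (PE7 l S fun j => (L.getD j 0 : ℕ))) = true) :
    ∃ c : Fin T → ℕ, (∀ d : Fin T → ℕ, (∀ k, (Finset.univ.filter fun w => ty w = k).card = d k) →
      ∑ k, d k * c k = 56) ∧
      ∀ (L : List ι) (d : Fin T → ℕ), (L.map t).prod ≠ 1 → (∀ j : ZMod l, j ≠ 0 → ∀ k,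
        ((Finset.univ.filter fun w => (L.map w).sum = j).filter fun w => ty w = k).card = d k) →
        ∑ k, d k * c k ∈ S := by
  obtain ⟨e⟩ : Nonempty (Fin m ↪ Fin r) := Function.Embedding.nonempty_of_card_le (by simpa)
  obtain ⟨Y, a1, a2, a3, a4⟩ := lifts h ho (by simp; omega) (cenL (a := 1) (alg7 p)
    (stb_tor_injectiveE7 _) hp (by rw [poinE7]; exact hW) (by simp; omega)
    (by simp only [Fintype.card_fin]; change 7 + 1 + 2 < r; omega) hf h) e t (fun _ => s) ht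
  obtain ⟨z, hz⟩ := ex_root (Kb p) p hl.1 hp
  have hζ : IsPrimitiveRoot (z : Kb p) l := IsPrimitiveRoot.coe_units_iff.2
    (hz ▸ IsPrimitiveRoot.orderOf z)
  obtain ⟨c, b1, b2⟩ := wts ((ρ7 _).comp f) hζ Y a2 a3
  have b3 : ∀ w, c w = c (rp (ty w)) := fun w => by
    induction w using (measure rk).wf.induction with | _ w ih =>
    obtain e | ⟨k, c1, c2⟩ := ho' w
    · exact congrArg c e
    obtain ⟨g, hg⟩ := a4 _ _ _ (hτ k).1 (hτ k).2.2.2
    rw [← b1 g _ _ (hτ k).2.1 (hτ k).2.2.1 hg w, ih _ c1, c2]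
  refine ⟨fun k => c (rp k), fun d hd => ?_, fun L d c1 c2 => ?_⟩
  · have := b2 1 0 (fun w v _ => by simp) 0
    rw [Finset.filter_true_of_mem (by simp), sum_ty ty rp b3] at this
    simp only [hd] at this
    rw [← this, show End.eigenspace _ _ = ⊤ from eq_top_iff.2 fun v _ =>
      End.mem_eigenspace_iff.2 (by simp)]
    simp
  refine cls7 (by rintro rfl; exact absurd ho (by decide)) hS hz (s := f (L.map Y).prod) ?_ (fun e => c1 ?_)
    fun j hj => ?_
  · rw [← map_pow, ← map_one f]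
    congr 1
    clear c1 c2
    induction L with
    | nil => simp
    | cons i L ih => rw [List.map_cons, List.prod_cons, (Commute.list_prod_right _ _ (by
        simpa using fun j _ => a2 i j)).mul_pow, a3, ih, one_mul]
  · have := congrArg π (hf (e.trans (map_one f).symm))
    rw [map_list_prod, map_one, List.map_map, show π ∘ Y = J _ ∘ t from funext a1, ← List.map_map,
      ← map_list_prod] at this
    exact J_inj _ (this.trans (map_one _).symm)
  refine (b2 _ (fun w => (L.map w).sum) (fun w v hv => ?_) j).trans ?_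
  · clear c1 c2
    induction L with
    | nil => simp
    | cons i L ih =>
      rw [List.map_cons, List.prod_cons, map_mul, End.mul_apply, ih, map_smul, hv, smul_smul,
        ← pow_add, List.map_cons, List.sum_cons, ZMod.val_add, ← pow_eq_pow_mod _ hζ.pow_eq_one,
        add_comm]
  · rw [sum_ty ty rp b3]
    simp only [c2 j hj]

instance fact5e : Fact (Nat.Prime 5) := ⟨Nat.prime_five⟩

instance fact7e : Fact (Nat.Prime 7) := ⟨Nat.prime_seven⟩

theorem no14 {p : ℕ} [Fact p.Prime] (hp : p ≠ 7) {X : Type*} [Group X] [Finite X]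
    {f : X →* Γ7 (Kb p)} (hf : Function.Injective f) {r : ℕ} {π : X →* Perm (Fin r)} (h : Mn π) :
    r ≤ 13 := by
  by_contra hr
  obtain ⟨c, h1, h2⟩ := prof (l := 7) (m := 14) hp.symm (by decide) (by decide) hf h (by omega)
    (by omega) (by omega) ![List.formPerm [0, 1, 2, 3, 4, 5, 6], List.formPerm [7, 8, 9, 10, 11, 12, 13]]
    (swap 1 6 * swap 2 5 * swap 3 4 * swap 8 13 * swap 9 12 * swap 10 11) (by decide +kernel)
    ![List.formPerm [1, 2, 4] * List.formPerm [3, 6, 5],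
      List.formPerm [1, 3, 2, 6, 4, 5] * List.formPerm [8, 10, 9, 13, 11, 12],
      swap 0 7 * List.formPerm [1, 10, 3, 9, 2, 13, 6, 11, 4, 12, 5, 8]] ![id, id, ![1, 0]]
    ![![2, 1], ![3, 3], ![3, 1]] (by decide +kernel) (T := 3)
    (fun w => ∑ i, if w i = 0 then 0 else 1) ![![0, 0], ![1, 0], ![1, 1]] (fun w =>
      dg 0x3334422212331132243425445533434545354162042113200 ((w 0).val + 7 * (w 1).val))
    (by decide +kernel) chk77
  have h3 := h2 [0] ![0, 1, 6] (by decide +kernel) (by decide +kernel)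
  have h4 := h2 [0, 1] ![0, 2, 5] (by decide +kernel) (by decide +kernel)
  replace h1 := h1 ![1, 12, 36] (by decide +kernel)
  simp [Fin.sum_univ_three] at h1 h3 h4
  omega

/-- distances to the representatives -/
def T5 : ℕ := 0x44533445335454444534445334343333422445333342243432556445454455644445335454322322212123332313401334222233221211333221340111200

theorem no15 {p : ℕ} [Fact p.Prime] (hp : p ≠ 5) {X : Type*} [Group X] [Finite X]
    {f : X →* Γ7 (Kb p)} (hf : Function.Injective f) {r : ℕ} {π : X →* Perm (Fin r)} (h : Mn π) :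
    r ≤ 14 := by
  by_contra hr
  obtain ⟨c, h1, h2⟩ := prof (l := 5) (m := 15) hp.symm (by decide) (by decide) hf h (by omega)
    (by omega) (by omega) ![List.formPerm [0, 1, 2, 3, 4], List.formPerm [5, 6, 7, 8, 9],
      List.formPerm [10, 11, 12, 13, 14]]
    (swap 1 4 * swap 2 3 * swap 6 9 * swap 7 8 * swap 11 14 * swap 12 13) (by decide +kernel)
    ![List.formPerm [1, 2, 4, 3] * List.formPerm [6, 7, 9, 8], swap 1 4 * swap 2 3,
      List.formPerm [0, 5, 10] * List.formPerm [1, 6, 11] * List.formPerm [2, 7, 12] *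
        List.formPerm [3, 8, 13] * List.formPerm [4, 9, 14],
      swap 0 5 * List.formPerm [1, 7, 2, 9, 4, 8, 3, 6]] ![id, id, ![1, 2, 0], ![1, 0, 2]]
    ![![2, 2, 1], ![4, 1, 1], ![1, 1, 1], ![2, 1, 1]] (by decide +kernel) (T := 4)
    (fun w => ∑ i, if w i = 0 then 0 else 1) ![![0, 0, 0], ![1, 0, 0], ![1, 1, 0], ![1, 1, 1]]
    (fun w => dg T5 ((w 0).val + 5 * (w 1).val + 25 * (w 2).val)) (by decide +kernel) chk75
  have h3 := h2 [0] ![0, 1, 8, 16] (by decide +kernel) (by decide +kernel)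
  replace h1 := h1 ![1, 12, 48, 64] (by decide +kernel)
  simp [Fin.sum_univ_four] at h1 h3
  omega

theorem mainE7 {F : Type*} [Field F] [Finite F] (p : ℕ) [hp : Fact p.Prime] [CharP F p] {X : Type*}
    [Group X] {f : X →* chevE7.group F} (hf : Function.Injective f) {N : Subgroup X} [N.Normal]
    {r : ℕ} (h : Nonempty (X ⧸ N ≃* alternatingGroup (Fin r))) :
    r ≤ 13 + (if p = 7 then 1 else 0) := by
  obtain ⟨π, even, surj⟩ := ex_pi h
  obtain ⟨γ⟩ := ex_emb F p
  haveI := Finite.of_injective _ hf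
  obtain ⟨Y, q, _, h1⟩ := pull7 (f := (goodE7.mapG γ).comp f) ((goodE7.mapG_inj γ).comp hf)
  obtain ⟨Z, hZ⟩ := exists_mn (π := π.comp q) (fun g => even _) fun σ hσ => by
    obtain ⟨g, rfl⟩ := surj σ hσ
    obtain ⟨y, rfl⟩ := h1 g
    exact ⟨y, rfl⟩
  have h2 := Y.subtype_injective.comp Z.subtype_injective
  split_ifs with h0
  exacts [no15 (by omega) (f := Y.subtype.comp Z.subtype) h2 hZ,
    no14 h0 (f := Y.subtype.comp Z.subtype) h2 hZ]

end H23.Sec
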