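import Cfsg.Agent.H23.Sec4

/-! Alternating sections of the fixed points of a triality, II. -/

set_option autoImplicit false
set_option linter.unusedSectionVars false
set_option maxRecDepth 100000

namespace H23.Sec

open H14 H14.PreSt H14.St Equiv Equiv.Perm H23.Wag Cfsg.Lie
open H14.RootSys hiding sign
open Matrix hiding J

theorem algD4 (p : ℕ) [Fact p.Prime] : (goodD4.SG (Kb p)).Alg p :=
  goodD4.alg (ZMod p) p two_ne_zero kerD4

theorem fact5 : Fact (Nat.Prime 5) := ⟨by norm_num⟩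

attribute [local instance] fact5

theorem eta4 {M : Type*} (a : Fin 4 → M) : a = ![a 0, a 1, a 2, a 3] := by
  funext j; fin_cases j <;> rfl

variable {p : ℕ} [Fact p.Prime] (T : (goodD4.SG (Kb p)).Tw) (hπ : T.π = okgrD4.pi)
  {φ : Kb p →+* Kb p} (hφ : ∀ i t, T.f (goodD4.R.simple i) t = φ t)

theorem invD4' {z : (Kb p)ˣ} {l : ℕ} (hz : orderOf z = l) (g : chevD4.group (Kb p))
    {c c' d d' : Fin chevD4.rank → (Kb p)ˣ} {a a' b b' : Fin 4 → ℤ} (h1 : Lb goodD4.R z c a)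
    (h2 : Lb goodD4.R z c' a') (h3 : Lb goodD4.R z d b) (h4 : Lb goodD4.R z d' b')
    (e1 : g * (goodD4.SG_hmul _).tor c * g⁻¹ = (goodD4.SG_hmul _).tor c')
    (e2 : g * (goodD4.SG_hmul _).tor d * g⁻¹ = (goodD4.SG_hmul _).tor d') :
    B2 (fun j => (a j : ZMod l)) (fun j => (b j : ZMod l)) =
      B2 (fun j => (a' j : ZMod l)) (fun j => (b' j : ZMod l)) ∧
    J2 (fun j => (a j : ZMod l)) (fun j => (b j : ZMod l)) =
      J2 (fun j => (a' j : ZMod l)) (fun j => (b' j : ZMod l)) := by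
  obtain ⟨w, hw, h⟩ := lab_conj (goodD4.SG_sep _) (goodD4.SG_top _) (goodD4.SG_hmul _) hz g
  have a1 := h _ _ _ _ h1 h2 e1
  have a2 := h _ _ _ _ h3 h4 e2
  have a3 := invD4 hw (fun j => (a' j : ZMod l)) (fun j => (b' j : ZMod l))
  exact ⟨(congrArg₂ B2 a1 a2).trans a3.1, (congrArg₂ J2 a1 a2).trans a3.2⟩

include hπ hφ

theorem tri_of {l : ℕ} [hl : Fact l.Prime] (h4 : ∀ u : ZMod l, u ≠ 0 → u ^ 4 = 1) {z : (Kb p)ˣ}
    (hz : orderOf z = l) {c : Fin chevD4.rank → (Kb p)ˣ} {a : Fin 4 → ℤ} {g : chevD4.group (Kb p)}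
    (h : Lb goodD4.R z c a) (hs : g * (goodD4.SG_hmul _).tor c * g⁻¹ ∈ T.fix) :
    Tri fun j => (a j : ZMod l) := by
  have := NeZero.mk (hz ▸ hl.1.ne_zero : orderOf z ≠ 0)
  obtain ⟨u, hu⟩ := (IsPrimitiveRoot.orderOf z).zpowers_eq.ge (show Units.map φ.toMonoidHom z ∈
    rootsOfUnity _ _ by rw [mem_rootsOfUnity, ← map_pow, pow_orderOf_eq_one, map_one])
  have hu' : φ z = (z ^ u : (Kb p)ˣ) := (congrArg Units.val hu).symm
  have hu4 := h4 u fun e => by
    rw [orderOf_dvd_iff_zpow_eq_one.1 (hz ▸ (ZMod.intCast_zmod_eq_zero_iff_dvd _ _).1 e),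
      Units.val_one, ← map_one φ, φ.injective.eq_iff, Units.val_eq_one] at hu'
    exact hl.1.ne_one (by rw [← hz, hu', orderOf_one])
  obtain ⟨c', h1, h2⟩ := lab_tw T (goodD4.SG_hmul _) hφ hu' h
  obtain ⟨c'', h3, h5⟩ := lab_tw T (goodD4.SG_hmul _) hφ hu' h2
  have e1 := Tw.mem_fix.1 hs
  have e2 := (congrArg T.σ e1).trans e1
  simp only [map_mul, map_inv, h1, h3] at e1 e2
  have key : ∀ {x y t t' : chevD4.group (Kb p)}, x * t' * x⁻¹ = y * t * y⁻¹ →
      x⁻¹ * y * t * (x⁻¹ * y)⁻¹ = t' := fun {x y t t'} e => by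
    rw [← mul_left_inj x⁻¹, ← mul_right_inj x, ← mul_assoc x t', e]; group
  have a1 := (invD4' hz _ h h2 h h2 (key e1) (key e1)).2
  have a2 := (invD4' hz _ h h5 h h5 (key e2) (key e2)).2
  have b : ∀ x : Fin 4 → ZMod l, J2 (fun j => u * x j) (fun j => u * x j) = J2 x x := fun x => by
    rw [← one_mul (J2 x x), ← hu4]; unfold J2; ring
  have b0 : ∀ (x : Fin 4 → ZMod l) (j : Fin 4), x (T.π⁻¹ j) = rh x j := fun x j => by
    have : ∀ j : Fin chevD4.rank, (okgrD4.pi⁻¹ j).val = [3, 1, 0, 2].getD j 0 := by decide +kernel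
    rw [hπ]
    fin_cases j <;> exact congrArg x (Fin.ext (this _))
  simp only [Int.cast_mul] at a1 a2
  refine ⟨a1.trans ((b _).trans ?_), a2.trans ((b _).trans ((b _).trans ?_))⟩
  · exact congrArg (fun x => J2 x x) (funext (b0 fun j => (a j : ZMod l)))
  · refine congrArg (fun x => J2 x x) (funext fun j => ?_)
    exact (b0 (fun j => (a j : ZMod l)) _).trans (b0 _ j)

theorem noD4a (hp : p ≠ 5) {X : Type*} [Group X] [Finite X] {f : X →* chevD4.group (Kb p)}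
    (hf : Function.Injective f) (h0 : ∀ x, f x ∈ T.fix) {r : ℕ} {π : X →* Perm (Fin r)}
    (surj : ∀ σ, sign σ = 1 → ∃ g, π g = σ) : r ≤ 6 := by
  by_contra hr
  obtain ⟨h1, h2⟩ := tor_comm (l := 5) (algD4 p) hp.symm (by rw [poinD4]; decide) hf
  obtain ⟨x, g, h3, h4, h5⟩ := alt_conj surj (m := 7) (l := 5) (u := 2) (by simp; omega)
    (List.formPerm [0, 1, 2, 3, 4]) (List.formPerm [1, 2, 4, 3] * swap 5 6) (by decide +kernel) h1
  obtain ⟨y, hy⟩ := h2 x h4
  obtain ⟨c, hc⟩ := (goodD4.SG_hmul _).exists_tor hy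
  obtain ⟨z, hz⟩ := ex_root (Kb p) p (l := 5) (by norm_num) hp.symm
  obtain ⟨a, ha⟩ := ex_lab (goodD4.SG_sep _) (goodD4.SG_hmul _) hz (by norm_num) (c := c) (by
    rw [← hc]; simpa [← map_pow, h4] using conj_pow (a := y⁻¹) (b := f x) (i := 5))
  have e : f x = y * (goodD4.SG_hmul _).tor c * y⁻¹ := by rw [← hc]; group
  have e2 : y⁻¹ * f g * y * (goodD4.SG_hmul _).tor c * (y⁻¹ * f g * y)⁻¹ =
      (goodD4.SG_hmul _).tor (c ^ 2 * c ^ 0) := by
    rw [pow_zero, mul_one, map_pow, ← hc]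
    have := congrArg f h5
    rw [map_mul, map_mul, map_inv, map_pow] at this
    rw [show (y⁻¹ * f x * y) ^ 2 = y⁻¹ * f x ^ 2 * y by rw [sq, sq]; group, ← this]; group
  have a1 := (invD4' hz _ ha (ha.mul ha 2 0) ha (ha.mul ha 2 0) e2 e2).1
  have a2 := tri_of T hπ hφ (by decide) hz ha (e ▸ h0 x)
  have a3 : B2 (fun j => (a j : ZMod 5)) (fun j => (a j : ZMod 5)) = 0 := by
    have : (3 : ZMod 5) * B2 (fun j => (a j : ZMod 5)) (fun j => (a j : ZMod 5)) = 0 := by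
      rw [← sub_eq_zero.2 a1.symm]; unfold B2; push_cast; ring
    exact (mul_eq_zero.1 this).resolve_left (by decide)
  rw [eta4 fun j => (a j : ZMod 5)] at a2 a3
  have := lab_cen (goodD4.SG_sep _) (goodD4.SG_top _) (goodD4.SG_hmul _) hz ha
    ((eta4 _).trans (chk5 _ _ _ _ a2 a3))
  rw [goodD4.center_eq_bot, Subgroup.mem_bot] at this
  exact h3 (hf (by rw [e, this]; simp))

omit hπ hφ in
theorem cenD4 (hp : p ≠ 3) {α : Type} [Fintype α] [DecidableEq α] (h7 : 7 ≤ Fintype.card α)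
    {X : Type*} [Group X] [Finite X] {f : X →* chevD4.group (Kb p)} (hf : Function.Injective f)
    {π : X →* Perm α} (h : Mn π) {Q : Subgroup X} [Q.Normal] (h1 : Q ≤ π.ker) (hQ : IsPGroup 3 Q) :
    Q ≤ Subgroup.center X := by
  by_contra hc
  obtain ⟨A, -, hA, -, -, -, l, hl, h2, h3, d, τ, hd, hτ⟩ := h.cen (by omega) h1 hc
  have hA3 := hQ.to_le hA
  obtain rfl : l = 3 := by
    obtain ⟨n, hn⟩ := hA3.exists_card_eq
    exact (Nat.prime_dvd_prime_iff_eq hl.1 Nat.prime_three).1 (hl.1.dvd_of_dvd_pow (hn ▸ h2))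
  obtain ⟨g, B, h4, h5⟩ := tor_idx (a := 1) (algD4 p) hp.symm (by rw [poinD4]; decide) hA3
    (f.comp A.subtype)
  obtain ⟨z, hz⟩ := ex_root (Kb p) p Nat.prime_three hp.symm
  have h6 := rank_bound (QuotientGroup.mk' ((Subgroup.center X).subgroupOf A))
    (QuotientGroup.mk'_surjective _) (l := 3) (fun a => (QuotientGroup.eq_one_iff _).2 (h3 _ a.2)) B
    fun a ha b hb => Subtype.ext (hf (by
      have := (goodD4.SG_hmul _).comm _ (h5 a ha) _ (h5 b hb)
      simp only [Subgroup.coe_mul, map_mul]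
      calc _ = g * (g⁻¹ * f a * g * (g⁻¹ * f b * g)) * g⁻¹ := by group
        _ = _ := by rw [show g⁻¹ * f a * g * (g⁻¹ * f b * g) = _ from this]; simp; group))
  have h7' : Nat.card {x : B // x ^ 3 = 1} ≤ Nat.card (Fin 4 → ZMod 3) := by
    choose μ hμ using fun x : {x : B // x ^ 3 = 1} => ex_nu (goodD4.SG_hmul (Kb p)) (e := 2)
      (fun c h => kerD4 c (goodD4.SG_tor_eq_one.1 h)) (by decide) hz (by decide) (h5 _ x.1.2) (by
        have : ((x.1 : A) : X) ^ 3 = 1 := congrArg (fun t : B => ((t : A) : X)) x.2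
        simpa [← map_pow, this] using conj_pow (a := g⁻¹) (b := f (x.1 : A)) (i := 3))
    refine Nat.card_le_card_of_injective (fun x i => (μ x i : ZMod 3)) fun x y e => ?_
    have : (fun i => z ^ μ x i) = fun i => z ^ μ y i := funext fun i => by
      rw [zpow_eq_zpow_iff_modEq, hz, ← ZMod.intCast_eq_intCast_iff]; exact congrFun e i
    have := (hμ x).trans ((congrArg _ this).trans (hμ y).symm)
    rw [mul_left_inj, mul_right_inj] at this
    exact Subtype.ext (Subtype.ext (Subtype.ext (hf this)))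
  have h8 : d ≤ 5 := by
    have := Nat.le_of_dvd (by norm_num) h4
    rw [Nat.card_fun, Nat.card_zmod, Nat.card_fin] at h7'
    rw [← hd] at h6
    exact (Nat.pow_le_pow_iff_right (by norm_num)).1 (h6.trans (Nat.mul_le_mul h7' this))
  obtain ⟨e⟩ : Nonempty (Fin 7 ↪ α) := Function.Embedding.nonempty_of_card_le (by simpa using h7)
  obtain ⟨y, hy⟩ := h.surj (J e (List.formPerm [0, 1, 2, 3, 4, 5, 6])) (by
    rw [J_sign]; decide +kernel)
  have h9 := hτ (y ^ Nat.card (GL (Fin d) (ZMod 3))) (by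
    have := congrArg Units.val (pow_card_eq_one' (x := τ.toHomUnits y))
    rwa [← map_pow] at this)
  rw [map_pow, hy, ← orderOf_dvd_iff_pow_eq_one, orderOf_injective _ (J_inj e),
    @orderOf_eq_prime _ _ _ 7 ⟨by norm_num⟩ (by decide +kernel) (by decide +kernel),
    Matrix.card_GL_field, ZMod.card] at h9
  revert h9
  interval_cases d <;> decide +kernel

theorem noD4b (hp : p ≠ 3) {X : Type*} [Group X] [Finite X] {f : X →* chevD4.group (Kb p)}
    (hf : Function.Injective f) (h0 : ∀ x, f x ∈ T.fix) {r : ℕ} {π : X →* Perm (Fin r)}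
    (even : ∀ g, sign (π g) = 1) (surj : ∀ σ, sign σ = 1 → ∃ g, π g = σ) : r ≤ 7 := by
  by_contra hr
  obtain ⟨H, h⟩ := exists_mn even surj
  have hf' := hf.comp H.subtype_injective
  rw [← MonoidHom.coe_comp] at hf'
  have h0' : ∀ x, (f.comp H.subtype) x ∈ T.fix := fun x => h0 x
  generalize f.comp H.subtype = f at hf' h0'
  generalize π.comp H.subtype = π at h
  have h8 : 8 ≤ Fintype.card (Fin r) := by simp; omega
  obtain ⟨Q, M, _, _, h1, h2, h3, h4, h5⟩ := h.split 3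
  have hv := h.cv h2 (cenD4 hp (by omega) hf' h h1 h3) (by rw [h5, sup_comm])
  obtain ⟨e⟩ : Nonempty (Fin 8 ↪ Fin r) := Function.Embedding.nonempty_of_card_le (by simpa using h8)
  let t1 : Perm (Fin 8) := List.formPerm [0, 1, 2]
  let t2 : Perm (Fin 8) := List.formPerm [3, 4, 5]
  let sa : Perm (Fin 8) := swap 0 3 * swap 1 4 * swap 2 5 * swap 6 7
  let sb : Perm (Fin 8) := swap 1 2 * swap 6 7
  obtain ⟨y1, hy1, c1⟩ := hv.canJ (l := 3) (by decide) e (σ := t1) (s := sb) (by decide +kernel)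
    (by decide +kernel) (by decide +kernel) (by decide +kernel)
  obtain ⟨y2, hy2, c2⟩ := hv.canJ (l := 3) (by decide) e (σ := t2) (s := swap 4 5 * swap 6 7)
    (by decide +kernel) (by decide +kernel) (by decide +kernel) (by decide +kernel)
  obtain ⟨ga, hga⟩ := hv.surj (J e sa) (by rw [J_sign]; decide +kernel)
  obtain ⟨gb, hgb⟩ := hv.surj (J e sb) (by rw [J_sign]; decide +kernel)
  have q := fun {σ σ' τ : Perm (Fin 8)} {y y' g} a1 a2 a3 a4 a5 a6 n a7 =>
    hv.conjJ (e := e) (σ := σ) (σ' := σ') (τ := τ) (y := y) (y' := y') (g := g) (n := n)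
      Nat.prime_three (by decide) h8 a1 a2 a3 a4 a5 a6 a7
  obtain ⟨Y1, Y2, a1, a2, a3, a4, a5, a6⟩ := lift2 (l := 3) (QuotientGroup.mk' M)
    (QuotientGroup.mk'_surjective _) (by rwa [QuotientGroup.ker_mk']) (y1 := y1) (y2 := y2)
    (mul_inv_eq_iff_eq_mul.1 ((q hy2 c2 hy2 c2 hy1 (by decide +kernel) 1 (by decide +kernel)).trans
      (pow_one _))) c1.1 c2.1
  obtain ⟨g1, b1, -⟩ := a6 ga 0 1 1 0 (by
    simpa using q hy1 c1 hy2 c2 hga (by decide +kernel) 1 (by decide +kernel)) (by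
    simpa using q hy2 c2 hy1 c1 hga (by decide +kernel) 1 (by decide +kernel))
  obtain ⟨g2, b2, b3⟩ := a6 gb 2 0 0 1 (by
    simpa using q hy1 c1 hy1 c1 hgb (by decide +kernel) 2 (by decide +kernel)) (by
    simpa using q hy2 c2 hy2 c2 hgb (by decide +kernel) 1 (by decide +kernel))
  have hne : ∀ i j : ℕ, t1 ^ i * t2 ^ j ≠ 1 → f Y1 ^ i * f Y2 ^ j ≠ 1 := fun i j h e' => h (by
    rw [← map_pow, ← map_pow, ← map_mul, ← map_one f, hf'.eq_iff] at e'
    have := congrArg π e'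
    rw [map_mul, map_pow, map_pow, show π Y1 = _ from (congrArg _ a1).trans hy1,
      show π Y2 = _ from (congrArg _ a2).trans hy2, ← map_pow, ← map_pow, ← map_mul, map_one,
      ← map_one (J e)] at this
    exact J_inj e this)
  have hcn : ∀ c, (algD4 p).hmul.tor c ^ 3 = 1 → (algD4 p).hmul.Cn c := fun c hc =>
    HMul.cn_of_coprime _ (goodD4.SG_sep _) (e := 2)
      (B := lmat _ [[2, 2, 1, 1], [2, 4, 2, 2], [1, 2, 2, 1], [1, 2, 1, 2]]) (by decide +kernel)
      ((algD4 p).finOrder c) hc (by decide)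
  obtain ⟨x0, c, hc⟩ := (algD4 p).exists_conj (m := 3) (fun e' => hp
    ((Nat.prime_dvd_prime_iff_eq Fact.out Nat.prime_three).1 e')) hcn (s := f Y1)
    (by rw [← map_pow, a4, map_one])
  have hc3 : (algD4 p).hmul.tor c ^ 3 = 1 := by
    rw [← conj_eq_one_iff (a := x0), ← conj_pow, ← hc, ← map_pow, a4, map_one]
  obtain ⟨x1, d1, d2⟩ := (algD4 p).exists_conj_prime (hcn c hc3) (s := x0⁻¹ * f Y2 * x0) (by
    have := (a3.map f).map (MulAut.conj x0⁻¹)
    simpa [hc, mul_assoc] using this) Nat.prime_three hp.symm (b := 1) (by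
      simpa [← map_pow, a5] using conj_pow (a := x0⁻¹) (b := f Y2) (i := 3))
  obtain ⟨d, hd⟩ := (goodD4.SG_hmul _).exists_tor d2
  have e1 : f Y1 = x0 * x1 * (goodD4.SG_hmul _).tor c * (x0 * x1)⁻¹ := by
    rw [hc, mul_assoc x0 x1, ← d1.eq]; group
  have e2 : f Y2 = x0 * x1 * (goodD4.SG_hmul _).tor d * (x0 * x1)⁻¹ := by rw [← hd]; group
  generalize x0 * x1 = x at e1 e2
  have e3 : ∀ i j : ℕ, f Y1 ^ i * f Y2 ^ j = x * (goodD4.SG_hmul _).tor (c ^ i * d ^ j) * x⁻¹ :=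
    fun i j => by rw [e1, e2, conj_pow, conj_pow, map_mul, map_pow, map_pow]; group
  have e4 : ∀ {g y : H} {t i j}, g * y * g⁻¹ = Y1 ^ i * Y2 ^ j → f y = x * t * x⁻¹ →
      x⁻¹ * f g * x * t * (x⁻¹ * f g * x)⁻¹ = (goodD4.SG_hmul _).tor (c ^ i * d ^ j) :=
    fun {g y t i j} u1 u2 => by
      have := congrArg f u1
      rw [map_mul, map_mul, map_inv, map_mul, map_pow, map_pow, e3, u2] at this
      rw [← mul_left_inj x⁻¹, ← mul_right_inj x, ← mul_assoc x (HMul.tor _ _), ← this]; group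
  obtain ⟨z, hz⟩ := ex_root (Kb p) p Nat.prime_three hp.symm
  obtain ⟨a, ha⟩ := ex_lab (goodD4.SG_sep _) (goodD4.SG_hmul _) hz (by norm_num) hc3
  obtain ⟨b, hb⟩ := ex_lab (goodD4.SG_sep _) (goodD4.SG_hmul _) hz (by norm_num) (c := d) (by
    rw [← conj_eq_one_iff (a := x), ← conj_pow, ← e2, ← map_pow, a5, map_one])
  have f0 : ∀ i j : ℕ, t1 ^ i * t2 ^ j ≠ 1 → Tri (fun k => ((i * a k + j * b k : ℤ) : ZMod 3)) ∧
      (fun k : Fin 4 => ((i * a k + j * b k : ℤ) : ZMod 3)) ≠ 0 := fun i j hij =>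
    ⟨tri_of T hπ hφ (by decide) hz (ha.mul hb i j) (e3 i j ▸ mul_mem (pow_mem (h0' _) _)
      (pow_mem (h0' _) _)), fun e' => hne i j hij (by
        have := lab_cen (goodD4.SG_sep _) (goodD4.SG_top _) (goodD4.SG_hmul _) hz (ha.mul hb i j) e'
        rw [goodD4.center_eq_bot, Subgroup.mem_bot] at this
        rw [e3, this]; simp)⟩
  have f1 := (invD4' hz _ ha (ha.mul hb 0 1) ha (ha.mul hb 0 1) (e4 b1 e1) (e4 b1 e1)).1
  have f2 := invD4' hz _ ha (ha.mul hb 2 0) hb (ha.mul hb 0 1) (e4 b2 e1) (e4 b3 e2)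
  have f3 := f0 1 0 (by decide +kernel)
  have f4 := f0 0 1 (by decide +kernel)
  have f5 := f0 1 1 (by decide +kernel)
  have f6 := (f0 1 2 (by decide +kernel)).2
  simp only [Nat.cast_zero, Nat.cast_one, zero_mul, one_mul, add_zero, zero_add, Nat.cast_ofNat,
    Int.cast_add, Int.cast_mul, Int.cast_ofNat] at f1 f2 f3 f4 f5 f6
  have f7 : B2 (fun j => (a j : ZMod 3)) (fun j => (b j : ZMod 3)) = 0 := by
    rw [← sub_eq_zero.2 f2.1.symm]; unfold B2; ring
  have f8 : J2 (fun j => (a j : ZMod 3)) (fun j => (b j : ZMod 3)) = 0 := by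
    have : (7 : ZMod 3) * J2 (fun j => (a j : ZMod 3)) (fun j => (b j : ZMod 3)) = 0 := by
      rw [← sub_eq_zero.2 f2.2.symm]; unfold J2; ring
    exact (mul_eq_zero.1 this).resolve_left (by decide)
  rw [eta4 fun j => (a j : ZMod 3)] at f1 f3 f7 f8
  rw [eta4 fun j => (b j : ZMod 3)] at f1 f4 f7 f8
  rw [eta4 fun j => (a j : ZMod 3) + b j] at f5
  rw [eta4 fun j => (a j : ZMod 3) + 2 * b j] at f6
  exact (chk3 _ _ _ _ f3.1 f3.2 _ _ _ _ f4.1 f4.2 f1 f7 f8 f5.1).elim f5.2 f6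

omit hπ hφ T in
theorem mainD4 {K : Type*} [Field K] [Finite K] [CharP K p] {φ : K →+* K} (h3 : ∀ t, φ (φ (φ t)) = t)
    {a : ℕ} (hφ : ∀ t, φ t = t ^ p ^ a) {X : Type*} [Group X] {f : X →* chevD4.group K}
    (hf : Function.Injective f) (h0 : ∀ x, f x ∈ (D4.T φ h3).fix) {N : Subgroup X} [N.Normal] {r : ℕ}
    (h : Nonempty (X ⧸ N ≃* alternatingGroup (Fin r))) : r ≤ 6 + (if p = 5 then 1 else 0) := by
  obtain ⟨π, even, surj⟩ := ex_pi h
  obtain ⟨γ⟩ := ex_emb K p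
  haveI := Finite.of_injective _ hf
  let T := goodD4.tw okgrD4 (GrD.fits_zero rfl rfl (Kb p)) (iterateFrobenius _ p a)
    (bijective_iterateFrobenius _ p a).2
  have h1 : ∀ i t, T.f (goodD4.R.simple i) t = iterateFrobenius _ p a t := fun i t =>
    (goodD4.tw_simple ..).trans (by rw [GrD.ex_eq_one rfl, pow_one])
  have h2 : ∀ x, (goodD4.mapG γ).comp f x ∈ T.fix := fun x =>
    map_tw goodD4 γ (fun t => by rw [hφ, map_pow]; rfl) (h0 x)
  have h4 : Function.Injective ((goodD4.mapG γ).comp f) := (goodD4.mapG_inj γ).comp hf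
  split_ifs with hp
  · exact noD4b T rfl h1 (by omega) h4 h2 even surj
  · exact noD4a T rfl h1 hp h4 h2 surj

end H23.Sec
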