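import Mathlib

/-! Odd-order automorphisms of doubly transitive groups (symmetric design argument). -/

set_option autoImplicit false
open MulAction Matrix

namespace H23

theorem design_arith {n k d l a b : ℤ} {j : ℕ} (hn : 2 ≤ n) (k0 : 0 < k) (kn : k ≤ n) (hl : 0 ≤ l)
    (hc : IsCoprime k n) (h1 : k = d + l) (h2 : k ^ 2 = d + l * n) (h3 : a ^ 2 = d ^ (2 * j + 1))
    (h4 : k ^ (2 * j + 1) = a + b * n) : k = 1 ∨ k = n - 1 := by
  have d0 : d ≠ 0 := by
    rintro rfl
    have : a = 0 := by simpa using h3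
    have h5 : IsUnit n := (hc.pow_left (m := 2 * j + 1)).symm.isUnit_of_dvd ⟨b, by rw [h4, this]; ring⟩
    rcases Int.isUnit_iff.1 h5 with h | h <;> omega
  obtain ⟨s, rfl⟩ : d ^ j ∣ a := (Int.pow_dvd_pow_iff two_ne_zero).1 ⟨d, by rw [h3]; ring⟩
  have hs : s ^ 2 = d := mul_left_cancel₀ (pow_ne_zero 2 (pow_ne_zero j d0)) (by
    rw [← mul_pow, h3]; ring)
  obtain ⟨e, he⟩ : n ∣ (k ^ 2) ^ j - d ^ j :=
    (show n ∣ k ^ 2 - d from ⟨l, by rw [h2]; ring⟩).trans (sub_dvd_pow_sub_pow _ _ j)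
  obtain ⟨c, hc'⟩ : n ∣ k - s := (hc.pow_left (m := 2 * j)).symm.dvd_of_dvd_mul_left
    ⟨b - e * s, by rw [pow_succ] at h4; rw [← pow_mul] at he; linear_combination h4 - s * he⟩
  have h6 : (k + s) * c = l := mul_left_cancel₀ (show n ≠ 0 by omega) (by
    linear_combination h2 - hs - (k + s) * hc')
  have h7 : 0 ≤ s ^ 2 - s := by nlinarith [sq_nonneg (2 * s - 1), Int.even_mul_succ_self s, sq_abs s,
    (by rcases le_or_gt s 0 with h | h <;> nlinarith : 0 ≤ s * (s - 1))]
  have h8 : 0 ≤ s ^ 2 + s := by rcases le_or_gt 0 s with h | h <;> nlinarith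
  have s0 : s ≠ 0 := by rintro rfl; exact d0 (by simpa using hs.symm)
  rcases lt_trichotomy c 1 with h | rfl | h
  · have c0 : c = 0 := by nlinarith
    subst c0
    left
    exact mul_left_cancel₀ s0 (by nlinarith)
  · right
    have : s = -1 := mul_left_cancel₀ s0 (by nlinarith)
    omega
  · exfalso
    have h9 : 2 * n ≤ k - s := by nlinarith
    have : s = -1 := mul_left_cancel₀ s0 (by nlinarith)
    nlinarith

variable {G Ω : Type*} [Group G] [MulAction G Ω]

theorem pretrans_of_two (h2 : IsMultiplyPretransitive G Ω 2) : IsPretransitive G Ω :=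
  ⟨fun a b => by
    rcases eq_or_ne a b with rfl | h
    · exact ⟨1, one_smul _ _⟩
    · exact (is_two_pretransitive_iff.1 h2 h h.symm).imp fun _ h => h.1⟩

variable [Fintype Ω]

theorem inv_form (h2 : IsMultiplyPretransitive G Ω 2) (A : Matrix Ω Ω ℤ)
    (hA : ∀ (g : G) x y, A (g • x) (g • y) = A x y) {o o' : Ω} (h : o ≠ o') (v : Ω → ℤ) :
    A *ᵥ v = fun x => (A o o - A o o') * v x + A o o' * ∑ y, v y := by
  classical
  funext x
  have : ∀ y, A x y * v y = (if x = y then (A o o - A o o') * v y else 0) + A o o' * v y := fun y => by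
    split_ifs with e
    · obtain ⟨g, rfl⟩ := (pretrans_of_two h2).exists_smul_eq o x
      rw [← e, hA]; ring
    · obtain ⟨g, rfl, rfl⟩ := is_two_pretransitive_iff.1 h2 h e
      rw [hA, zero_add]
  simp only [mulVec, dotProduct, this, Finset.sum_add_distrib, Finset.sum_ite_eq, Finset.mem_univ,
    if_true, Finset.mul_sum]

theorem card_orbit_aut (h2 : IsMultiplyPretransitive G Ω 2) (o : Ω) (α : MulAut G)
    (hα : Odd (orderOf α)) (ω : Ω)
    (hk : (Nat.card (orbit ((stabilizer G o).map α.toMonoidHom) ω)).Coprime (Fintype.card Ω)) :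
    Nat.card (orbit ((stabilizer G o).map α.toMonoidHom) ω) = 1 ∨
      Nat.card (orbit ((stabilizer G o).map α.toMonoidHom) ω) = Fintype.card Ω - 1 := by
  classical
  set Δ := orbit ((stabilizer G o).map α.toMonoidHom) ω with hΔ
  haveI : Nonempty Δ := ⟨⟨ω, mem_orbit_self ω⟩⟩
  have k0 : 0 < Nat.card Δ := Nat.card_pos
  have kn : Nat.card Δ ≤ Fintype.card Ω := by
    rw [← Nat.card_eq_fintype_card]; exact Nat.card_le_card_of_injective _ Subtype.val_injective
  rcases subsingleton_or_nontrivial Ω with h | h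
  · have := Fintype.card_le_one_iff_subsingleton.2 h
    omega
  obtain ⟨o', ho⟩ := exists_ne o
  have hn : 2 ≤ Fintype.card Ω := Fintype.one_lt_card
  have tr := pretrans_of_two h2
  let M : Matrix Ω Ω ℤ := fun x y => if ∃ g : G, g • o = y ∧ α g • ω = x then 1 else 0
  have hM : ∀ (g : G) x y, M (α g • x) (g • y) = M x y := fun g x y => if_congr
    ⟨fun ⟨h, h1, h2⟩ => ⟨g⁻¹ * h, by rw [mul_smul, h1, inv_smul_smul], by
      rw [map_mul, mul_smul, h2, map_inv, inv_smul_smul]⟩,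
    fun ⟨h, h1, h2⟩ => ⟨g * h, by rw [mul_smul, h1], by rw [map_mul, mul_smul, h2]⟩⟩ rfl rfl
  have hP : ∀ (j : ℕ) (g : G) x y, (M ^ j) ((α ^ j) g • x) (g • y) = (M ^ j) x y := fun j => by
    induction j with
    | zero => intro g x y; simp [one_apply]
    | succ j ih =>
      intro g x y
      rw [pow_succ', pow_succ', mul_apply, mul_apply,
        ← Equiv.sum_comp (toPerm ((α ^ j) g))]
      simp only [toPerm_apply, MulAut.mul_apply, hM, ih]
  have hQ : ∀ (g : G) x y, (Mᵀ * M) (g • x) (g • y) = (Mᵀ * M) x y := fun g x y => by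
    rw [mul_apply, mul_apply, ← Equiv.sum_comp (toPerm (α g))]
    simp only [toPerm_apply, transpose_apply, hM]
  have c0 : ∑ x, M x o = Nat.card Δ := by
    simp only [M, Finset.sum_boole]
    rw [Nat.card_eq_fintype_card, Fintype.card_subtype]
    congr 2; ext x
    simp only [Finset.mem_filter, Finset.mem_univ, true_and]
    exact ⟨fun ⟨g, h1, h2⟩ => ⟨⟨α g, g, h1, rfl⟩, h2⟩, fun ⟨⟨_, g, h1, rfl⟩, h2⟩ => ⟨g, h1, h2⟩⟩
  have col : ∀ y, ∑ x, M x y = Nat.card Δ := fun y => by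
    obtain ⟨g, rfl⟩ := tr.exists_smul_eq o y
    rw [← c0, ← Equiv.sum_comp (toPerm (α g))]
    simp only [toPerm_apply, hM]
  have row' : ∀ x, ∑ y, M x y = ∑ y, M o y := fun x => by
    obtain ⟨g, rfl⟩ := tr.exists_smul_eq o x
    obtain ⟨g, rfl⟩ := α.surjective g
    rw [← Equiv.sum_comp (toPerm g)]
    simp only [toPerm_apply, hM]
  have row : M *ᵥ (fun _ => 1) = (Nat.card Δ : ℤ) • fun _ => 1 := by
    funext x
    have := Finset.sum_comm (s := Finset.univ) (t := Finset.univ) (f := fun x y => M x y)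
    simp only [row', col, Finset.sum_const, Finset.card_univ, nsmul_eq_mul] at this
    simp only [mulVec, dotProduct, mul_one, row', Pi.smul_apply, smul_eq_mul]
    exact mul_left_cancel₀ (by positivity) this
  have rowp : ∀ j : ℕ, (M ^ j) *ᵥ (fun _ => 1) = (Nat.card Δ : ℤ) ^ j • fun _ => 1 := fun j => by
    induction j with
    | zero => simp
    | succ j ih => rw [pow_succ, ← mulVec_mulVec, row, mulVec_smul, ih, smul_smul, pow_succ']
  have hq : ∀ v : Ω → ℤ, (M *ᵥ v) ⬝ᵥ (M *ᵥ v) = ((Mᵀ * M) o o - (Mᵀ * M) o o') * v ⬝ᵥ v +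
      (Mᵀ * M) o o' * (∑ y, v y) ^ 2 := fun v => by
    rw [dotProduct_mulVec, vecMul_mulVec, ← dotProduct_mulVec, inv_form h2 _ hQ ho.symm]
    simp only [dotProduct, mul_add, Finset.sum_add_distrib, ← Finset.sum_mul]
    exact congrArg₂ _ ((Finset.sum_congr rfl fun _ _ => by ring).trans (Finset.mul_sum ..).symm)
      (by ring)
  have hw : ∀ (j : ℕ) (v : Ω → ℤ), ∑ y, v y = 0 → ∑ y, ((M ^ j) *ᵥ v) y = 0 ∧
      ((M ^ j) *ᵥ v) ⬝ᵥ ((M ^ j) *ᵥ v) = ((Mᵀ * M) o o - (Mᵀ * M) o o') ^ j * v ⬝ᵥ v := fun j v hv => by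
    induction j with
    | zero => simpa using hv
    | succ j ih =>
      rw [pow_succ', ← mulVec_mulVec, hq, ih.1, ih.2]
      refine ⟨?_, by ring⟩
      simp only [mulVec, dotProduct] at ih ⊢
      rw [Finset.sum_comm]
      simp only [← Finset.sum_mul, col]
      rw [← Finset.mul_sum, ih.1, mul_zero]
  obtain ⟨j, hj⟩ := hα
  have hR := inv_form h2 (M ^ (2 * j + 1)) (fun g x y => by
    simpa only [← hj, pow_orderOf_eq_one, MulAut.one_apply] using hP (2 * j + 1) g x y) ho.symm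
  have := design_arith (n := Fintype.card Ω) (k := Nat.card Δ) (j := j)
    (d := (Mᵀ * M) o o - (Mᵀ * M) o o') (l := (Mᵀ * M) o o')
    (a := (M ^ (2 * j + 1)) o o - (M ^ (2 * j + 1)) o o') (b := (M ^ (2 * j + 1)) o o')
    (by omega) (by omega) (by omega) (Finset.sum_nonneg fun x _ => by
      simp only [transpose_apply]; simp only [M]; split_ifs <;> norm_num) (Nat.isCoprime_iff_coprime.2 hk)
    (by
      rw [sub_add_cancel, ← c0, mul_apply]
      exact Finset.sum_congr rfl fun x _ => by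
        simp only [transpose_apply]; simp only [M]; split_ifs <;> norm_num)
    (by
      have := hq fun _ => 1
      rw [row] at this
      simp only [dotProduct, Pi.smul_apply, smul_eq_mul, mul_one, Finset.sum_const,
        Finset.card_univ, nsmul_eq_mul] at this
      exact mul_left_cancel₀ (show (Fintype.card Ω : ℤ) ≠ 0 by positivity) (by
        linear_combination this))
    (by
      have v0 : ∑ y, (Pi.single o 1 - Pi.single o' 1 : Ω → ℤ) y = 0 := by
        simp [Finset.sum_sub_distrib]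
      have := (hw (2 * j + 1) _ v0).2
      rw [hR, v0] at this
      have e : (Pi.single o 1 - Pi.single o' 1 : Ω → ℤ) ⬝ᵥ (Pi.single o 1 - Pi.single o' 1) = 2 := by
        simp [ho, ho.symm]
      simp only [mul_zero, add_zero] at this
      rw [show (fun x => ((M ^ (2 * j + 1)) o o - (M ^ (2 * j + 1)) o o') *
        (Pi.single o 1 - Pi.single o' 1 : Ω → ℤ) x) = ((M ^ (2 * j + 1)) o o - (M ^ (2 * j + 1)) o o') •
        (Pi.single o 1 - Pi.single o' 1 : Ω → ℤ) from rfl, smul_dotProduct, dotProduct_smul, e] at this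
      simp only [smul_eq_mul] at this
      linarith)
    (by simpa using (congrFun (rowp (2 * j + 1)) o).symm.trans (congrFun (hR _) o))
  omega

theorem aut_stab [Finite G] (h2 : IsMultiplyPretransitive G Ω 2) (o : Ω) (α : MulAut G)
    (hα : Odd (orderOf α)) (ω : Ω)
    (hk : (Nat.card (orbit ((stabilizer G o).map α.toMonoidHom) ω)).Coprime (Fintype.card Ω)) :
    ∃ z : Ω, (stabilizer G o).map α.toMonoidHom = stabilizer G z := by
  classical
  haveI := pretrans_of_two h2
  set K := (stabilizer G o).map α.toMonoidHom with hK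
  suffices ∃ z : Ω, K ≤ stabilizer G z from this.imp fun z hz => Subgroup.eq_of_le_of_card_ge hz (by
    rw [hK, Subgroup.card_map_of_injective α.injective]
    refine (Nat.eq_of_mul_eq_mul_right (show 0 < Nat.card Ω from ?_) ?_).le
    · haveI : Nonempty Ω := ⟨o⟩; exact Nat.card_pos
    · conv_lhs => rw [← index_stabilizer_of_transitive G z]
      rw [← index_stabilizer_of_transitive G o, Subgroup.card_mul_index, Subgroup.card_mul_index])
  rcases card_orbit_aut h2 o α hα ω hk with h | h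
  · haveI := (Nat.card_eq_one_iff_unique.1 h).1
    exact ⟨ω, fun g hg => congrArg Subtype.val (Subsingleton.elim
      (⟨_, mem_orbit ω (⟨g, hg⟩ : K)⟩ : orbit K ω) ⟨ω, mem_orbit_self ω⟩)⟩
  · have h1 := Set.ncard_add_ncard_compl (orbit K ω)
    have h3 : 0 < Fintype.card Ω := Fintype.card_pos_iff.2 ⟨o⟩
    rw [← Nat.card_coe_set_eq, h, Nat.card_eq_fintype_card] at h1
    obtain ⟨z, hz⟩ := Set.ncard_eq_one.1 (show (orbit K ω)ᶜ.ncard = 1 by omega)
    refine ⟨z, fun g hg => ?_⟩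
    have : z ∈ (orbit K ω)ᶜ := hz ▸ rfl
    exact (hz ▸ (fun ⟨k, hk⟩ => this ⟨(⟨g, hg⟩ : K)⁻¹ * k, by
      simp only [mul_smul] at hk ⊢; rw [hk]; exact inv_smul_smul g z⟩) : g • z ∈ ({z} : Set Ω))

theorem perm_of_aut_stab (tr : IsPretransitive G Ω) {o z : Ω} {α : MulAut G}
    (h : (stabilizer G o).map α.toMonoidHom = stabilizer G z) :
    ∃ σ : Equiv.Perm Ω, ∀ (g : G) x, σ (g • x) = α g • σ x := by
  choose t ht using tr.exists_smul_eq o
  have key : ∀ (g : G) x, α (t (g • x)) • z = α g • α (t x) • z := fun g x => by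
    have : α ((t (g • x))⁻¹ * g * t x) ∈ stabilizer G z := h ▸ ⟨_, by
      rw [SetLike.mem_coe, mem_stabilizer_iff, mul_smul, mul_smul, ht, inv_smul_eq_iff, ht], rfl⟩
    rw [mem_stabilizer_iff, map_mul, map_mul, map_inv, mul_smul, mul_smul, inv_smul_eq_iff] at this
    exact this.symm
  refine ⟨Equiv.ofBijective (fun x => α (t x) • z) (Finite.surjective_iff_bijective.1 fun y => ?_), key⟩
  obtain ⟨g, hg⟩ := tr.exists_smul_eq (α (t o) • z) y
  obtain ⟨g, rfl⟩ := α.surjective g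
  exact ⟨g • o, (key g o).trans hg⟩

theorem norm_of_aut (G : Subgroup (Equiv.Perm Ω)) (h2 : IsMultiplyPretransitive G Ω 2) (o : Ω)
    (α : MulAut G) (hα : Odd (orderOf α)) (ω : Ω)
    (hk : (Nat.card (orbit ((stabilizer G o).map α.toMonoidHom) ω)).Coprime (Fintype.card Ω)) :
    ∃ σ : Equiv.Perm Ω, σ ∈ Subgroup.normalizer (G : Set (Equiv.Perm Ω)) ∧
      ∀ g : G, ((α g : G) : Equiv.Perm Ω) = σ * (g : Equiv.Perm Ω) * σ⁻¹ := by
  obtain ⟨z, hz⟩ := aut_stab h2 o α hα ω hk
  obtain ⟨σ, hσ⟩ := perm_of_aut_stab (pretrans_of_two h2) hz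
  have key : ∀ g : G, ((α g : G) : Equiv.Perm Ω) = σ * (g : Equiv.Perm Ω) * σ⁻¹ := fun g => by
    rw [eq_mul_inv_iff_mul_eq]; exact Equiv.ext fun x => (hσ g x).symm
  exact ⟨σ, Subgroup.mem_normalizer_fintype fun n hn => key ⟨n, hn⟩ ▸ (α ⟨n, hn⟩).2, key⟩

theorem coprime_orbit_of_hall [IsPretransitive G Ω] (o : Ω) (α : MulAut G)
    (h : (Nat.card (stabilizer G o)).Coprime (stabilizer G o).index) (ω : Ω) :
    (Nat.card (orbit ((stabilizer G o).map α.toMonoidHom) ω)).Coprime (Fintype.card Ω) := by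
  rw [index_stabilizer_of_transitive, Nat.card_eq_fintype_card (α := Ω),
    ← Subgroup.card_map_of_injective (f := α.toMonoidHom) α.injective] at h
  refine h.coprime_dvd_left ?_
  rw [Nat.card_coe_set_eq, ← index_stabilizer]
  exact Subgroup.index_dvd_card _

/-- Automorphisms induced by a permutation of `Ω`. -/
def permAut (G Ω : Type*) [Group G] [MulAction G Ω] : Subgroup (MulAut G) where
  carrier := {α | ∃ σ : Equiv.Perm Ω, ∀ (g : G) x, σ (g • x) = α g • σ x}
  one_mem' := ⟨1, fun _ _ => rfl⟩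
  mul_mem' := fun ⟨σ, hσ⟩ ⟨τ, hτ⟩ => ⟨σ * τ, fun g x => by
    simp only [Equiv.Perm.mul_apply, MulAut.mul_apply, hτ, hσ]⟩
  inv_mem' := fun ⟨σ, hσ⟩ => ⟨σ⁻¹, fun g x => σ.injective (by simp [hσ])⟩

omit [Fintype Ω] in
theorem conj_mem_permAut (g : G) : MulAut.conj g ∈ permAut G Ω :=
  ⟨toPerm g, fun h x => by simp [mul_smul]⟩

omit [Fintype Ω] in
theorem permAut_inner [FaithfulSMul G Ω] {o : Ω} {α : MulAut G} (h : α ∈ permAut G Ω) {u : G}
    (hP : ∀ y, ∃ i : ℤ, u ^ i • o = y) (hα : α u = u) : ∃ g, MulAut.conj g = α := by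
  obtain ⟨σ, hσ⟩ := h
  obtain ⟨i, hi⟩ := hP (σ o)
  have key : ∀ y, σ y = u ^ i • y := fun y => by
    obtain ⟨j, rfl⟩ := hP y
    rw [hσ, map_zpow, hα, ← hi, smul_smul, smul_smul, zpow_mul_comm]
  refine ⟨u ^ i, MulEquiv.ext fun g => eq_of_smul_eq_smul (α := Ω) fun y => ?_⟩
  have := hσ g ((u ^ i)⁻¹ • y)
  rw [key, key, smul_inv_smul] at this
  rw [← this, MulAut.conj_apply, mul_smul, mul_smul]

end H23
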