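import Cfsg.Agent.H23.Van1
import Cfsg.Agent.H6.CD3
import Cfsg.Agent.H6.Zeros

/-! Solvable groups with squarefree character degrees. -/

set_option autoImplicit false
set_option linter.unusedSectionVars false

namespace H23.VE
open Cfsg H5 Subgroup H19
open scoped commutatorElement

theorem sq_nil {Γ : Type*} [Group Γ] [Finite Γ] {K X : Subgroup Γ} (hX : Nil X) (hK : K ≤ X)
    (h : Squarefree (K.relIndex X)) : ⁅X, X⁆ ≤ K := by
  refine le_of_syl fun p P hp hP => ?_
  have o := nil_Oc_hall hX {p}ᶜ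
  have n : K ≤ N(Oc {p}ᶜ X) := hK.trans (Oc_norm _ _)
  have le : K ⊔ Oc {p}ᶜ X ≤ X := sup_le hK o.le
  have a : ⁅X, X⁆ ≤ K ⊔ Oc {p}ᶜ X := by
    have i : PiN {p} ((K ⊔ Oc {p}ᶜ X).relIndex X) := by
      simpa using o.idx.dvd (relIndex_dvd_left le_sup_right X)
    obtain ⟨k, e⟩ := i.exists_pow (relIndex_ne_zero' _ _)
    have s := (h.squarefree_of_dvd (relIndex_dvd_left (le_sup_left (b := Oc {p}ᶜ X)) X))
    rw [e] at s
    rcases k with _ | _ | k
    · exact (der_le X).trans (relIndex_eq_one.1 e)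
    · rw [zero_add, pow_one] at e
      have lt : K ⊔ Oc {p}ᶜ X < X := le.lt_of_ne fun c => hp.one_lt.ne (by rw [← e, c, relIndex_self])
      have := nil_lt_norm hX lt
      have nn : X ≤ N(K ⊔ Oc {p}ᶜ X) := inf_eq_left.1
        ((eq_of_prime_index this.le inf_le_left (by rwa [e])).resolve_left this.ne')
      exact (ab_quo_iff nn).1 (comm_of_cyclic (cyclic_of_prime (by rwa [card_quo nn, e])))
    · exact absurd (Nat.isUnit_iff.1 (s p ⟨p ^ k, by ring⟩)) hp.ne_one
  have b : Syl p (Oc {p} K) (K ⊔ Oc {p}ᶜ X) := (nil_Oc_hall (nil_mono hX hK) {p}).of_idx le_sup_left (by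
    have := relIndex_sup_right_of_norm n
    exact (Oc_pi _ _).dvd (by
      have e1 := card_mul_relIndex (le_sup_left : K ≤ K ⊔ Oc {p}ᶜ X)
      have e2 := card_mul_relIndex (le_sup_right : Oc {p}ᶜ X ≤ K ⊔ Oc {p}ᶜ X)
      have e3 := card_inf_mul_relIndex (Oc {p}ᶜ X) K
      have e4 : (Oc {p}ᶜ X).relIndex (K ⊔ Oc {p}ᶜ X) = (Oc {p}ᶜ X).relIndex K := by
        rw [sup_comm, relIndex_sup_of_norm n]
      refine ⟨#(Oc {p}ᶜ X ⊓ K), Nat.eq_of_mul_eq_mul_left (relIndex_pos (Oc {p}ᶜ X) K) ?_⟩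
      rw [e4, ← e1, ← e3] at e2
      linarith))
  exact (nil_le_hall (nil_mono hX le) b (hP.le.trans a) hP.pi).trans (Oc_le _ _)

section abs
variable {H W : Type*} [Group H] [Finite H] [CommGroup W] [Finite W] {q : ℕ} {ρ : H →* MulAut W}

theorem not_dvd_ab (inj : Function.Injective ρ) (hq : q.Prime) (pg : IsPGroup q W) [Nontrivial W]
    (irr : ∀ K : Subgroup W, (∀ h, ∀ w ∈ K, ρ h w ∈ K) → K = ⊥ ∨ K = ⊤)
    (B : Subgroup H) [hB : B.Normal] [IsMulCommutative B] : (Nat.card B).Coprime (Nat.card W) := by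
  have c : ∀ a ∈ B, ∀ b ∈ B, a * b = b * a := fun a ha b hb => setLike_mul_comm ha hb
  have := Fact.mk hq
  obtain ⟨n, hn, e⟩ := pg.nontrivial_iff_card.1 inferInstance
  refine e ▸ ((Nat.Prime.coprime_iff_not_dvd hq).2 fun hd => ?_).symm.pow_right n
  let N : Subgroup H :=
    { carrier := {x | x ∈ B ∧ x ^ q = 1}
      mul_mem' := fun {x y} hx hy => ⟨mul_mem hx.1 hy.1, by
        rw [Commute.mul_pow (c x hx.1 y hy.1), hx.2, hy.2, mul_one]⟩
      one_mem' := ⟨one_mem _, one_pow _⟩
      inv_mem' := fun {x} hx => ⟨inv_mem hx.1, by rw [inv_pow, hx.2, inv_one]⟩ }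
  have hN : IsPGroup q N := H1.isPGroup_of_pow_eq_one fun x hx => hx.2
  letI : MulAction N W := MulAction.compHom W (ρ.comp N.subtype)
  obtain ⟨w, hw, w1⟩ := hN.exists_fixed_point_of_prime_dvd_card_of_fixed_point W
    (e ▸ dvd_pow_self q hn.ne') (a := (1 : W)) fun x => map_one (ρ x)
  rcases irr (H2.autFixed (ρ.comp N.subtype)) (fun g u hu x => by
    have := hu ⟨g⁻¹ * x * g⁻¹⁻¹, hB.conj_mem _ x.2.1 _, by rw [conj_pow, x.2.2]; simp⟩
    have := congrArg (ρ g) this
    change ρ g (ρ (g⁻¹ * x * g⁻¹⁻¹) u) = _ at this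
    change ρ x (ρ g u) = _
    refine Eq.trans ?_ this
    rw [← MulAut.mul_apply, ← MulAut.mul_apply, ← map_mul, ← map_mul]
    congr 2; group) with e | e
  · exact w1 (mem_bot.1 (e ▸ show w ∈ H2.autFixed (ρ.comp N.subtype) from fun x => hw x)).symm
  · obtain ⟨x, hx⟩ := exists_prime_orderOf_dvd_card' q hd
    have : ρ x = ρ 1 := MulEquiv.ext fun u => by
      simpa using (e ▸ mem_top u : u ∈ H2.autFixed (ρ.comp N.subtype))
        ⟨x, x.2, by rw [← coe_pow, ← hx, pow_orderOf_eq_one, coe_one]⟩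
    have : x = 1 := Subtype.ext (inj this)
    exact hq.one_lt.ne (by simpa [this] using hx)

/-- stabilizer of a linear character -/
def St (ρ : H →* MulAut W) (l : W →* ℂˣ) : Subgroup H where
  carrier := {b | ∀ u, l (ρ b u) = l u}
  mul_mem' := fun {a b} ha hb u => by rw [map_mul, MulAut.mul_apply, ha, hb]
  one_mem' := fun u => by simp
  inv_mem' := fun {a} ha u => by rw [← ha, ← MulAut.mul_apply, ← map_mul]; simp

theorem eq_one_of_St (inj : Function.Injective ρ) {x : H} (h : ∀ l, x ∈ St ρ l) : x = 1 := by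
  refine inj ((MulEquiv.ext fun u => ?_).trans (map_one ρ).symm)
  by_contra n
  obtain ⟨l, -, hl⟩ := exists_char (⊥ : Subgroup W) (w := ρ x u * u⁻¹) (by simpa [mul_inv_eq_one] using n)
  exact hl (by rw [map_mul, h l u, map_inv, mul_inv_cancel])

theorem der_two_of_sq [Group.IsSolvable H] (inj : Function.Injective ρ) (hq : q.Prime)
    (pg : IsPGroup q W) [Nontrivial W]
    (irr : ∀ K : Subgroup W, (∀ h, ∀ w ∈ K, ρ h w ∈ K) → K = ⊥ ∨ K = ⊤)
    (h : ∀ l, Squarefree (St ρ l).index) : derivedSeries H 2 = ⊥ := by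
  have hF := Fit_normal (⊤ : Subgroup H)
  have := hF.normal
  have s : ∀ l, Squarefree ((St ρ l ⊓ Fit ⊤).relIndex (Fit ⊤)) := fun l => (h l).squarefree_of_dvd (by
    rw [inf_relIndex_right, ← relIndex_top_right]
    exact relIndex_dvd_of_norm' (hF.norms le_top) le_top le_top)
  have a : Ab (Fit (⊤ : Subgroup H)) := comm_iff_der.2 (eq_bot_iff.2 fun x hx =>
    eq_one_of_St inj fun l => (sq_nil (Fit_nil _) inf_le_right (s l) hx).1)
  obtain ⟨l, hl⟩ := reg (ρ.comp (Fit ⊤).subtype) (fun a b => Subtype.ext (setLike_mul_comm a.2 b.2))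
    (not_dvd_ab inj hq pg irr _)
  have b : St ρ l ⊓ Fit ⊤ = ⊥ := eq_bot_iff.2 fun x hx => inj ((hl ⟨x, hx.2⟩ hx.1).trans (map_one ρ).symm)
  have c := s l
  rw [b, relIndex_bot_left] at c
  have cy : IsCyclic (Fit (⊤ : Subgroup H)) := nil_cyc_of_zgroup (Fit_nil _) (IsZGroup.of_squarefree c)
  have d : ⁅(⊤ : Subgroup H), ⊤⁆ ≤ Fit ⊤ := le_trans (le_inf le_top (commutator_le.2 fun x _ y _ => mem_centralizer_iff.2 fun u hu => by
    letI := IsCyclic.commGroup (α := Fit (⊤ : Subgroup H))
    have : ⁅x, y⁆ ∈ (MulAut.conjNormal (H := Fit (⊤ : Subgroup H))).ker := by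
      rw [MonoidHom.mem_ker, map_commutatorElement, commutatorElement_eq_one_iff_mul_comm]
      exact (IsCyclic.mulAutMulEquiv _).injective (by rw [map_mul, map_mul, mul_comm])
    have := congrArg (fun f : MulAut (Fit (⊤ : Subgroup H)) => (f ⟨u, hu⟩ : H)) (MonoidHom.mem_ker.1 this)
    simp only [MulAut.conjNormal_apply, MulAut.one_apply] at this
    exact (mul_inv_eq_iff_eq_mul.1 this).symm)) (cent_Fit_le inferInstance)
  exact eq_bot_iff.2 ((commutator_mono d d).trans (comm_iff_der.1 a).le)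

end abs

universe u

theorem nil_der_two (n : ℕ) : ∀ (G : Type u) [Group G] [Finite G] [Group.IsSolvable G], Nat.card G = n →
    (∀ χ : IrrCharacter G, Squarefree (charDegree (χ : G → ℂ))) → Nil (derivedSeries G 2) := by
  induction n using Nat.strong_induction_on with | _ n ih
  intro G _ _ _ hn h
  rcases subsingleton_or_nontrivial G with _ | _
  · infer_instance
  obtain ⟨V, q, hq, -, hV, V1, ⟨Vc, Vq⟩, Vm⟩ :=
    H1.exists_minimal_normal_elementary_le (⊤ : Subgroup G) top_ne_bot inferInstance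
  have i := ih _ (by
    rw [← hn, card_eq_card_quotient_mul_card_subgroup V]
    exact lt_mul_of_one_lt_right Nat.card_pos (one_lt_card_iff_ne_bot V |>.2 V1)) (G ⧸ V) rfl
    fun χ => h (H7.infl _ (QuotientGroup.mk'_surjective V) χ)
  letI : CommGroup V := { mul_comm := fun a b => Subtype.ext (setLike_mul_comm a.2 b.2) }
  let c : G →* MulAut V := MulAut.conjNormal
  let f := c.rangeRestrict
  have sf : Function.Surjective f := c.rangeRestrict_surjective
  have : Group.IsSolvable c.range := Group.isSolvable_of_surjective sf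
  have := (nontrivial_iff_ne_bot V).2 V1
  have d := der_two_of_sq (ρ := c.range.subtype) (subtype_injective _) hq (H1.isPGroup_of_pow_eq_one Vq)
    (fun K hK => by
      rcases Vm (K.map V.subtype) ⟨by
        rintro _ ⟨w, hw, rfl⟩ g
        exact ⟨_, hK (f g) w hw, rfl⟩⟩ (map_subtype_le _) with e | e
      · exact .inl ((map_eq_bot_iff_of_injective _ (subtype_injective _)).1 e)
      · exact .inr (map_injective (subtype_injective _) (by rw [e, ← MonoidHom.range_eq_map, range_subtype])))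
    (fun l => by
      have := Fintype.ofFinite G
      have := Fintype.ofFinite V
      obtain ⟨χ, hχ, h0⟩ := (isIrrCharacter_unitsHom l).exists_irr_above (H := V)
      have e := H6.clifford_degree hχ (isIrrCharacter_unitsHom l) h0
      obtain ⟨m, hm⟩ := (hχ.isCharacter.restrict V).exists_classInner_nat (isCharacter_unitsHom l)
      rw [hm, H6.irr_deg hχ, map_one, Units.val_one, mul_one] at e
      have e' : (St c.range.subtype l).comap f = H6.inertia fun v : V => (l v : ℂ) := by
        ext g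
        rw [H6.mem_inertia']
        exact forall_congr' fun u => Units.ext_iff
      rw [← index_comap_of_surjective _ sf, e']
      exact (h ⟨χ, hχ⟩).squarefree_of_dvd (Dvd.intro_left m (by exact_mod_cast e.symm)))
  have k : derivedSeries G 2 ≤ centralizer V := fun g hg v hv => by
    have : f g = 1 := mem_bot.1 (d ▸ map_derivedSeries_le_derivedSeries f 2 (mem_map_of_mem f hg))
    have := congrArg (fun f : c.range => (f.1 ⟨v, hv⟩ : G)) this
    exact (mul_inv_eq_iff_eq_mul.1 this).symm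
  let π : derivedSeries G 2 →* derivedSeries (G ⧸ V) 2 :=
    ((QuotientGroup.mk' V).comp (derivedSeries G 2).subtype).codRestrict _ fun x =>
      map_derivedSeries_le_derivedSeries (QuotientGroup.mk' V) 2 (mem_map_of_mem _ x.2)
  refine Subgroup.isNilpotent_of_ker_le_center π (fun x hx => mem_center_iff.2 fun y => Subtype.ext ?_)
  exact (k y.2 x ((QuotientGroup.eq_one_iff _).1 (congrArg Subtype.val hx))).symm

theorem der_four {G : Type*} [Group G] [Finite G] [Group.IsSolvable G]
    (h : ∀ χ : IrrCharacter G, Squarefree (charDegree (χ : G → ℂ))) : derivedSeries G 4 = ⊥ := by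
  have n := nil_der_two _ G rfl h
  have d : H6.Dg (derivedSeries G 2) ⊥ Squarefree :=
    (H6.dg_top.2 h).normal normalIn_top fun a b e s => s.squarefree_of_dvd e
  refine eq_bot_iff.2 (H6.le_of_forall_cker (.bot (derivedSeries G 2))
    ((commutator_le_left _ _).trans (commutator_le_left _ _)) fun χ hχ _ => ?_)
  obtain ⟨K, hK, l, hl, rfl⟩ := H6.mon_of_ab_nil (.bot _) (nil_quo n _) hχ (by simp)
  have s := d.bot hχ
  rw [H20.deg_Ind hl.1 hK] at s
  have a := sq_nil n hK (s.squarefree_of_dvd (dvd_mul_right _ _))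
  refine H20.le_cker_Ind le_normalizer_of_normal ((commutator_le_left _ _).trans a)
    ((commutator_mono a a).trans ((H6.der_le_cker hl.irr).2 hl.deg))

end H23.VE
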